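import Cfsg.Agent.Fischer.UG
import Cfsg.Agent.PGrp.Extra2
import Cfsg.Agent.Herm.Iso

/-! Small modules over `F₂` for `U₄(3)`, and the Hermitian form given by a fixed-point-free
isometry of order `3`. -/

set_option autoImplicit false
set_option linter.unusedSectionVars false
set_option linter.unusedVariables false

namespace Cfsg.Agent.LF
open Subgroup Module Cfsg.Agent.Comp Cfsg.Agent.FiC Cfsg.Agent.Herm Cfsg.Agent.Fischer.U6

theorem orb_fix {T X : Type*} [Group T] [Finite T] [Finite X] [MulAction T X]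
    (hT : Nat.card T = 3 ^ 6) {z : T} (hz : ∀ N : Subgroup T, N.Normal → N ≠ ⊥ → z ∈ N)
    (hX : ¬ 27 ∣ Nat.card X) : ∃ x : X, z • x = x := by
  classical
  have := Fintype.ofFinite (MulAction.orbitRel.Quotient T X)
  rw [Nat.card_congr (MulAction.selfEquivSigmaOrbits T X), Nat.card_sigma] at hX
  obtain ⟨ω, hω⟩ : ∃ ω : MulAction.orbitRel.Quotient T X,
      ¬ 27 ∣ Nat.card (MulAction.orbit T ω.out) := by
    by_contra h
    push Not at h
    exact hX (Finset.dvd_sum fun ω _ => h ω)
  refine ⟨ω.out, normalCore_le (MulAction.stabilizer T ω.out) (hz _ inferInstance fun h => ?_)⟩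
  rw [Nat.card_coe_set_eq, ← MulAction.index_stabilizer] at hω
  obtain ⟨k, hk, e⟩ := (Nat.dvd_prime_pow Nat.prime_three).1
    (hT ▸ (MulAction.stabilizer T ω.out).index_dvd_card)
  rw [normalCore_eq_ker, MonoidHom.ker_eq_bot_iff] at h
  have h1 := card_dvd_of_injective _ h
  rw [Nat.card_perm, ← index_eq_card, hT, e] at h1
  rw [e] at hω
  interval_cases k <;> revert h1 hω <;> decide

theorem u43_syl : ∃ (T : Subgroup SchurG.U62.G) (i : T →* SchurG.U43.G) (z : T),
    Function.Injective i ∧ Nat.card T = 3 ^ 6 ∧ z ≠ 1 ∧ z ^ 3 = 1 ∧ z ∈ center T ∧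
      ∀ N : Subgroup T, N.Normal → N ≠ ⊥ → z ∈ N := by
  obtain ⟨τ, s, b⟩ := U62.baseE
  have : Finite SchurG.U62.G := Nat.finite_of_card_ne_zero (by rw [b.card]; norm_num)
  have a := U62.am b
  obtain ⟨⟨h1, -, ⟨e⟩⟩, -⟩ := U62.ks b 0
  have h3 : orderOf (E s [68]) = 3 := by rw [← Nat.card_zpowers]; exact a.z3
  have : Fact (Nat.Prime 3) := ⟨Nat.prime_three⟩
  refine ⟨_, e.toMonoidHom.comp (inclusion (a.PL.trans h1)), ⟨_, a.zP⟩,
    e.injective.comp (inclusion_injective _), a.cP, fun h => ?_,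
    Subtype.ext (h3 ▸ pow_orderOf_eq_one _), mem_center_iff.2 fun g => Subtype.ext
      (a.cZ.ge (mem_zpowers _) g g.2), fun N _ hN => ?_⟩
  · rw [show E s [68] = 1 from congrArg Subtype.val h, orderOf_one] at h3
    omega
  · obtain ⟨y, h4, h5, h6⟩ := PGrp.exists_mem_center_orderOf_eq (IsPGroup.of_card a.cP) N hN
    have h7 : zpowers y.1 = zpowers (E s [68]) := eq_of_le_of_card_ge (zpowers_le.2 (a.cZ.le
      fun g hg => congrArg Subtype.val (mem_center_iff.1 h5 ⟨g, hg⟩)))
      (by rw [Nat.card_zpowers, Nat.card_zpowers, h3, orderOf_coe, h6])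
    obtain ⟨k, hk⟩ := h7.ge (mem_zpowers _)
    exact (show y ^ k = ⟨_, a.zP⟩ from Subtype.ext hk) ▸ zpow_mem h4 k

variable {V : Type*} [AddCommGroup V] [Module (ZMod 2) V] [Finite V]

theorem two_v (v : V) : v + v = 0 := by
  rw [← two_smul (ZMod 2), show (2 : ZMod 2) = 0 from rfl, zero_smul]

theorem card_sub (W : Submodule (ZMod 2) V) : Nat.card W = 2 ^ finrank (ZMod 2) W := by
  rw [natCard_eq_pow_finrank (K := ZMod 2), Nat.card_zmod]

/-- `U₄(3)` has no faithful module of dimension at most `12` over `F₂` -/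
theorem no_u43 (hV : finrank (ZMod 2) V ≤ 12) (φ : SchurG.U43.G →* (V ≃ₗ[ZMod 2] V)) (g) :
    φ g = 1 := by
  have := SchurG.U43.simple
  rcases (φ.normal_ker).eq_bot_or_eq_top with h | h
  swap
  · exact h.ge (mem_top g)
  exfalso
  classical
  obtain ⟨T, i, z, hi, hT, z1, z3, zc, hz⟩ := u43_syl
  have : Finite T := Nat.finite_of_card_ne_zero (by rw [hT]; norm_num)
  obtain ⟨ψ, hψ⟩ : ∃ ψ : T →* (V ≃ₗ[ZMod 2] V), Function.Injective ψ :=
    ⟨φ.comp i, ((MonoidHom.ker_eq_bot_iff φ).1 h).comp hi⟩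
  have hc : ∀ t v, ψ z (ψ t v) = ψ t (ψ z v) := fun t v => by
    rw [← LinearEquiv.mul_apply, ← LinearEquiv.mul_apply, ← map_mul, ← map_mul,
      mem_center_iff.1 zc t]
  let W : Submodule (ZMod 2) V := LinearMap.ker (LinearMap.id + (ψ z : V →ₗ[ZMod 2] V) +
    (ψ z : V →ₗ[ZMod 2] V) ∘ₗ (ψ z : V →ₗ[ZMod 2] V))
  have hW : ∀ v, v ∈ W ↔ v + ψ z v + ψ z (ψ z v) = 0 := fun v => Iff.rfl
  let _ : MulAction T {v : W // v ≠ 0} :=
    { smul := fun t v => ⟨⟨ψ t v.1, by
        rw [hW, hc, hc, hc, ← map_add, ← map_add, (hW _).1 v.1.2, map_zero]⟩, fun h => v.2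
          (Subtype.ext ((ψ t).map_eq_zero_iff.1 (congrArg Subtype.val h)))⟩
      one_smul := fun v => Subtype.ext (Subtype.ext (by
        show ψ 1 v.1 = v.1
        simp))
      mul_smul := fun a b v => Subtype.ext (Subtype.ext (by
        show ψ (a * b) v.1 = ψ a (ψ b v.1)
        simp)) }
  obtain ⟨v, hv⟩ := orb_fix (X := {v : W // v ≠ 0}) hT hz (by
    have h0 : finrank (ZMod 2) W ≠ 0 := fun h0 => z1 (hψ (by
      rw [map_one]
      ext v
      have h3 : ψ z (ψ z (ψ z v)) = v := by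
        rw [← LinearEquiv.mul_apply, ← LinearEquiv.mul_apply, ← map_mul, ← map_mul, ← pow_three',
          z3, map_one]; rfl
      have : v + ψ z v ∈ W := by
        rw [hW, map_add, map_add, h3]
        have h1 := two_v v
        have h2 := two_v (ψ z v)
        have h4 := two_v (ψ z (ψ z v))
        linear_combination (norm := abel) h1 + h2 + h4
      rw [Submodule.finrank_eq_zero.1 h0, Submodule.mem_bot] at this
      exact (eq_neg_of_add_eq_zero_right this).trans (neg_eq_of_add_eq_zero_right (two_v v))))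
    have h1 := W.finrank_le.trans hV
    have h2 : Nat.card {v : W // v ≠ 0} + 1 = 2 ^ finrank (ZMod 2) W := by
      rw [← card_sub, ← Nat.card_congr (Equiv.optionSubtypeNe (0 : W)), Finite.card_option]
    generalize finrank (ZMod 2) W = d at h0 h1 h2
    interval_cases d <;> omega)
  have h1 : ψ z v.1 = v.1 := congrArg (fun v : {v : W // v ≠ 0} => (v.1 : V)) hv
  have h2 := (hW _).1 v.1.2
  rw [h1, h1, two_v, zero_add] at h2
  exact v.2 (Subtype.ext h2)

theorem no_37 (hV : finrank (ZMod 2) V ≤ 11) : ¬ 3 ^ 7 ∣ Nat.card (V ≃ₗ[ZMod 2] V) := by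
  rw [card_linearEquiv (F := ZMod 2) rfl, Nat.card_zmod]
  generalize finrank (ZMod 2) V = d at hV
  interval_cases d <;> decide +kernel

theorem c4 : Nat.card K4 = 2 ^ 2 := natCard_of_card card_K4

/-- the involution of `K4` -/
abbrev s4 : K4 →+* K4 := Herm.frob c4

theorem s4_eq : ∀ a : K4, s4 a = ⟨a.re + a.im, a.im⟩ := by
  intro a
  rw [frob_apply]
  revert a
  decide +kernel

open QuadraticMap in
theorem exists_herm {q : QuadraticForm (ZMod 2) V} (hq : Orth.ND q) (hV : Nat.card V = 2 ^ 12)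
    {ξ : V →ₗ[ZMod 2] V} (h1 : ∀ v, q (ξ v) = q v) (h2 : ∀ v, ξ (ξ v) = v + ξ v) :
    ∃ (_ : Module K4 V) (B : V →ₛₗ[s4] V →ₗ[K4] K4), Sp B ∧
      (∀ (c : K4) (v : V), c • v = c.re • v + c.im • ξ v) ∧
      (∀ u v, B u v = ⟨polar q u v + polar q u (ξ v), polar q u v⟩) ∧ ∀ v, B v v = 0 ↔ q v = 0 := by
  let r : K4 →ₐ[ZMod 2] Module.End (ZMod 2) V := QuadraticAlgebra.lift ⟨ξ, by
    ext v
    simp [h2]⟩
  let _ : Module K4 V := Module.compHom V r.toRingHom
  have hs : ∀ (c : K4) (v : V), c • v = c.re • v + c.im • ξ v := fun c v => rfl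
  have hp := Orth.polar_of_isom ξ h1
  let f : V → V → K4 := fun u v => ⟨polar q u v + polar q u (ξ v), polar q u v⟩
  have f1 : ∀ u v, s4 (f u v) = f v u := fun u v => by
    have : polar q v (ξ u) = polar q u v + polar q u (ξ v) := by
      rw [← hp, h2, polar_add_right, hp, polar_comm q v, polar_comm q (ξ v), add_comm]
    simp only [s4_eq, f, this, polar_comm q v u]
    generalize polar q u v = a
    generalize polar q u (ξ v) = b
    revert a b
    decide
  have f2 : ∀ c u v, f u (c • v) = c * f u v := fun c u v => by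
    simp only [f, hs, map_add, map_smul, h2, polar_add_right, polar_smul_right, smul_eq_mul]
    generalize polar q u v = a
    generalize polar q u (ξ v) = b
    revert a b c
    decide +kernel
  let B : V →ₛₗ[s4] V →ₗ[K4] K4 := LinearMap.mk₂'ₛₗ s4 (RingHom.id K4) f
    (fun u v w => by ext <;> simp [f, polar_add_left]; ring)
    (fun c u v => by rw [← f1, f2, map_mul, f1, smul_eq_mul])
    (fun u v w => by ext <;> simp [f, polar_add_right]; ring) f2
  have : Module.Finite K4 V := Module.Finite.of_finite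
  refine ⟨inferInstance, B, ⟨⟨inv_frob c4, f1, fun x hx => hq x fun y =>
    congrArg QuadraticAlgebra.im (hx y)⟩, c4, ?_⟩, hs, fun _ _ => rfl, fun v => ?_⟩
  · rw [natCard_eq_pow_finrank (K := K4), c4, ← pow_mul] at hV
    have := Nat.pow_right_injective le_rfl hV
    omega
  · have h3 : polar q v (ξ v) = q v := by
      rw [polar, ← h2, h1, h1]
      generalize q v = a
      revert a
      decide
    have h4 : polar q v v = 0 := by
      rw [polar_self, two_smul]
      generalize q v = a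
      revert a
      decide
    show f v v = 0 ↔ _
    simp only [f, h3, h4]
    generalize q v = a
    revert a
    decide

end Cfsg.Agent.LF
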