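import Cfsg.Agent.Fischer.LA
import Cfsg.Agent.Fischer.ES

/-! The unitary structure on `Q / ⟨z⟩` for an involution centralizer `2^{1+12}.3.U₄(3).2`. -/

set_option autoImplicit false
set_option linter.unusedSectionVars false
set_option linter.unusedVariables false

namespace Cfsg.Agent.LF
open Subgroup Module Cfsg.Agent.Comp Cfsg.Agent.FiC Cfsg.Agent.Herm Cfsg.Agent.Fischer.U6
  Cfsg.Agent.Fischer
open scoped commutatorElement

theorem exists_res {Γ F V : Type*} [Group Γ] [Field F] [AddCommGroup V] [Module F V]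
    (ρ : Γ →* (V ≃ₗ[F] V)) (W : Submodule F V) (h : ∀ g, ∀ v ∈ W, ρ g v ∈ W) :
    ∃ ρ' : Γ →* (W ≃ₗ[F] W), ∀ g v, (ρ' g v : V) = ρ g v :=
  ⟨MonoidHom.mk' (fun g =>
    { toFun := fun v => ⟨ρ g v, h g v v.2⟩
      invFun := fun v => ⟨ρ g⁻¹ v, h _ v v.2⟩
      map_add' := fun _ _ => Subtype.ext (map_add _ _ _)
      map_smul' := fun _ _ => Subtype.ext (map_smul _ _ _)
      left_inv := fun v => Subtype.ext (by simp)
      right_inv := fun v => Subtype.ext (by simp) }) fun a b => by ext; simp, fun _ _ => rfl⟩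

variable {H : Type*} [Group H] [Finite H] {Q N M L : Subgroup H} {z : H}

/-- the shape of the centralizer -/
structure St (Q N M : Subgroup H) (z : H) : Prop where
  l : LS Q z
  c : ∀ h, Commute h z
  cQ : Nat.card Q = 2 ^ 13
  nN : N.Normal
  nM : M.Normal
  QN : Q ≤ N
  NM : N ≤ M
  cN : Nat.card N = 3 * Nat.card Q
  iM : M.index = 2
  ex : ∃ π : M →* SchurG.U43.G, Function.Surjective π ∧ ∀ m, π m = 1 ↔ (m : H) ∈ N

namespace St
variable (h : St Q N M z)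
include h

theorem nQ : Q.Normal := ⟨fun a ha g => h.l.norm g (h.c g) a ha⟩

theorem perf : M ≤ ⁅M, M⁆ ⊔ N := fun m hm => by
  obtain ⟨π, h1, h2⟩ := h.ex
  have : (_root_.commutator M).map π = ⊤ := by
    rw [_root_.commutator_def, map_commutator, ← MonoidHom.range_eq_map, MonoidHom.range_eq_top.2 h1]
    exact U62.u43_perf
  obtain ⟨c, hc, e⟩ := this.ge (mem_top (π ⟨m, hm⟩))
  have h3 := (h2 (c⁻¹ * ⟨m, hm⟩)).1 (by rw [map_mul, map_inv, e, inv_mul_cancel])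
  simpa using mul_mem (mem_sup_left ((Core.map_commutator_subtype M).le ⟨c, hc, rfl⟩))
    (mem_sup_right h3)

theorem cM : Nat.card M = Nat.card N * 3265920 := by
  obtain ⟨π, h1, h2⟩ := h.ex
  rw [← card_mul_index π.ker, index_ker, MonoidHom.range_eq_top.2 h1, card_top, SchurG.U43.card.2.1,
    show π.ker = N.subgroupOf M from Subgroup.ext h2, Core.card_subgroupOf_of_le h.NM]

theorem two {a : H} (ha : a ∈ Q) : a ^ 4 = 1 := by
  rw [show a ^ 4 = a * a * (a * a) by simp only [pow_succ, pow_zero, one_mul, mul_assoc]]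
  rcases h.l.sq a ha with e | e <;> rw [e]
  exacts [one_mul _, h.l.zsq]

theorem ex_x : ∃ x ∈ N, x ∉ Q ∧ x ^ 3 = 1 ∧ ∀ n ∈ N, ∃ k : ℕ, (x ^ k)⁻¹ * n ∈ Q := by
  have : Fact (Nat.Prime 3) := ⟨Nat.prime_three⟩
  have := h.nQ
  obtain ⟨x, hx⟩ := exists_prime_orderOf_dvd_card' (G := N) 3 (h.cN ▸ dvd_mul_right _ _)
  have h3 : x.1 ^ 3 = 1 := congrArg Subtype.val (hx ▸ pow_orderOf_eq_one x)
  have h1 : x.1 ∉ Q := fun hq => by
    have := h.two hq
    rw [pow_succ, h3, one_mul] at this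
    rw [show x = 1 from Subtype.ext this, orderOf_one] at hx
    omega
  have h2 : Nat.card (N ⧸ Q.subgroupOf N) = 3 := by
    have := card_eq_card_quotient_mul_card_subgroup (Q.subgroupOf N)
    rw [Core.card_subgroupOf_of_le h.QN, h.cN] at this
    exact (Nat.eq_of_mul_eq_mul_right Nat.card_pos this).symm
  refine ⟨x, x.2, h1, h3, fun n hn => ?_⟩
  obtain ⟨k, hk⟩ := mem_powers_iff_mem_zpowers.2 (mem_zpowers_of_prime_card h2
    (g := (x : N ⧸ Q.subgroupOf N)) (g' := ((⟨n, hn⟩ : N) : N ⧸ Q.subgroupOf N))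
    fun e => h1 ((QuotientGroup.eq_one_iff x).1 e))
  exact ⟨k, (QuotientGroup.eq (s := Q.subgroupOf N)).1 ((QuotientGroup.mk_pow _ x k).trans hk)⟩

theorem fpf {V : Type*} [AddCommGroup V] [Module (ZMod 2) V] [Finite V]
    (hV : finrank (ZMod 2) V = 12) (ρ : H →* (V ≃ₗ[ZMod 2] V)) (hρ : ∀ g, ρ g = 1 → g ∈ Q) {x : H}
    (hx : x ∈ N) (h1 : x ∉ Q) (h3 : x ^ 3 = 1) (hk : ∀ n ∈ N, ∃ k : ℕ, ρ n = ρ x ^ k) (v : V) :
    ρ x (ρ x v) = v + ρ x v := by
  have := h.nN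
  have x3 : ∀ v, ρ x (ρ x (ρ x v)) = v := fun v => by
    rw [← LinearEquiv.mul_apply, ← LinearEquiv.mul_apply, ← map_mul, ← map_mul, ← pow_three',
      h3, map_one]; rfl
  have fx : ∀ v, ρ x (v + ρ x v + ρ x (ρ x v)) = v + ρ x v + ρ x (ρ x v) := fun v => by
    rw [map_add, map_add, x3]; abel
  by_contra hv
  have hv0 : v + ρ x v + ρ x (ρ x v) ≠ 0 := fun e => hv
    ((eq_neg_of_add_eq_zero_right e).trans (neg_eq_of_add_eq_zero_right (two_v _)))
  have cj : ∀ g v, ρ x (ρ g v) = ρ g (ρ (g⁻¹ * x * g) v) := fun g v => by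
    rw [← LinearEquiv.mul_apply, ← LinearEquiv.mul_apply, ← map_mul, ← map_mul]
    congr 2
    group
  let W : Submodule (ZMod 2) V := LinearMap.eqLocus (ρ x : V →ₗ[ZMod 2] V) LinearMap.id
  have hW : ∀ n ∈ N, ∀ w ∈ W, ρ n w = w := fun n hn w hw => by
    obtain ⟨k, e⟩ := hk n hn
    rw [e]
    clear e
    induction k with
    | zero => rfl
    | succ k ih => rw [pow_succ, LinearEquiv.mul_apply, show ρ x w = w from hw, ih]
  obtain ⟨ρ₁, e₁⟩ := exists_res (ρ.comp M.subtype) W fun g w hw => by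
    show ρ x (ρ g w) = ρ g w
    rw [cj, hW _ (this.conj_mem' _ hx _) w hw]
  obtain ⟨π, p1, p2⟩ := h.ex
  have h4 : ∀ m : M, ∀ w ∈ W, ρ m w = w := fun m w hw => by
    have := no_u43 (W.finrank_le.trans hV.le) (π.liftOfSurjective p1 ⟨ρ₁, fun n hn => by
      ext w
      exact (e₁ n w).trans (hW _ ((p2 n).1 hn) w w.2)⟩) (π m)
    rw [MonoidHom.liftOfRightInverse_comp_apply] at this
    exact (e₁ m ⟨w, hw⟩).symm.trans (by rw [show ρ₁ m = 1 from this]; rfl)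
  let W' : Submodule (ZMod 2) V := LinearMap.ker (LinearMap.id + (ρ x : V →ₗ[ZMod 2] V) +
    (ρ x : V →ₗ[ZMod 2] V) ∘ₗ (ρ x : V →ₗ[ZMod 2] V))
  have hW' : ∀ v, v ∈ W' ↔ v + ρ x v + ρ x (ρ x v) = 0 := fun v => Iff.rfl
  obtain ⟨ρ₂, e₂⟩ := exists_res (ρ.comp M.subtype) W' fun g w hw => by
    obtain ⟨k, e⟩ := hk _ (this.conj_mem' _ hx g)
    have h5 : ρ x ^ 3 = 1 := by rw [← map_pow, h3, map_one]
    rw [pow_eq_pow_mod k h5] at e
    have h6 : k % 3 ≠ 0 := fun h6 => by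
      rw [h6, pow_zero] at e
      exact h1 (by simpa [mul_assoc] using h.nQ.conj_mem _ (hρ _ e) g)
    show ρ g w + ρ x (ρ g w) + ρ x (ρ x (ρ g w)) = 0
    rw [cj, cj, e, ← map_add, ← map_add, LinearEquiv.map_eq_zero_iff, ← (hW' w).1 hw]
    obtain h7 | h7 : k % 3 = 1 ∨ k % 3 = 2 := by omega
    · simp [h7]
    · simp only [h7, sq, LinearEquiv.mul_apply, x3]
      abel
  have : Fact (Nat.Prime 3) := ⟨Nat.prime_three⟩
  obtain ⟨T, hT⟩ := Sylow.exists_subgroup_card_pow_prime 3 (G := M) (n := 7) (by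
    rw [h.cM, h.cN, h.cQ]; norm_num)
  refine no_37 (V := W') (Nat.le_of_lt_succ ((Submodule.finrank_lt fun e => hv0 ?_).trans_eq hV))
    (hT ▸ card_dvd_of_injective (ρ₂.comp T.subtype) ((injective_iff_map_eq_one _).2 fun t ht => ?_))
  · have := (hW' _).1 (e.ge (Submodule.mem_top (x := v + ρ x v + ρ x (ρ x v))))
    rwa [fx, fx, two_v, zero_add] at this
  · have h5 : (t.1 : H) ∈ Q := hρ _ (by
      ext w
      have h6 : ρ x w + ρ x (ρ x w) ∈ W' := by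
        rw [hW', map_add, map_add]
        simp only [x3]
        linear_combination (norm := abel) two_v w + two_v (ρ x w) + two_v (ρ x (ρ x w))
      have h7 : ρ t.1 _ = ρ x w + ρ x (ρ x w) :=
        (e₂ t ⟨_, h6⟩).symm.trans (by rw [show ρ₂ t = 1 from ht]; rfl)
      have h8 := h4 t _ (fx w)
      rw [add_assoc, map_add] at h8
      exact add_right_cancel ((congrArg _ h7).symm.trans h8))
    have h6 : t ^ 4 = 1 := Subtype.ext (Subtype.ext (h.two h5))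
    have h7 := Nat.dvd_gcd (orderOf_dvd_of_pow_eq_one h6) (hT ▸ orderOf_dvd_natCard t)
    exact orderOf_eq_one_iff.1 (Nat.dvd_one.1 h7)

end St

/-- coordinates -/
structure FT (Q N M L : Subgroup H) (z : H) {V : Type*} [AddCommGroup V] [Module K4 V]
    (B : V →ₛₗ[s4] V →ₗ[K4] K4) (χ : H → V) (φ : L →* SUG B) : Prop extends St Q N M z where
  S : Sp B
  mul : ∀ a ∈ Q, ∀ b ∈ Q, χ (a * b) = χ a + χ b
  zero : ∀ a ∈ Q, χ a = 0 ↔ a = 1 ∨ a = z
  surj : ∀ v, ∃ a ∈ Q, χ a = v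
  sq : ∀ a ∈ Q, a * a = 1 ↔ B (χ a) (χ a) = 0
  lin : ∀ g : L, ∀ a ∈ Q, χ (g.1 * a * g.1⁻¹) = (φ g).1.1 (χ a)
  scal : ∀ c : K4, c ≠ 0 → ∃ n ∈ N, ∀ a ∈ Q, χ (n * a * n⁻¹) = c • χ a
  scal' : ∀ n ∈ N, ∃ c : K4, c ≠ 0 ∧ ∀ a ∈ Q, χ (n * a * n⁻¹) = c • χ a
  ML : M ≤ L
  semi : ∀ g ∉ L, ∀ a ∈ Q, ∀ b ∈ Q,
    (∀ c : K4, χ b = c • χ a → χ (g * b * g⁻¹) = s4 c • χ (g * a * g⁻¹)) ∧
      (B (χ a) (χ b) = 0 → B (χ (g * a * g⁻¹)) (χ (g * b * g⁻¹)) = 0)

open QuadraticMap in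
theorem St.exists_ft (h : St Q N M z) : ∃ (V : Type) (_ : AddCommGroup V) (_ : Module K4 V)
    (B : V →ₛₗ[s4] V →ₗ[K4] K4) (χ : H → V) (L : Subgroup H) (φ : L →* SUG B),
    FT Q N M L z B χ φ := by
  classical
  have := h.nQ
  have nN := h.nN
  obtain ⟨m, D, hnd, hc, hm⟩ := PGrp.exists_cext_two h.l.isExtraspecial
  obtain rfl : m = 5 := by
    have := Nat.pow_right_injective le_rfl (h.cQ.symm.trans hm)
    omega
  let ρ := (D.autLin hc).comp (MulAut.conjNormal (H := Q))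
  let χ : H → _ := fun a => if ha : a ∈ Q then D.χ ⟨a, ha⟩ else 0
  have hχ : ∀ a (ha : a ∈ Q), χ a = D.χ ⟨a, ha⟩ := fun a ha => dif_pos ha
  have act : ∀ g, ∀ a ∈ Q, χ (g * a * g⁻¹) = ρ g (χ a) := fun g a ha => by
    rw [hχ _ ha, hχ _ (this.conj_mem a ha g)]
    exact (D.autLin_χ hc (MulAut.conjNormal g) ⟨a, ha⟩).symm
  have mul : ∀ a ∈ Q, ∀ b ∈ Q, χ (a * b) = χ a + χ b := fun a ha b hb => by
    rw [hχ _ ha, hχ _ hb, hχ _ (mul_mem ha hb), ← D.χ_mul]; rfl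
  have zero : ∀ a ∈ Q, χ a = 0 ↔ a = 1 ∨ a = z := fun a ha => by
    rw [hχ _ ha, ← D.mem_Z, ← hc, ← mem_zpowers_two h.l.zsq, ← h.l.center_eq]
    exact ⟨fun e => ⟨_, e, rfl⟩, fun ⟨y, e, e'⟩ => (show y = ⟨a, ha⟩ from Subtype.ext e') ▸ e⟩
  have surj : ∀ v, ∃ a ∈ Q, χ a = v := fun v => by
    obtain ⟨a, rfl⟩ := D.χ_surj v
    exact ⟨a, a.2, hχ _ _⟩
  have hρ : ∀ g, ρ g = 1 ↔ g ∈ Q := fun g => by
    refine ⟨fun e => h.l.mem_of_trivial (h.c g) fun a ha => ?_, fun hg => ?_⟩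
    · have h1 := (zero _ (mul_mem (inv_mem ha) (this.conj_mem a ha g))).1 (by
        rw [mul _ (inv_mem ha) _ (this.conj_mem a ha g), act g a ha, e, hχ _ ha, hχ _ (inv_mem ha)]
        exact (congrArg (· + _) (D.χ_inv ⟨a, ha⟩)).trans (neg_add_cancel _))
      exact h1.imp (fun e => by simpa using (inv_mul_eq_iff_eq_mul.1 e)) inv_mul_eq_iff_eq_mul.1
    · ext1 v
      obtain ⟨a, ha, rfl⟩ := surj v
      rw [← act g a ha]
      rcases h.l.conj g hg a ha with e | e <;> rw [e]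
      · rfl
      · rw [mul _ ha _ h.l.mem, (zero z h.l.mem).2 (.inr rfl), add_zero]; rfl
  have hq : ∀ g v, D.Q (ρ g v) = D.Q v := fun g => D.autLin_mem_OG hc _
  have hp : ∀ g u v, polar D.Q (ρ g u) (ρ g v) = polar D.Q u v := fun g =>
    Orth.polar_of_isom (ρ g).toLinearMap (hq g)
  obtain ⟨x, hx, h1, h3, hk⟩ := h.ex_x
  replace hk : ∀ n ∈ N, ∃ k : ℕ, ρ n = ρ x ^ k := fun n hn => (hk n hn).imp fun k e => by
    have := (hρ _).2 e
    rwa [map_mul, map_inv, map_pow, inv_mul_eq_one, eq_comm] at this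
  have h2 := h.fpf (by simp) ρ (fun g => (hρ g).1) hx h1 h3 hk
  obtain ⟨inst, B, S, hs, hB, hB'⟩ := exists_herm hnd (by simp) (ξ := (ρ x).toLinearMap) (hq x) h2
  simp only [LinearEquiv.coe_coe] at hs hB
  have hw : ∀ v, w4 • v = ρ x v := fun v => by simp [hs, w4]
  have hwk : ∀ (k : ℕ) v, (ρ x ^ k) v = w4 ^ k • v := fun k => by
    induction k with
    | zero => simp
    | succ k ih => intro v; rw [pow_succ, LinearEquiv.mul_apply, ih, ← hw, smul_smul, pow_succ]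
  let L : Subgroup H := (centralizer {ρ x}).comap ρ
  have hL : ∀ g, g ∈ L ↔ ρ x * ρ g = ρ g * ρ x := fun g => mem_centralizer_singleton_iff.trans eq_comm
  have hL1 : ∀ g ∈ L, ∀ v, ρ g (ρ x v) = ρ x (ρ g v) := fun g hg v => by
    rw [← LinearEquiv.mul_apply, ← (hL g).1 hg]; rfl
  have hL2 : ∀ g ∉ L, ρ g * ρ x = ρ x * ρ x * ρ g := fun g hg => by
    obtain ⟨k, e⟩ := hk _ (nN.conj_mem x hx g)
    have h5 : ρ x ^ 3 = 1 := by rw [← map_pow, h3, map_one]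
    rw [pow_eq_pow_mod k h5] at e
    obtain h7 | h7 | h7 : k % 3 = 0 ∨ k % 3 = 1 ∨ k % 3 = 2 := by omega
    · rw [h7, pow_zero] at e
      exact absurd (by simpa [mul_assoc] using this.conj_mem' _ ((hρ _).1 e) g) h1
    · rw [h7, pow_one, map_mul, map_mul, map_inv, mul_inv_eq_iff_eq_mul] at e
      exact absurd ((hL g).2 e.symm) hg
    · rwa [h7, pow_two, map_mul, map_mul, map_inv, mul_inv_eq_iff_eq_mul] at e
  have hNL : N ≤ L := fun n hn => by
    obtain ⟨k, e⟩ := hk n hn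
    rw [hL, e]
    exact (Commute.refl _).pow_right k
  have hL3 : ∀ a ∉ L, ∀ b ∉ L, a * b ∈ L := fun a ha b hb => by
    have h5 : ρ x * ρ x * ρ x = 1 := by rw [← pow_three', ← map_pow, h3, map_one]
    rw [hL, map_mul, mul_assoc (ρ a), hL2 b hb, ← mul_assoc, ← mul_assoc (ρ a), ← mul_assoc (ρ a),
      hL2 a ha, mul_assoc _ (ρ a) (ρ x), hL2 a ha, ← mul_assoc, ← mul_assoc (ρ x * ρ x), h5, one_mul]
  have nL : ∀ a, ∀ l ∈ L, a * l * a⁻¹ ∈ L := fun a l hl => by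
    by_cases ha : a ∈ L
    · exact mul_mem (mul_mem ha hl) (inv_mem ha)
    · exact hL3 _ (fun e => ha ((mul_mem_cancel_right hl).1 e)) _ (mt inv_mem_iff.1 ha)
  have ML : M ≤ L := h.perf.trans (sup_le (commutator_le.2 fun a _ b _ => by
    rw [commutatorElement_def]
    by_cases hb : b ∈ L
    · exact mul_mem (nL a b hb) (inv_mem hb)
    by_cases ha : a ∈ L
    · simpa [mul_assoc] using mul_mem ha (nL b _ (inv_mem ha))
    · simpa [mul_assoc] using mul_mem (hL3 a ha b hb)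
        (hL3 _ (mt inv_mem_iff.1 ha) _ (mt inv_mem_iff.1 hb))) hNL)
  let U : L →* UG B := MonoidHom.mk' (fun g => ⟨{ (ρ g).toAddEquiv with
      map_smul' := fun c v => by simp [hs, hL1 g g.2] }, fun u v => by
      show B (ρ g u) (ρ g v) = _
      rw [hB, hB, ← hL1 g g.2, hp, hp]⟩) fun a b => UG.ext fun v => by
    show ρ (a * b) v = ρ a (ρ b v)
    simp
  have hU : ∀ g v, (U g).1 v = ρ g v := fun _ _ => rfl
  have fd := S.fd
  have hd : ∀ g, U g ∈ SUG B := by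
    have h4 : ∀ g : L, g.1 ∈ M → detU B (U g) = 1 := by
      have : ⁅M, M⁆ ⊔ N ≤ (((detU B).comp U).ker).map L.subtype := by
        refine sup_le (commutator_le.2 fun a ha b hb => ⟨⁅(⟨a, ML ha⟩ : L), (⟨b, ML hb⟩ : L)⁆, ?_, rfl⟩)
          fun n hn => ⟨⟨n, hNL hn⟩, ?_, rfl⟩
        · show _ = _
          rw [map_commutatorElement, commutatorElement_eq_one_iff_mul_comm, mul_comm]
        · obtain ⟨k, e⟩ := hk n hn
          refine mem_SUG.2 ?_
          rw [detU_apply, show (U ⟨n, hNL hn⟩).1.toLinearMap = w4 ^ k • LinearMap.id from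
            LinearMap.ext fun v => by rw [LinearEquiv.coe_coe, hU, e, hwk]; rfl, LinearMap.det_smul,
            S.hn, LinearMap.det_id, mul_one, ← pow_mul, mul_comm, pow_mul,
            (by decide +kernel : w4 ^ 6 = 1), one_pow]
      intro g hg
      obtain ⟨y, hy, e⟩ := this (h.perf hg)
      exact (show y = g from Subtype.ext e) ▸ hy
    intro g
    have h5 := h4 (g * g) (mul_self_mem_of_index_two h.iM _)
    rw [map_mul, map_mul, Units.ext_iff] at h5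
    exact mem_SUG.2 ((by decide +kernel : ∀ a : K4, a * a = 1 → a = 1) _ h5)
  refine ⟨_, _, inst, B, χ, L, U.codRestrict _ hd, h, S, mul, zero, surj, fun a ha => ?_,
    fun g a ha => act g a ha, fun c hc => ?_, fun n hn => ?_, ML, fun g hg a ha b hb => ?_⟩
  · rw [hB', hχ _ ha, ← D.sq_eq_one_iff, pow_two, Subtype.ext_iff]; rfl
  · obtain ⟨k, rfl⟩ := (by decide +kernel : ∀ c : K4, c ≠ 0 → ∃ k : Fin 3, c = w4 ^ k.1) c hc
    exact ⟨x ^ k.1, pow_mem hx _, fun a ha => by rw [act _ a ha, map_pow, hwk]⟩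
  · obtain ⟨k, e⟩ := hk n hn
    exact ⟨w4 ^ k, pow_ne_zero _ (by decide), fun a ha => by rw [act _ a ha, e, hwk]⟩
  · have h4 : ∀ v, ρ g (ρ x v) = ρ g v + ρ x (ρ g v) := fun v => by
      rw [← LinearEquiv.mul_apply, hL2 g hg, ← h2]; rfl
    rw [act _ a ha, act _ b hb]
    refine ⟨fun c e => ?_, fun e => ?_⟩
    · rw [e, hs, hs, s4_eq, map_add, map_smul, map_smul, h4, smul_add, add_smul, add_assoc]
    · have h5 := hp g (χ a) (ρ x (χ b))
      rw [h4, polar_add_right, hp] at h5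
      rw [hB] at e ⊢
      rw [hp]
      generalize polar D.Q (χ a) (χ b) = p at *
      generalize polar D.Q (χ a) (ρ x (χ b)) = r at *
      generalize polar D.Q (ρ g (χ a)) (ρ x (ρ g (χ b))) = t at *
      revert p r t
      decide

end Cfsg.Agent.LF
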