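import Cfsg.Agent.Fischer.LB
import Cfsg.Agent.S0283

/-! The two orbits of `U₄(3)` on the transvections of `U₆(2)`. -/

set_option autoImplicit false
set_option linter.unusedSectionVars false
set_option linter.unusedVariables false

namespace Cfsg.Agent.LF
open Subgroup Cfsg.Agent.Comp Cfsg.Agent.FiC
open scoped commutatorElement

theorem simple_o6p : IsSimpleGroup (_root_.commutator O6m) := by
  obtain ⟨e⟩ := o6_u42 card_K4
  have := S0283.result (q := 2) card_K4 4 (by norm_num) (by norm_num)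
  exact e.isSimpleGroup

/-- a normal `2`-subgroup of a simple group whose order is not a power of `2` -/
theorem bot_of_simple {G S : Type*} [Group G] [Group S] [Finite S] [IsSimpleGroup S]
    (hS : 3 ∣ Nat.card S) {C E : Subgroup G} (f : C →* S) (hf : Function.Surjective f)
    (hE : IsPGroup 2 E) (hn : C ≤ normalizer (E : Set G)) (g : C) (hg : g.1 ∈ E) : f g = 1 := by
  have := normal_subgroupOf_of_le_normalizer hn
  rcases (this.map f hf).eq_bot_or_eq_top with h | h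
  · exact h.le ⟨g, hg, rfl⟩
  · have : Fact (Nat.Prime 2) := ⟨Nat.prime_two⟩
    obtain ⟨k, hk⟩ := IsPGroup.iff_card.1 ((hE.comap_subtype (K := C)).map f)
    rw [← subgroupOf, h, card_top] at hk
    exact absurd (Nat.prime_three.dvd_of_dvd_pow (hk ▸ hS)) (by norm_num)

theorem s6_bot {E : Subgroup (Equiv.Perm (Fin 6))} (hE : IsPGroup 2 E)
    (hn : alternatingGroup (Fin 6) ≤ normalizer (E : Set (Equiv.Perm (Fin 6)))) : E = ⊥ := by
  have := alternatingGroup.isSimpleGroup (α := Fin 6) (by simp)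
  refine eq_bot_iff.2 fun e he => Equiv.ext fun x => ?_
  by_contra hx
  obtain ⟨u, w, h1, h2, h3, h4⟩ := (by decide : ∀ x y : Fin 6, y ≠ x → ∃ u w : Fin 6, y ≠ u ∧ y ≠ w ∧
    (Equiv.swap y u * Equiv.swap y w) x = x ∧ (Equiv.swap y u * Equiv.swap y w) y ≠ y) x _ hx
  have ha : Equiv.swap (e x) u * Equiv.swap (e x) w ∈ alternatingGroup (Fin 6) := by
    simp [Equiv.Perm.mem_alternatingGroup, h1, h2]
  generalize Equiv.swap (e x) u * Equiv.swap (e x) w = a at h3 h4 ha
  have h5 := bot_of_simple (by rw [nat_card_alternatingGroup]; simp [Nat.factorial])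
    (MonoidHom.id _) Function.surjective_id hE hn ⟨⁅a, e⁆, by
      rw [Equiv.Perm.mem_alternatingGroup, map_commutatorElement,
        commutatorElement_eq_one_iff_mul_comm, mul_comm]⟩
    (mul_mem (Core.conj_mem_of_le_normalizer hn ha he) (inv_mem he))
  have h6 := commutatorElement_eq_one_iff_mul_comm.1 (congrArg Subtype.val h5)
  exact h4 (by rw [← Equiv.Perm.mul_apply, h6, Equiv.Perm.mul_apply, h3])

variable {G : Type*} [Group G] [Finite G] {D : Set G} {K : Subgroup G}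

theorem cen_conj (A : Subgroup G) {k : G} (hk : k ∈ normalizer (A : Set G)) (u : G) :
    ∃ e : ↥(A ⊓ centralizer {k * u * k⁻¹}) ≃* ↥(A ⊓ centralizer {u}),
      ∀ x, (e x : G) = k⁻¹ * x * k :=
  ⟨{ toFun := fun x => ⟨k⁻¹ * x * k, Core.inv_conj_mem_of_le_normalizer le_rfl hk x.2.1,
        mem_centralizer_singleton_iff.2 (by
          have := mem_centralizer_singleton_iff.1 x.2.2
          calc _ = k⁻¹ * (x * (k * u * k⁻¹)) * k := by group
            _ = _ := by rw [this]; group)⟩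
     invFun := fun x => ⟨k * x * k⁻¹, Core.conj_mem_of_le_normalizer le_rfl hk x.2.1,
        mem_centralizer_singleton_iff.2 (by
          rw [conj_mul, conj_mul, mem_centralizer_singleton_iff.1 x.2.2])⟩
     left_inv := fun x => Subtype.ext (by simp [mul_assoc])
     right_inv := fun x => Subtype.ext (by simp [mul_assoc])
     map_mul' := fun x y => Subtype.ext (by simp [mul_assoc]) }, fun _ => rfl⟩

/-- the small orbit -/
def PU (D : Set G) (K : Subgroup G) (u : G) : Prop :=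
  Nonempty (↥(K ⊓ centralizer {u}) ≃* _root_.commutator O6m) ∧
    ∃ a ∈ K ⊓ centralizer {u}, ∃ y ∈ D, y ≠ u ∧ Commute a y ∧ Commute u y ∧
      ∀ w ∈ D, Commute a w → Commute u w → Commute y w → w = u ∨ w = y

/-- the large orbit -/
def PV (K : Subgroup G) (v : G) : Prop :=
  Nat.card ↥(K ⊓ centralizer {v}) = 5760 ∧
    ∃ θ : ↥(normalizer (K : Set G) ⊓ centralizer {v}) →* Equiv.Perm (Fin 6),
      Function.Surjective θ ∧ Nat.card θ.ker = 16 ∧ ∀ g ∈ θ.ker, (g : G) ∈ K

theorem PU.conj (hD : ∀ g, ∀ y ∈ D, g * y * g⁻¹ ∈ D) {u k : G} (h : PU D K u) (hk : k ∈ K) :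
    PU D K (k * u * k⁻¹) := by
  obtain ⟨⟨f⟩, a, ha, y, hy, h1, h2, h3, h4⟩ := h
  obtain ⟨e, he⟩ := cen_conj K (le_normalizer hk) u
  have c : ∀ a w : G, Commute (k * a * k⁻¹) w → Commute a (k⁻¹ * w * k⁻¹⁻¹) := fun a w h => by
    simpa [mul_assoc] using h.conj k⁻¹
  refine ⟨⟨e.trans f⟩, k * a * k⁻¹, ⟨K.mul_mem (K.mul_mem hk ha.1) (K.inv_mem hk),
    mem_centralizer_singleton_iff.2 (by
      rw [conj_mul, conj_mul, mem_centralizer_singleton_iff.1 ha.2])⟩, _, hD k y hy,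
    fun h => h1 (by simpa using h), h2.conj k, h3.conj k, fun w hw h5 h6 h7 =>
      (h4 _ (hD _ w hw) (c _ _ h5) (c _ _ h6) (c _ _ h7)).imp ?_ ?_⟩
  all_goals rintro rfl; group

theorem PV.conj {v k : G} (h : PV K v) (hk : k ∈ K) : PV K (k * v * k⁻¹) := by
  obtain ⟨h1, θ, h2, h3, h4⟩ := h
  obtain ⟨e, he⟩ := cen_conj K (le_normalizer hk) v
  obtain ⟨f, hf⟩ := cen_conj (normalizer (K : Set G)) (le_normalizer (le_normalizer hk)) v
  refine ⟨(Nat.card_congr e.toEquiv).trans h1, θ.comp f.toMonoidHom, h2.comp f.surjective, ?_,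
    fun g hg => ?_⟩
  · rw [← h3, ← MonoidHom.comap_ker, comap_equiv_eq_map_symm', card_map_of_injective f.symm.injective]
  · have := mul_mem (mul_mem hk (h4 _ hg)) (inv_mem hk)
    rw [MulEquiv.coe_toMonoidHom, hf] at this
    simpa [mul_assoc] using this

theorem PU.card {u : G} (h : PU D K u) : Nat.card ↥(K ⊓ centralizer {u}) = 25920 :=
  h.1.elim fun e => (Nat.card_congr e.toEquiv).trans card_o6p

theorem PU.ne {u : G} (h : PU D K u) (h' : PV K u) : False := by
  have := h.card.symm.trans h'.1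
  omega

theorem split (hD : ∀ g, ∀ y ∈ D, g * y * g⁻¹ ∈ D) (h : KF D K) :
    (∃ u ∈ D, PU D K u) ∧ (∃ v ∈ D, PV K v) ∧ (∀ y ∈ D, PU D K y ∨ PV K y) ∧
      ∀ y ∈ D, ∀ y' ∈ D, (PV K y ↔ PV K y') → ∃ k ∈ K, k * y * k⁻¹ = y' := by
  obtain ⟨u, hu, v, hv, h1, h2, h3, h4⟩ := h
  have pu : PU D K u := ⟨h2, h3⟩
  have pv : PV K v := h4
  refine ⟨⟨u, hu, pu⟩, ⟨v, hv, pv⟩, fun y hy => ?_, fun y hy y' hy' h => ?_⟩
  · obtain ⟨g, hg, rfl | rfl⟩ := h1 y hy
    exacts [.inl (pu.conj hD hg), .inr (pv.conj hg)]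
  · obtain ⟨g, hg, rfl | rfl⟩ := h1 y hy <;> obtain ⟨g', hg', rfl | rfl⟩ := h1 y' hy'
    · exact ⟨g' * g⁻¹, mul_mem hg' (inv_mem hg), by group⟩
    · exact ((pu.conj hD hg).ne (h.2 (pv.conj hg'))).elim
    · exact ((pu.conj hD hg').ne (h.1 (pv.conj hg))).elim
    · exact ⟨g' * g⁻¹, mul_mem hg' (inv_mem hg), by group⟩

theorem PU.bot {u : G} (h : PU D K u) {E : Subgroup G} (h1 : E ≤ K ⊓ centralizer {u})
    (hE : IsPGroup 2 E) (hn : K ⊓ centralizer {u} ≤ normalizer (E : Set G)) : E = ⊥ := by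
  obtain ⟨e⟩ := h.1
  have := simple_o6p
  have : Finite (_root_.commutator O6m) := Nat.finite_of_card_ne_zero (by rw [card_o6p]; norm_num)
  exact eq_bot_iff.2 fun g hg => congrArg Subtype.val ((map_eq_one_iff e e.injective).1
    (bot_of_simple (by rw [card_o6p]; norm_num) e.toMonoidHom e.surjective hE hn ⟨g, h1 hg⟩ hg))

theorem PV.alt {v : G} (h : PV K v) : ∃ (E₀ : Subgroup G)
    (θ : ↥(K ⊓ centralizer {v}) →* alternatingGroup (Fin 6)), Function.Surjective θ ∧
      (∀ g, θ g = 1 ↔ g.1 ∈ E₀) ∧ Nat.card E₀ = 16 ∧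
      ∀ E ≤ normalizer (K : Set G) ⊓ centralizer {v}, IsPGroup 2 E →
        K ⊓ centralizer {v} ≤ normalizer (E : Set G) → E ≤ E₀ := by
  obtain ⟨h1, θ, h2, h3, h4⟩ := h
  have hl : K ⊓ centralizer {v} ≤ normalizer (K : Set G) ⊓ centralizer {v} :=
    inf_le_inf_right _ le_normalizer
  have hk : (θ.comp (inclusion hl)).ker = (θ.ker.map (Subgroup.subtype _)).subgroupOf _ :=
    Subgroup.ext fun g => ⟨fun h => ⟨_, h, rfl⟩, fun ⟨y, h, e⟩ => by
      rwa [show y = inclusion hl g from Subtype.ext e] at h⟩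
  have hc : Nat.card (θ.ker.map (Subgroup.subtype _)) = 16 :=
    (card_map_of_injective (subtype_injective _)).trans h3
  have hr : (θ.comp (inclusion hl)).range = alternatingGroup (Fin 6) := by
    refine Equiv.Perm.eq_alternatingGroup_of_index_eq_two ?_
    have a1 := card_mul_index (θ.comp (inclusion hl)).ker
    have a2 := card_mul_index (θ.comp (inclusion hl)).range
    rw [index_ker, hk, Core.card_subgroupOf_of_le (by
      rintro _ ⟨y, hy, rfl⟩; exact ⟨h4 y hy, y.2.2⟩), hc, h1] at a1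
    rw [Nat.card_perm, Nat.card_fin, show Nat.card (θ.comp (inclusion hl)).range = 360 by omega] at a2
    simp only [Nat.factorial] at a2
    omega
  refine ⟨θ.ker.map (Subgroup.subtype _), (θ.comp (inclusion hl)).codRestrict _ fun g => hr.le ⟨g, rfl⟩, fun a => ?_,
    fun g => Subtype.ext_iff.trans (Subgroup.ext_iff.1 hk g), hc, fun E e1 e2 e3 g hg => ?_⟩
  · obtain ⟨g, hg⟩ := hr.ge a.2
    exact ⟨g, Subtype.ext hg⟩
  · have := s6_bot ((e2.comap_subtype (K := normalizer (K : Set G) ⊓ centralizer {v})).map θ) (by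
      rw [← hr]
      rintro _ ⟨a, rfl⟩
      exact Core.map_le_normalizer_map (Core.subgroupOf_le_normalizer_subgroupOf e3 _) θ
        ⟨inclusion hl a, a.2, rfl⟩)
    exact ⟨⟨g, e1 hg⟩, this.le ⟨⟨g, e1 hg⟩, hg, rfl⟩, rfl⟩

end Cfsg.Agent.LF
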