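import Cfsg.Agent.Fischer.LC
import Cfsg.Agent.MT.Basic

/-! Involutions of `Q` in an involution centralizer `2^{1+12}.3.U₄(3).2`. -/

set_option autoImplicit false
set_option linter.unusedSectionVars false
set_option linter.unusedVariables false

namespace Cfsg.Agent.LF
open Subgroup Module Cfsg.Agent.Comp Cfsg.Agent.FiC Cfsg.Agent.Herm Cfsg.Agent.Fischer.U6
  Cfsg.Agent.Fischer

theorem equiv_of_ker {A X Y : Type*} [Group A] [Group X] [Group Y] (f : A →* X) (g : A →* Y)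
    (hf : Function.Surjective f) (hg : Function.Surjective g) (h : ∀ a, f a = 1 ↔ g a = 1) :
    Nonempty (X ≃* Y) :=
  ⟨(QuotientGroup.quotientKerEquivOfSurjective f hf).symm.trans
    ((QuotientGroup.quotientMulEquivOfEq (Subgroup.ext h)).trans
      (QuotientGroup.quotientKerEquivOfSurjective g hg))⟩

variable {H : Type*} [Group H] [Finite H] {Q N M L R : Subgroup H} {z a b s t : H}

theorem card_le_two (hM : M.index = 2) (R : Subgroup H) : Nat.card R ≤ 2 * Nat.card ↥(R ⊓ M) := by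
  rw [← card_mul_index (M.subgroupOf R), mul_comm, ← inf_subgroupOf_left,
    Core.card_subgroupOf_of_le inf_le_left, inf_subgroupOf_left]
  exact Nat.mul_le_mul_right _ (hM ▸ relIndex_top_right (H := M) ▸
    relIndex_le_of_le_right le_top (by rw [relIndex_top_right, hM]; norm_num))

theorem exists_onto {X : Type*} [Group X] (ψ : L →* X) (hl : R ≤ L) {Y : Subgroup X}
    (e : (R.subgroupOf L).map ψ = Y) :
    ∃ f : R →* Y, Function.Surjective f ∧ ∀ g, (f g).1 = ψ ⟨g, hl g.2⟩ := by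
  refine ⟨(ψ.comp (inclusion hl)).codRestrict _ fun g => e.le ⟨inclusion hl g, g.2, rfl⟩,
    fun y => ?_, fun _ => rfl⟩
  obtain ⟨g, hg, e⟩ := e.ge y.2
  exact ⟨⟨g, hg⟩, Subtype.ext e⟩

/-- non-central involutions of `Q` -/
def Iv (Q : Subgroup H) (z a : H) : Prop := a ∈ Q ∧ a * a = 1 ∧ a ≠ 1 ∧ a ≠ z

theorem St.iv_conj (h : St Q N M z) (ha : Iv Q z a) (g : H) : Iv Q z (g * a * g⁻¹) :=
  ⟨h.nQ.conj_mem a ha.1 g, by rw [conj_mul, ha.2.1]; simp, fun e => ha.2.2.1 (by simpa using e),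
    fun e => ha.2.2.2 (by
      rw [mul_inv_eq_iff_eq_mul, ← (h.c g).eq] at e
      exact mul_left_cancel e)⟩

/-- the intersection of a conjugate of `Q` with the centralizer -/
structure RR (Q R : Subgroup H) (s : H) : Prop where
  c : Nat.card R = 2 ^ 12
  le : R ≤ centralizer {s}
  n : centralizer {s} ≤ normalizer (R : Set H)
  i : Nat.card ↥(R ⊓ Q) ≤ 2 ^ 7

variable {V : Type*} [AddCommGroup V] [Module K4 V] [FiniteDimensional K4 V]
  {B : V →ₛₗ[s4] V →ₗ[K4] K4} {χ : H → V} {φ : L →* SUG B}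

/-- the projective action -/
noncomputable def ps (φ : L →* SUG B) : L →* SUG B ⧸ center (SUG B) := (QuotientGroup.mk' _).comp φ

/-- the image of a subgroup -/
noncomputable def im (φ : L →* SUG B) (M : Subgroup H) : Subgroup (SUG B ⧸ center (SUG B)) :=
  (M.subgroupOf L).map (ps φ)

namespace FT
variable (h : FT Q N M L z B χ φ)
include h

theorem fin : Finite (SUG B ⧸ center (SUG B)) :=
  Nat.finite_of_card_ne_zero (by rw [h.S.card]; norm_num)

theorem is_of (ha : Iv Q z a) : Is B (χ a) :=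
  ⟨fun e => ((h.zero a ha.1).1 e).elim ha.2.2.1 ha.2.2.2, (h.sq a ha.1).1 ha.2.1⟩

theorem ex_iv {v : V} (hv : Is B v) : ∃ a, Iv Q z a ∧ χ a = v := by
  obtain ⟨a, ha, rfl⟩ := h.surj v
  exact ⟨a, ⟨ha, (h.sq a ha).2 hv.2, fun e => hv.1 ((h.zero a ha).2 (.inl e)),
    fun e => hv.1 ((h.zero a ha).2 (.inr e))⟩, rfl⟩

theorem eq_of (ha : a ∈ Q) (hb : b ∈ Q) (e : χ b = χ a) : b = a ∨ b = a * z := by
  have := (h.zero _ (mul_mem (inv_mem ha) hb)).1 (by
    rw [h.mul _ (inv_mem ha) _ hb, e, ← h.mul _ (inv_mem ha) _ ha, inv_mul_cancel,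
      h.zero _ (one_mem _)]
    exact .inl rfl)
  exact this.imp (fun e => (inv_mul_eq_one.1 e).symm) inv_mul_eq_iff_eq_mul.1

theorem mul_z (ha : a ∈ Q) : χ (a * z) = χ a := by
  rw [h.mul _ ha _ h.l.mem, (h.zero z h.l.mem).2 (.inr rfl), add_zero]

theorem conj_Q (ha : a ∈ Q) (hb : b ∈ Q) : χ (a * b * a⁻¹) = χ b := by
  rcases h.l.conj a ha b hb with e | e <;> rw [e]
  exact h.mul_z hb

theorem triv {g : H} (hg : ∀ a ∈ Q, χ (g * a * g⁻¹) = χ a) : g ∈ Q :=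
  h.l.mem_of_trivial (h.c g) fun a ha => h.eq_of ha (h.nQ.conj_mem a ha g) (hg a ha)

theorem conjQ (ha : Iv Q z a) (hb : b ∈ Q) (e : χ b = χ a) : ∃ q ∈ Q, q * a * q⁻¹ = b := by
  rcases h.eq_of ha.1 hb e with rfl | rfl
  · exact ⟨1, one_mem _, by simp⟩
  · exact h.l.exists_conj ha.1 ha.2.2.1 ha.2.2.2

theorem memQ (ha : Iv Q z a) {n : H} (hn : n ∈ N) (e : Commute n a) : n ∈ Q := by
  obtain ⟨c, -, hc⟩ := h.scal' n hn
  have h1 := hc a ha.1
  rw [e.eq, mul_inv_cancel_right] at h1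
  have h2 : c = 1 := smul_left_injective K4 (h.is_of ha).1 (h1.symm.trans (one_smul _ _).symm)
  exact h.triv fun b hb => by rw [hc b hb, h2, one_smul]

theorem pt_eq (ha : Iv Q z a) (hb : Iv Q z b) (e : tp h.S.hB (χ a) = tp h.S.hB (χ b)) :
    ∃ n ∈ N, n * a * n⁻¹ = b := by
  obtain ⟨c, hc⟩ := (uc_tp h.S).inj _ _ (h.is_of ha) (h.is_of hb) e
  obtain ⟨n, hn, e⟩ := h.scal c fun e => (h.is_of hb).1 (by rw [hc, e, zero_smul])
  obtain ⟨q, hq, rfl⟩ := h.conjQ (h.iv_conj ha n) hb.1 (hc.trans (e a ha.1).symm)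
  exact ⟨q * n, mul_mem (h.QN hq) hn, by group⟩

theorem ps_pt (ha : Iv Q z a) (g : L) :
    ps φ g * tp h.S.hB (χ a) * (ps φ g)⁻¹ = tp h.S.hB (χ (g.1 * a * g.1⁻¹)) := by
  rw [h.lin g a ha.1]
  exact tp_conj h.S.hB (φ g) (h.is_of ha).2

theorem ker (g : L) : ps φ g = 1 ↔ g.1 ∈ N := by
  have h2 : 2 ≤ finrank K4 V := by rw [h.S.hn]; norm_num
  refine ⟨fun e => ?_, fun hg => ?_⟩
  · obtain ⟨c, c0, hc⟩ := scalar_of_mk_eq_one h.S.hB h2 e
    obtain ⟨n, hn, e⟩ := h.scal c⁻¹ (inv_ne_zero c0)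
    refine (mul_mem_cancel_left hn).1 (h.QN (h.triv fun a ha => ?_))
    rw [show n * g.1 * a * (n * g.1)⁻¹ = n * (g.1 * a * g.1⁻¹) * n⁻¹ by group, e _ (h.nQ.conj_mem a ha g),
      h.lin g a ha, hc, smul_smul, inv_mul_cancel₀ c0, one_smul]
  · obtain ⟨c, c0, hc⟩ := h.scal' g hg
    refine (QuotientGroup.eq_one_iff _).2 (mem_center_iff.2 fun k => sug_ext fun v => ?_)
    have : ∀ v, (φ g).1.1 v = c • v := fun v => by
      obtain ⟨a, ha, rfl⟩ := h.surj v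
      rw [← h.lin g a ha, hc a ha]
    rw [sug_mul_apply, sug_mul_apply, this, this, map_smul]

theorem ps_eq (g k : L) : ps φ g = ps φ k ↔ g.1⁻¹ * k.1 ∈ N := by
  rw [← inv_mul_eq_one, ← map_inv (ps φ), ← map_mul (ps φ), h.ker]
  rfl

theorem kf : KF (TV h.S.hB) (im φ M) := by
  have := h.fin
  obtain ⟨τ, s, b⟩ := U62.base_tv card_K4 h.S
  obtain ⟨π, p1, p2⟩ := h.ex
  obtain ⟨e⟩ := equiv_of_ker (((ps φ).subgroupMap _).comp (subgroupOfEquivOfLe h.ML).symm.toMonoidHom)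
    π (((ps φ).subgroupMap_surjective _).comp (MulEquiv.surjective _)) p1 fun m =>
      Subtype.ext_iff.trans ((h.ker _).trans (p2 m).symm)
  exact U62.kf_all b e

theorem tv_conj (g) : ∀ y ∈ TV h.S.hB, g * y * g⁻¹ ∈ TV h.S.hB := by
  have := h.fin
  obtain ⟨τ, s, b⟩ := U62.base_tv card_K4 h.S
  exact fun y => b.conj_mem g

theorem pt_mem (ha : Iv Q z a) : tp h.S.hB (χ a) ∈ TV h.S.hB := ⟨_, h.is_of ha, rfl⟩

theorem ex_pt {y} (hy : y ∈ TV h.S.hB) : ∃ a, Iv Q z a ∧ tp h.S.hB (χ a) = y := by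
  obtain ⟨v, hv, rfl⟩ := hy
  obtain ⟨a, ha, rfl⟩ := h.ex_iv hv
  exact ⟨a, ha, rfl⟩

theorem cen_of (ha : Iv Q z a) (g : L) (e : Commute g.1 a) :
    ps φ g ∈ centralizer {tp h.S.hB (χ a)} :=
  mem_centralizer_singleton_iff.2 (by
    rw [← mul_inv_eq_iff_eq_mul, h.ps_pt ha, e.eq, mul_inv_cancel_right])

theorem im_cen (ha : Iv Q z a) :
    im φ (M ⊓ centralizer {a}) = im φ M ⊓ centralizer {tp h.S.hB (χ a)} := by
  refine le_antisymm ?_ ?_
  · rintro _ ⟨g, hg, rfl⟩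
    exact ⟨⟨g, hg.1, rfl⟩, h.cen_of ha g (mem_centralizer_singleton_iff.1 hg.2)⟩
  · rintro _ ⟨⟨g, hg, rfl⟩, e⟩
    have e := mem_centralizer_singleton_iff.1 e
    rw [← mul_inv_eq_iff_eq_mul, h.ps_pt ha] at e
    obtain ⟨n, hn, e⟩ := h.pt_eq (h.iv_conj ha g) ha e
    refine ⟨⟨n, h.ML (h.NM hn)⟩ * g, ⟨M.mul_mem (h.NM hn) hg, mem_centralizer_singleton_iff.2 ?_⟩, ?_⟩
    · rw [← mul_inv_eq_iff_eq_mul]
      exact Eq.trans (by simp [mul_assoc]) e
    · rw [map_mul, (h.ker _).2 hn, one_mul]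

theorem card_im (ha : Iv Q z a) (h1 : R ≤ L) (h2 : R ≤ centralizer {a}) :
    Nat.card R = Nat.card ↥(R ⊓ Q) * Nat.card (im φ R) := by
  have e : ((ps φ).comp (inclusion h1)).ker = Q.subgroupOf R := Subgroup.ext fun g =>
    (h.ker (inclusion h1 g)).trans
      ⟨fun hn => h.memQ ha hn (mem_centralizer_singleton_iff.1 (h2 g.2)), fun hq => h.QN hq⟩
  have := card_mul_index ((ps φ).comp (inclusion h1)).ker
  rw [index_ker, e, MonoidHom.range_comp, inclusion_range, ← inf_subgroupOf_left,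
    Core.card_subgroupOf_of_le inf_le_left] at this
  exact this.symm

theorem exists_f (hs : Iv Q z s) :
    ∃ f : ↥(M ⊓ centralizer {s}) →* ↥(im φ M ⊓ centralizer {tp h.S.hB (χ s)}),
      Function.Surjective f ∧ ∀ g, (f g).1 = ps φ ⟨g, h.ML g.2.1⟩ := by
  exact exists_onto (ps φ) (inf_le_left.trans h.ML) (h.im_cen hs)

theorem card_cen (ha : Iv Q z a) : Nat.card ↥(M ⊓ centralizer {a}) =
    2 ^ 12 * Nat.card ↥(im φ M ⊓ centralizer {tp h.S.hB (χ a)}) := by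
  have := MT.es_card_cent h.l.toES ha.1 ha.2.2.1 ha.2.2.2
  rw [h.card_im ha (inf_le_left.trans h.ML) inf_le_right, h.im_cen ha, inf_right_comm,
    inf_of_le_right (h.QN.trans h.NM), show Nat.card ↥(Q ⊓ centralizer {a}) = 2 ^ 12 by
      have := h.cQ; omega]

theorem pv_conj (ha : Iv Q z a) (hv : PV (im φ M) (tp h.S.hB (χ a))) (g : H) :
    PV (im φ M) (tp h.S.hB (χ (g * a * g⁻¹))) := by
  have := h.fin
  have := h.nM
  refine ((split h.tv_conj h.kf).2.2.1 _ (h.pt_mem (h.iv_conj ha g))).resolve_left fun hu => ?_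
  obtain ⟨e, -⟩ := cen_conj M (k := g) (by rw [normalizer_eq_top]; trivial) a
  have h1 := Nat.card_congr e.toEquiv
  rw [h.card_cen ha, h.card_cen (h.iv_conj ha g), hu.card, hv.1] at h1
  omega

theorem mconj (ha : Iv Q z a) (hb : Iv Q z b)
    (e : PV (im φ M) (tp h.S.hB (χ a)) ↔ PV (im φ M) (tp h.S.hB (χ b))) :
    ∃ m ∈ M, m * a * m⁻¹ = b := by
  have := h.fin
  obtain ⟨_, ⟨g, hg, rfl⟩, e⟩ := (split h.tv_conj h.kf).2.2.2 _ (h.pt_mem ha) _ (h.pt_mem hb) e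
  rw [h.ps_pt ha] at e
  obtain ⟨n, hn, rfl⟩ := h.pt_eq (h.iv_conj ha g) hb e
  exact ⟨n * g, M.mul_mem (h.NM hn) hg, by group⟩

theorem two_orbits : ∃ s t, Iv Q z s ∧ Iv Q z t ∧ (¬ ∃ g, g * s * g⁻¹ = t) ∧
    ∀ x, Iv Q z x → (∃ g, g * s * g⁻¹ = x) ∨ ∃ g, g * t * g⁻¹ = x := by
  have := h.fin
  obtain ⟨⟨u, hu, pu⟩, ⟨v, hv, pv⟩, -⟩ := split h.tv_conj h.kf
  obtain ⟨t, ht, rfl⟩ := h.ex_pt hu
  obtain ⟨s, hs, rfl⟩ := h.ex_pt hv
  refine ⟨s, t, hs, ht, fun ⟨g, e⟩ => pu.ne (e ▸ h.pv_conj hs pv g), fun x hx => ?_⟩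
  by_cases e : PV (im φ M) (tp h.S.hB (χ x))
  · exact .inl ((h.mconj hs hx (iff_of_true pv e)).imp fun _ h => h.2)
  · exact .inr ((h.mconj ht hx (iff_of_false pu.ne e)).imp fun _ h => h.2)

theorem im_norm {A : Subgroup H} (hn : A ≤ normalizer (R : Set H)) :
    im φ A ≤ normalizer (im φ R : Set (SUG B ⧸ center (SUG B))) :=
  Core.map_le_normalizer_map (Core.subgroupOf_le_normalizer_subgroupOf hn L) _

theorem im_two (hR : IsPGroup 2 R) : IsPGroup 2 (im φ R) := (hR.comap_subtype (K := L)).map _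

theorem im_le (hs : Iv Q z s) (h2 : R ≤ centralizer {s}) :
    im φ R ≤ normalizer (im φ M : Set (SUG B ⧸ center (SUG B))) ⊓ centralizer {tp h.S.hB (χ s)} := by
  have := h.nM
  refine le_inf (h.im_norm (by rw [normalizer_eq_top]; exact le_top)) ?_
  rintro _ ⟨g, hg, rfl⟩
  exact h.cen_of hs g (mem_centralizer_singleton_iff.1 (h2 hg))

theorem rr_norm (hs : Iv Q z s) (r : RR Q R s) : im φ M ⊓ centralizer {tp h.S.hB (χ s)} ≤
    normalizer (im φ (R ⊓ M) : Set (SUG B ⧸ center (SUG B))) := by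
  have := h.nM
  rw [← h.im_cen hs]
  exact h.im_norm (Core.le_normalizer_inf (inf_le_right.trans r.n)
    (by rw [normalizer_eq_top]; exact le_top))

theorem pv_of (hs : Iv Q z s) (r : RR Q R s) : PV (im φ M) (tp h.S.hB (χ s)) := by
  have := h.fin
  refine ((split h.tv_conj h.kf).2.2.1 _ (h.pt_mem hs)).resolve_left fun hu => ?_
  have h1 := hu.bot (E := im φ (R ⊓ M)) (by
    rw [← h.im_cen hs]
    exact map_mono (comap_mono (le_inf inf_le_right (inf_le_left.trans r.le))))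
    (h.im_two ((IsPGroup.of_card r.c).to_inf_left)) (h.rr_norm hs r)
  have h2 := h.card_im (R := R ⊓ M) hs (inf_le_right.trans h.ML) (inf_le_left.trans r.le)
  have h3 := card_le_two h.iM R
  have h4 := r.i
  rw [h1, card_bot, inf_assoc, inf_of_le_right (h.QN.trans h.NM)] at h2
  have := r.c
  omega

theorem L_le (hs : Iv Q z s) (r : RR Q R s) : L ≤ M := fun g hg => by
  have := h.fin
  by_contra hm
  have hL : R ≤ L := fun x _ => by
    by_cases hx : x ∈ M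
    · exact h.ML hx
    · exact (mul_mem_cancel_left hg).1 (h.ML ((mul_mem_iff_of_index_two h.iM).2 (iff_of_false hm hx)))
  obtain ⟨E, θ, -, -, h1, h2⟩ := (h.pv_of hs r).alt
  have h3 := card_le_of_le (h2 _ (h.im_le hs r.le) (h.im_two (IsPGroup.of_card r.c)) (by
    rw [← h.im_cen hs]
    exact h.im_norm (inf_le_right.trans r.n)))
  have h4 := h.card_im hs hL r.le
  have h5 := Nat.mul_le_mul r.i h3
  rw [← h4, r.c, h1] at h5
  omega

theorem rr_main [Q.Normal] (hs : Iv Q z s) (r : RR Q R s) {X E : Subgroup (H ⧸ Q)}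
    (hX : X = (centralizer {s}).map (QuotientGroup.mk' Q)) (hE : E = R.map (QuotientGroup.mk' Q))
    [(E.subgroupOf X).Normal] : Nat.card ↥(R ⊓ Q) = 2 ^ 7 ∧ Nat.card E = 32 ∧
      Nonempty (X ⧸ E.subgroupOf X ≃* alternatingGroup (Fin 6)) := by
  have := h.fin
  subst hX hE
  have QM := h.QN.trans h.NM
  obtain ⟨E, θ, t1, t2, h1, h2⟩ := (h.pv_of hs r).alt
  have h3 := h2 _ (h.im_le hs (inf_le_left.trans r.le))
    (h.im_two ((IsPGroup.of_card r.c).to_inf_left)) (h.rr_norm hs r)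
  have h4 := h.card_im (R := R ⊓ M) hs (inf_le_right.trans h.ML) (inf_le_left.trans r.le)
  have h5 := card_le_two h.iM R
  rw [inf_assoc, inf_of_le_right QM] at h4
  have h6 := card_le_of_le h3
  have h7 := r.i
  rw [r.c, h4] at h5
  rw [h1] at h6
  have h8 : Nat.card ↥(R ⊓ Q) = 2 ^ 7 := by nlinarith
  have h9 : im φ (R ⊓ M) = E := Core.eq_of_le_of_card_le h3 (by rw [h8] at h5; omega)
  obtain ⟨x, x1, x2⟩ : ∃ x ∈ R, x ∉ M := by
    by_contra hc
    push Not at hc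
    rw [inf_of_le_left (show R ≤ M from hc), r.c, h8] at h4
    rw [inf_of_le_left (show R ≤ M from hc)] at h6
    omega
  refine ⟨h8, ?_, ?_⟩
  · have := card_mul_index ((QuotientGroup.mk' Q).comp R.subtype).ker
    rw [index_ker, MonoidHom.range_comp, range_subtype, ← MonoidHom.comap_ker, QuotientGroup.ker_mk',
      ← subgroupOf, ← inf_subgroupOf_left, Core.card_subgroupOf_of_le inf_le_left, h8, r.c] at this
    omega
  · obtain ⟨f, hfs, hf⟩ := h.exists_f hs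
    refine equiv_of_ker ((QuotientGroup.mk' _).comp (((QuotientGroup.mk' Q).subgroupMap _).comp
      (inclusion (inf_le_right (a := M))))) (θ.comp f) (fun y => ?_) (t1.comp hfs) fun g => ?_
    · obtain ⟨⟨_, c, hc, rfl⟩, rfl⟩ := QuotientGroup.mk_surjective y
      by_cases hm : c ∈ M
      · exact ⟨⟨c, hm, hc⟩, rfl⟩
      · refine ⟨⟨c * x, (mul_mem_iff_of_index_two h.iM).2 (iff_of_false hm x2),
          mul_mem hc (r.le x1)⟩, QuotientGroup.eq.2 ⟨x⁻¹, inv_mem x1, ?_⟩⟩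
        show ((x⁻¹ : H) : H ⧸ Q) = ((c * x : H) : H ⧸ Q)⁻¹ * c
        simp
    · refine (QuotientGroup.eq_one_iff _).trans (Iff.trans ?_ (t2 (f g)).symm)
      rw [← h9, hf]
      constructor
      · rintro ⟨y, y1, e⟩
        have y2 : y⁻¹ * g ∈ Q := QuotientGroup.eq.1 e
        have y3 : y ∈ M := by simpa using M.mul_mem g.2.1 (M.inv_mem (QM y2))
        exact ⟨⟨y, h.ML y3⟩, ⟨y1, y3⟩, (h.ps_eq _ _).2 (h.QN y2)⟩
      · rintro ⟨y, y1, e⟩
        have : y.1⁻¹ * g.1 ∈ Q := h.memQ hs ((h.ps_eq _ _).1 e) (mem_centralizer_singleton_iff.1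
          ((centralizer {s}).mul_mem (inv_mem (r.le y1.1)) g.2.2))
        exact ⟨y, y1.1, (QuotientGroup.eq (s := Q)).2 this⟩

end FT

end Cfsg.Agent.LF
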