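import Cfsg.Agent.Fischer.LD
import Cfsg.Agent.PLocal.LX1
import Cfsg.Agent.SchurG.U43.Iso

/-! Groups of large Fischer type. -/

set_option autoImplicit false
set_option linter.unusedSectionVars false
set_option linter.unusedVariables false

namespace Cfsg.Agent.LF
open Subgroup Module Cfsg.Agent.Comp Cfsg.Agent.FiC Cfsg.Agent.Herm Cfsg.Agent.Fischer.U6
  Cfsg.Agent.Fischer Cfsg.Agent.LocalEven

theorem elem_of_sq {G : Type*} [Group G] {A : Subgroup G} (h : ∀ a ∈ A, a * a = 1) :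
    IsElementaryAbelian 2 A :=
  ⟨⟨⟨fun a b => Subtype.ext (by
    have := h _ (mul_mem a.2 b.2)
    rw [coe_mul, coe_mul, ← inv_of_mul_self this, mul_inv_rev, inv_of_mul_self (h _ a.2),
      inv_of_mul_self (h _ b.2)])⟩⟩, fun a ha => (sq a).trans (h a ha)⟩

theorem cen_triv {A X : Type*} [Group A] [Group X] (e : A ≃* X) (h : center X = ⊥) {x : A}
    (hx : x ∈ center A) : x = 1 :=
  (map_eq_one_iff e e.injective).1 (h.le (mem_center_iff.2 fun g => by
    obtain ⟨g, rfl⟩ := e.surjective g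
    rw [← map_mul, ← map_mul, mem_center_iff.1 hx]))

section
variable {H : Type*} [Group H] [Finite H] {Q N M L R : Subgroup H} {z a b s t : H}

theorem St.rank (h : St Q N M z) {A : Subgroup H} (h1 : A ≤ Q) (h2 : ∀ a ∈ A, a * a = 1) :
    Nat.card A ≤ 2 ^ 7 := by
  obtain ⟨m, D, hnd, hc, hm⟩ := PGrp.exists_cext_two h.l.isExtraspecial
  obtain rfl : m = 5 := by
    have := Nat.pow_right_injective le_rfl (h.cQ.symm.trans hm)
    omega
  have := elem_of_sq (A := A.subgroupOf Q) fun a ha => Subtype.ext (h2 a ha)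
  rw [← Core.card_subgroupOf_of_le h1]
  exact D.pRankLE_of_nd hnd (m := 6) (by simp) _ this.1 this.2

variable {V : Type*} [AddCommGroup V] [Module K4 V] [FiniteDimensional K4 V]
  {B : V →ₛₗ[s4] V →ₗ[K4] K4} {χ : H → V} {φ : L →* SUG B}

namespace FT
variable (h : FT Q N M L z B χ φ)
include h

theorem no_cent (ht : Iv Q z t) (pu : PU (TV h.S.hB) (im φ M) (tp h.S.hB (χ t))) {k : H}
    (hk : k ∉ L) (hc : Commute k t)
    (hm : ∀ m ∈ M ⊓ centralizer {t}, (k * m)⁻¹ * (m * k) ∈ Q) : False := by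
  obtain ⟨-, a, ha, y, hy, h1, h2, h3, h4⟩ := pu
  obtain ⟨m, hm', rfl⟩ := (h.im_cen ht).ge ha
  obtain ⟨b, hb, rfl⟩ := h.ex_pt hy
  have U := uc_tp h.S
  have it := h.is_of ht
  have ib := h.is_of hb
  have cm : ∀ {v} {c : K4}, Is B v → c ≠ 0 → (φ m).1.1 v = c • v →
      Commute (ps φ m) (tp h.S.hB v) := fun {v c} hv c0 e =>
    mul_inv_eq_iff_eq_mul.1 ((tp_conj h.S.hB (φ m) hv.2).trans (by rw [e, U.smul v c hv c0]))
  have g1 : (φ m).1.1 (χ t) = χ t := by
    rw [← h.lin m t ht.1, show m.1 * t = _ from mem_centralizer_singleton_iff.1 hm'.2,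
      mul_inv_cancel_right]
  obtain ⟨l, g2⟩ := U.inj _ _ ib (h.is_of (h.iv_conj hb m)) (by
    rw [← h.ps_pt hb, h2.eq, mul_inv_cancel_right])
  have l0 : l ≠ 0 := fun e => (h.is_of (h.iv_conj hb m)).1 (by rw [g2, e, zero_smul])
  rw [h.lin m b hb.1] at g2
  have b1 := (U.comm it ib h.S).1 h3
  have n1 : ∀ c : K4, χ b ≠ c • χ t := fun c e => h1 (U.eq_of_smul it ib e)
  have l1 : l ≠ 1 := by
    rintro rfl
    have iw := Is.add h.S it ib b1 1 n1
    rcases h4 _ (U.mem _ iw) (cm iw one_ne_zero (by simp [g1, g2]))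
      ((U.comm it iw h.S).2 (by simp [b1, it.2]))
      ((U.comm ib iw h.S).2 (by simp [h.S.hB.zero_symm b1, ib.2])) with e | e
    · obtain ⟨c, e⟩ := U.inj _ _ it iw e.symm
      exact n1 (c - 1) (by rw [sub_smul, ← e]; simp)
    · obtain ⟨c, e⟩ := U.inj _ _ ib iw e.symm
      have e' : χ t = (c - 1) • χ b := by rw [sub_smul, ← e]; simp
      have c0 : c - 1 ≠ 0 := fun c0 => it.1 (by rw [e', c0, zero_smul])
      exact n1 (c - 1)⁻¹ (by rw [e', smul_smul, inv_mul_cancel₀ c0, one_smul])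
  have iw := h.is_of (h.iv_conj hb k)
  have hq := hm m hm'
  have g3 : (φ m).1.1 (χ (k * b * k⁻¹)) = s4 l • χ (k * b * k⁻¹) := by
    have h5 := h.nQ.conj_mem b hb.1 ((k * m)⁻¹ * (m * k))
    rw [← h.lin m _ (h.iv_conj hb k).1, ← (h.semi k hk b hb.1 _ (h.nQ.conj_mem _ h5 m)).1 l (by
      rw [h.lin m _ h5, h.conj_Q hq hb.1, g2])]
    congr 1
    group
  have b2 := (h.semi k hk t ht.1 b hb.1).2 b1
  rw [hc.eq, mul_inv_cancel_right] at b2
  have b3 : B (χ b) (χ (k * b * k⁻¹)) = 0 := by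
    have := UG.map_b (φ m).1 (χ b) (χ (k * b * k⁻¹))
    rw [g2, g3, b_smul_left, b_smul_right, s4_eq] at this
    exact (by decide +kernel : ∀ l x : K4, l ≠ 0 → l ≠ 1 →
      (⟨l.re + l.im, l.im⟩ : K4) * (⟨l.re + l.im, l.im⟩ * x) = x → x = 0) _ _ l0 l1 this
  have l2 := (by decide +kernel : ∀ l : K4, l ≠ 0 → l ≠ 1 →
    (⟨l.re + l.im, l.im⟩ : K4) ≠ 1 ∧ (⟨l.re + l.im, l.im⟩ : K4) ≠ l) l l0 l1
  rw [← s4_eq] at l2
  rcases h4 _ (U.mem _ iw) (cm iw ((map_ne_zero s4).2 l0) g3) ((U.comm it iw h.S).2 b2)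
    ((U.comm ib iw h.S).2 b3) with e | e
  · obtain ⟨c, e⟩ := U.inj _ _ it iw e.symm
    refine l2.1 (smul_left_injective K4 iw.1 ?_)
    show _ • _ = _ • _
    rw [← g3, e, map_smul, g1, one_smul]
  · obtain ⟨c, e⟩ := U.inj _ _ ib iw e.symm
    refine l2.2 (smul_left_injective K4 iw.1 ?_)
    show _ • _ = _ • _
    rw [← g3, e, map_smul, g2, smul_comm]

theorem o6_main [Q.Normal] (hs : Iv Q z s) (r : RR Q R s) (ht : Iv Q z t)
    (hn : ¬ PV (im φ M) (tp h.S.hB (χ t))) :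
    Nonempty ((centralizer {t}).map (QuotientGroup.mk' Q) ≃* O6m) := by
  have := h.fin
  have := h.nM
  have QM := h.QN.trans h.NM
  have pu := ((split h.tv_conj h.kf).2.2.1 _ (h.pt_mem ht)).resolve_right hn
  obtain ⟨f, f1, f2⟩ := h.exists_f ht
  obtain ⟨e⟩ := equiv_of_ker ((QuotientGroup.mk' Q).subgroupMap (M ⊓ centralizer {t})) f
    (MonoidHom.subgroupMap_surjective _ _) f1 fun g => by
      have a1 : f g = 1 ↔ g.1 ∈ N := Subtype.ext_iff.trans (by rw [f2 g]; exact h.ker _)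
      exact Subtype.ext_iff.trans ((QuotientGroup.eq_one_iff g.1).trans (Iff.trans ⟨fun hq => h.QN hq,
        fun hn => h.memQ ht hn (mem_centralizer_singleton_iff.1 g.2.2)⟩ a1.symm))
  obtain ⟨e1⟩ := pu.1
  obtain ⟨e2⟩ := o6_u42 card_K4
  obtain ⟨e3⟩ := o6_aut card_K4
  obtain ⟨x, x1, x2⟩ : ∃ x ∈ centralizer {t}, x ∉ M := by
    obtain ⟨g, hg⟩ : ∃ g, g ∉ M := by
      by_contra hc
      push Not at hc
      have := h.iM
      rw [(eq_top_iff' M).2 hc, index_top] at this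
      omega
    obtain ⟨m, hm, e⟩ := h.mconj (h.iv_conj ht g) ht (iff_of_false (fun pv => hn (by
      simpa [mul_assoc] using h.pv_conj (h.iv_conj ht g) pv g⁻¹)) hn)
    exact ⟨m * g, mem_centralizer_singleton_iff.2 (mul_inv_eq_iff_eq_mul.1
      (Eq.trans (by group) e)), fun c => hg ((mul_mem_cancel_left hm).1 c)⟩
  have hl := map_mono (f := QuotientGroup.mk' Q) (inf_le_right (a := M) (b := centralizer {t}))
  obtain ⟨e4⟩ := aut_of hl (Core.map_le_normalizer_map (Core.le_normalizer_inf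
    (by rw [normalizer_eq_top]; exact le_top) le_normalizer) _) (by
      rintro _ ⟨⟨k, hk, rfl⟩, hc⟩
      by_cases hm : k ∈ M
      · have h1 : (⟨_, k, ⟨hm, hk⟩, rfl⟩ : (M ⊓ centralizer {t}).map (QuotientGroup.mk' Q)) ∈
            center _ := mem_center_iff.2 fun g => Subtype.ext (hc g g.2)
        exact congrArg Subtype.val (cen_triv (e.trans e1) (center_bot_of o6_cent) h1)
      · exact (h.no_cent ht pu (fun c => hm (h.L_le hs r c)) (mem_centralizer_singleton_iff.1 hk)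
          fun m hm => QuotientGroup.eq.1 (hc _ ⟨m, hm, rfl⟩).symm).elim) ((e.trans e1).trans e2) (by
      rw [← Nat.card_congr e3.toEquiv, card_o6]
      obtain ⟨k, hk⟩ := card_dvd_of_le hl
      rw [Nat.card_congr (e.trans e1).toEquiv, card_o6p] at hk
      have h0 := Nat.card_pos (α := (centralizer {t}).map (QuotientGroup.mk' Q))
      have h1 : k ≠ 1 := by
        rintro rfl
        obtain ⟨y, hy, e'⟩ := (Core.eq_of_le_of_card_le hl (by
          rw [Nat.card_congr (e.trans e1).toEquiv, card_o6p, hk])).ge ⟨x, x1, rfl⟩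
        exact x2 ((mul_mem_cancel_left (M.inv_mem hy.1)).1 (QM (QuotientGroup.eq.1 e')))
      have : 2 ≤ k := by
        rcases k with _ | _ | k <;> omega
      omega)
  exact ⟨e4.trans e3.symm⟩

end FT
end

variable {G : Type*} [Group G] [Finite G] {z : G} {Q : Subgroup (centralizer ({z} : Set G))}

/-- the involution as an element of its centralizer -/
abbrev zz (z : G) : centralizer ({z} : Set G) := ⟨z, Inv.mem_centralizer_single.2 rfl⟩

theorem st_of [Q.Normal] (hF : IsOfLargeFischerTypeAt z Q) : ∃ N M, St Q N M (zz z) := by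
  obtain ⟨hS, N, M, nN, nM, h1, h2, h3, ⟨K, _, _, hK, ⟨e⟩⟩, h4⟩ := hF
  obtain ⟨l, es, c, -⟩ := MT.ls_of_setting hS
  obtain ⟨e9⟩ := SchurG.U43.exists_iso K hK
  refine ⟨N, M, ⟨es, fun g hg => ?_, fun g _ x hx => ‹Q.Normal›.conj_mem x hx g⟩,
    fun g => Subtype.ext (mem_centralizer_singleton_iff.1 g.2),
    (card_map_of_injective (subtype_injective _)).symm.trans c, nN, nM, h1, h2, h3, h4,
    (e.trans e9.symm).toMonoidHom.comp (QuotientGroup.mk' _),
    (e.trans e9.symm).surjective.comp (QuotientGroup.mk'_surjective _), fun m =>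
      (map_eq_one_iff _ (e.trans e9.symm).injective).trans (QuotientGroup.eq_one_iff m)⟩
  obtain ⟨y, hy, e⟩ := l.cmem g (by rintro _ ⟨x, hx, rfl⟩; exact congrArg Subtype.val (hg x hx))
  exact (show y = g from Subtype.ext e) ▸ hy

theorem rr_of [Q.Normal] (hF : IsOfLargeFischerTypeAt z Q) {s : centralizer ({z} : Set G)}
    (hs : s ∈ Q) (h1 : s.1 ≠ z) {g : G} (hg : g * z * g⁻¹ = s) : Iv Q (zz z) s ∧
      PLocal.Pr (Q.map (Subgroup.subtype _)) (cj g (Q.map (Subgroup.subtype _))) z s ∧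
      RR Q ((cj g (Q.map (Subgroup.subtype _)) ⊓ centralizer {z}).subgroupOf (centralizer {z})) s := by
  obtain ⟨N, M, h⟩ := st_of hF
  obtain ⟨l, es, c, -⟩ := MT.ls_of_setting hF.1
  have p := PLocal.pr_of l (g := g) ⟨s, hs, hg.symm⟩ (hg ▸ h1)
  rw [hg] at p
  refine ⟨⟨hs, Subtype.ext p.r.zsq, fun e => p.r.ne (congrArg Subtype.val e),
    fun e => h1 (congrArg Subtype.val e)⟩, p, ?_, fun x hx => mem_centralizer_singleton_iff.2
      (Subtype.ext (p.r.central _ hx.1).symm.eq), fun x hx => ?_, h.rank inf_le_right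
        fun x hx => Subtype.ext (p.E_sq ⟨⟨x, hx.2, rfl⟩, hx.1.1⟩)⟩
  · have := MT.es_card_cent p.r.toES p.hz l.ne p.ne.symm
    rw [card_cj, c] at this
    rw [Core.card_subgroupOf_of_le inf_le_right]
    omega
  · refine Core.subgroupOf_le_normalizer_subgroupOf (Core.le_normalizer_inf (A := zpowers x.1)
      (zpowers_le.2 (p.r.mem_normalizer (congrArg Subtype.val (mem_centralizer_singleton_iff.1 hx))))
      (zpowers_le.2 (le_normalizer x.2))) _ (mem_zpowers x.1)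

theorem exists_rr [Q.Normal] (hF : IsOfLargeFischerTypeAt z Q) :
    ∃ s R, Iv Q (zz z) s ∧ RR Q R s ∧ IsConj z s := by
  obtain ⟨-, -, -, g, ⟨s, hs, e⟩, hg⟩ := MT.ls_of_setting hF.1
  have := rr_of hF hs (e.trans_ne hg) e.symm
  exact ⟨s, _, this.1, this.2.2, isConj_iff.2 ⟨g, e.symm⟩⟩

theorem iv_of {s : centralizer ({z} : Set G)} (hs : s ∈ Q) (h1 : orderOf s = 2) (h2 : s.1 ≠ z) :
    Iv Q (zz z) s :=
  ⟨hs, by rw [← sq, ← h1, pow_orderOf_eq_one], fun e => by simp [e] at h1,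
    fun e => h2 (congrArg Subtype.val e)⟩

end Cfsg.Agent.LF
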