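import Cfsg.Agent.Fischer.UF1
import Cfsg.Agent.Fischer.UF2
import Cfsg.Agent.Fischer.UF3
import Cfsg.Agent.SchurG.U62.Iso
import Cfsg.Agent.Fischer.U22
import Cfsg.Agent.Herm.Embed

set_option autoImplicit false
set_option maxRecDepth 100000
set_option synthInstance.maxSize 2048
set_option Elab.async false
set_option linter.unusedSectionVars false
set_option linter.unusedVariables false

namespace Cfsg.Agent.FiC.U62
open Cfsg.Agent.Comp Cfsg.Agent.FiC

variable {G : Type*} [Group G] [Finite G] {D : Set G} {τ s : ℕ → G}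

theorem tr1 (b : Base D τ s e2 9196830720) : TrU D s [[nat_lit 0]] :=
  b.trU (TrU.nil _ _) _ (nat_lit 0) [[nat_lit 2], [nat_lit 4], [nat_lit 8], [nat_lit 18], [nat_lit 20], [nat_lit 24], [nat_lit 28], [nat_lit 30], [nat_lit 42], [nat_lit 60], [nat_lit 62], [nat_lit 64]] [nat_lit 4, nat_lit 5, nat_lit 6, nat_lit 7, nat_lit 10, nat_lit 11, nat_lit 1, nat_lit 8, nat_lit 0, nat_lit 2, nat_lit 9, nat_lit 3] (by decide +kernel)

theorem tt (b : Base D τ s e2 9196830720) : E s [nat_lit 0] * E s [nat_lit 0] = 1 ∧ E s [nat_lit 0] ≠ 1 ∧ D = conjugatesOf (E s [nat_lit 0]) ∧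
    ∀ g, (E s [nat_lit 0] * (g * E s [nat_lit 0] * g⁻¹)) ^ 2 = 1 ∨ (E s [nat_lit 0] * (g * E s [nat_lit 0] * g⁻¹)) ^ 3 = 1 := by
  have h1 : E s [nat_lit 0] * E s [nat_lit 0] = 1 := by
    simpa [E] using b.x.eq1 ([nat_lit 0] ++ [nat_lit 0]) [] (by decide +kernel)
  have h2 : (E s [nat_lit 0] * E s [nat_lit 50]) ^ 3 = 1 := by
    simpa [E, ev_wpow] using b.x.eq1 (wpow ([nat_lit 0] ++ [nat_lit 50]) 3) [] (by decide +kernel)
  have h3 := b.tp_mem [nat_lit 0] (by decide +kernel)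
  refine ⟨h1, b.x.ne_one _ (nat_lit 2) (by decide +kernel), b.eq_class (tr1 b) h3, fun g => ?_⟩
  obtain ⟨j, hj, e⟩ := (b.mem _).1 (b.conj_mem g h3)
  by_cases h : Commute (E s [nat_lit 0]) (τ j)
  · left
    rw [e] at h
    rw [h.mul_pow, conj_pow, sq, h1]
    simp
  · obtain ⟨y, hy, k, hk, e'⟩ := b.cover [[nat_lit 0]] (.diff .all (.fx [nat_lit 0])) [[nat_lit 0], [nat_lit 2], [nat_lit 4], [nat_lit 8], [nat_lit 10], [nat_lit 12], [nat_lit 32], [nat_lit 36], [nat_lit 40]] [([nat_lit 50], [nat_lit 0, nat_lit 1, nat_lit 2, nat_lit 3, nat_lit 5, nat_lit 6, nat_lit 7, nat_lit 8, nat_lit 5, nat_lit 2, nat_lit 4])]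
      (by decide +kernel) hj ⟨trivial, by rwa [sem_fx0]⟩
    obtain rfl := List.mem_singleton.1 hy
    have h4 := (mem_Cen.1 (b.x.com_le le_rfl (F := nat_lit 1) (Y := [[nat_lit 0]]) (by decide +kernel) hk)).2 _
      List.mem_cons_self
    right
    rw [← e, ← e', ← mul_assoc, ← mul_assoc, ← h4.eq, mul_assoc k, conj_pow, h2]
    simp

/-- the three subgroups -/
noncomputable def KS (s : ℕ → G) : Fin 3 → Subgroup G :=
  ![genW (sv s) (LW ++ [[nat_lit 76]]), genW (sv s) (LW ++ [[nat_lit 78]]), genW (sv s) (LW ++ [[nat_lit 80]])]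

theorem ks (b : Base D τ s e2 9196830720) (i : Fin 3) : (genW (sv s) LW ≤ KS s i ∧
    E s [nat_lit 72] ∈ Subgroup.normalizer (KS s i : Set G) ∧ Nonempty (KS s i ≃* SchurG.U43.G)) ∧
      KF D (KS s i) := by
  fin_cases i
  exacts [⟨⟨k1L b, k1ns b, (k1iso b).2⟩, k1kf b⟩, ⟨⟨k2L b, k2ns b, (k2iso b).2⟩, k2kf b⟩,
    ⟨⟨k3L b, k3ns b, (k3iso b).2⟩, k3kf b⟩]

theorem u43_perf : commutator SchurG.U43.G = ⊤ := by
  have := SchurG.U43.simple
  refine ((inferInstance : (commutator SchurG.U43.G).Normal).eq_bot_or_eq_top).resolve_left fun h => ?_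
  have h1 : ∀ x y : SchurG.U43.G, x * y = y * x := fun x y => commutatorElement_eq_one_iff_mul_comm.1
    (h.le (Subgroup.commutator_mem_commutator trivial trivial))
  let _ : CommGroup SchurG.U43.G := { (inferInstance : Group _) with mul_comm := h1 }
  exact absurd (SchurG.U43.card.2.1 ▸ CommGroup.is_simple_iff_prime_card.1 this) (by norm_num)

theorem cls (b : Base D τ s e2 9196830720) {X : Subgroup G} (e : X ≃* SchurG.U43.G) :
    ∃ g i, X.map (MulAut.conj g).toMonoidHom = KS s i := by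
  refine (am b).cls' u43_perf (by rw [SchurG.U43.card.2.1]; norm_num) _ (fun i => (ks b i).1) (aB1 b) 0
    ((genW_append ..).trans (congrArg _ (genW1 ..))) (fun g hg => ?_) e
  obtain ⟨r, hr, c, hc, e⟩ := aCo b g hg
  refine ⟨r, c, aBL b hc, e, ?_⟩
  simp only [List.mem_cons (b := _), List.mem_append] at hr
  rcases hr with rfl | rfl | hr | hr | hr | hr
  exacts [.inl ⟨0, one_mem _⟩, .inl ⟨0, Subgroup.mem_sup_right (Subgroup.mem_zpowers _)⟩,
    .inl ⟨0, aR1 b r hr⟩, .inl ⟨1, aR2 b r hr⟩, .inl ⟨2, aR3 b r hr⟩, .inr (aO b r hr)]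

theorem ncj (b : Base D τ s e2 9196830720) (g : G) : (KS s 0).map (MulAut.conj g).toMonoidHom ≠ KS s 1 ∧
    (KS s 0).map (MulAut.conj g).toMonoidHom ≠ KS s 2 ∧
    (KS s 1).map (MulAut.conj g).toMonoidHom ≠ KS s 2 := by
  have h : ∀ i j, KS s j ≠ KS s i → (KS s i).map (MulAut.conj g).toMonoidHom ≠ KS s j :=
    fun i j h e => h ((am b).conj (ks b i).1.1 (ks b i).1.2.1 ((am b).PL.trans (ks b j).1.1) e).1
  exact ⟨h _ _ (ne_of_ord rfl rfl (fun c => absurd ((k1iso b).1 ▸ c : 11 ∣ 3265920) (by norm_num)) (aO12 b)),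
    h _ _ (ne_of_ord rfl rfl (fun c => absurd ((k1iso b).1 ▸ c : 11 ∣ 3265920) (by norm_num)) (aO13 b)),
    h _ _ (ne_of_ord rfl rfl (fun c => absurd ((k2iso b).1 ▸ c : 11 ∣ 3265920) (by norm_num)) (aO23 b))⟩

theorem kf_all (b : Base D τ s e2 9196830720) {X : Subgroup G} (e : X ≃* SchurG.U43.G) : KF D X := by
  obtain ⟨g, i, h⟩ := cls b e
  obtain ⟨τ', s', b', e'⟩ := b.conj' g⁻¹
  have : KS s' i = X := by
    have : KS s' i = (KS s i).map (MulAut.conj g⁻¹).toMonoidHom := by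
      fin_cases i <;> exact genW_conj e' _
    rw [this, ← h, Subgroup.map_map]
    convert Subgroup.map_id X
    ext x
    simp [mul_assoc]
  exact this ▸ (ks b' i).2

open Cfsg.Agent.Herm Cfsg.Agent.Fischer.U6 in
theorem base_tv {F V : Type*} [Field F] [Fintype F] [AddCommGroup V] [Module F V]
    [FiniteDimensional F V] (hF : Fintype.card F = 2 ^ 2)
    {B : V →ₛₗ[Herm.frob (natCard_of_card hF)] V →ₗ[F] F} (S : Sp B) :
    ∃ τ s, Base (TV S.hB) τ s e2 9196830720 := by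
  obtain ⟨τ, s, b⟩ := baseE
  obtain ⟨e⟩ := SchurG.U62.exists_iso F hF
  obtain ⟨f, hf⟩ := (hf_sB (natCard_of_card hF) 6).exists_iso S.hB (by simp [S.hn])
  have b' := b.map (e.trans (Orth.quotCenterEquiv ((toSUG _ 6).trans (sugCongr f hf))))
  have : Finite (SUG B ⧸ Subgroup.center (SUG B)) :=
    Nat.finite_of_card_ne_zero (by rw [b'.card]; norm_num)
  obtain ⟨h1, h2, h3, h4⟩ := tt b'
  obtain ⟨u, u0, u1, hu⟩ := exists_tp_of_inv S.hB S.hF (by simp [S.hn]) h1 h2 h4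
  refine ⟨_, _, Set.eq_of_subset_of_ncard_le (fun y hy => ?_)
    (((uc_tp S).ncard_le S).2.trans b'.ncard.ge) ▸ b'⟩
  rw [h3, hu] at hy
  obtain ⟨g, rfl⟩ := isConj_iff.1 hy
  obtain ⟨g, rfl⟩ := QuotientGroup.mk_surjective g
  exact ⟨_, ⟨fun h => u0 ((UG.apply_eq_zero _).1 h), (UG.map_b ..).trans u1⟩,
    (tp_conj S.hB g u1).symm⟩

end Cfsg.Agent.FiC.U62
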