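import Cfsg.Agent.Fischer.UI1
import Cfsg.Agent.Fischer.UI2
import Cfsg.Agent.Fischer.UI3
import Cfsg.Agent.Fischer.UG

set_option autoImplicit false
set_option linter.unusedSectionVars false
set_option linter.unusedVariables false

namespace Cfsg.Agent.FiC.U62
open Cfsg.Agent.Comp Cfsg.Agent.FiC Subgroup

variable {G : Type*} [Group G] [Finite G] {D : Set G} {τ s : ℕ → G}

theorem KS_conj {s' : ℕ → G} {g : G} (e : ∀ w, E s' w = g * E s w * g⁻¹) (i : Fin 3) :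
    KS s' i = (KS s i).map (MulAut.conj g).toMonoidHom := by
  fin_cases i <;> exact genW_conj e _

theorem kw3 (i : Fin 3) : ∃ V F T v, ∀ {τ s : ℕ → G}, Base D τ s e2 9196830720 →
    KW D (KS s i) (genW (sv s) V) (genW (sv s) F) (genW (sv s) T) (E s v) := by
  fin_cases i
  exacts [⟨_, _, _, _, w1kw⟩, ⟨_, _, _, _, w2kw⟩, ⟨_, _, _, _, w3kw⟩]

theorem kw_all (b : Base D τ s e2 9196830720) {X : Subgroup G} (e : X ≃* SchurG.U43.G)
    {P : Subgroup G} (hP : P ≤ X) (h2 : IsPGroup 2 P) : ∃ E F T v, KW D X E F T v ∧ P ≤ T := by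
  have : Fact (Nat.Prime 2) := ⟨Nat.prime_two⟩
  obtain ⟨g, i, h⟩ := cls b e
  obtain ⟨τ', s', b', e'⟩ := b.conj' g⁻¹
  have h1 : KS s' i = X := by
    rw [KS_conj e', ← h, Subgroup.map_map]
    convert Subgroup.map_id X
    ext x
    simp [mul_assoc]
  obtain ⟨V, F, T, v, h3⟩ := kw3 (D := D) i
  have h4 := h1 ▸ h3 b'
  obtain ⟨S, hS⟩ := exists_sylow (G := X) (p := 2) (n := 7) (P := (genW (sv s') T).subgroupOf X)
    (IsPGroup.of_card (n := 7) ((Core.card_subgroupOf_of_le h4.TK).trans h4.Tc))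
    ((Core.card_subgroupOf_of_le h4.TK).trans h4.Tc).ge (by
      rw [Nat.card_congr e.toEquiv, SchurG.U43.card.2.1]; norm_num)
  obtain ⟨S', hS'⟩ := (h2.comap_subtype (K := X)).exists_le_sylow
  obtain ⟨k, rfl⟩ := MulAction.exists_smul_eq X S S'
  obtain ⟨τ'', s'', b'', e''⟩ := b'.conj' k
  have h5 : KS s'' i = X := by
    rw [KS_conj e'', h1]
    exact mem_normalizer_iff_map_conj_eq.1 (le_normalizer k.2)
  refine ⟨_, _, _, _, h5 ▸ h3 b'', fun x hx => ?_⟩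
  obtain ⟨y, hy, e⟩ := hS' (show (⟨x, hP hx⟩ : X) ∈ _ from hx)
  rw [genW_conj e'']
  exact ⟨y, hS.le hy, congrArg Subtype.val e⟩

end Cfsg.Agent.FiC.U62
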