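import Cfsg.Agent.Fischer.LE
import Cfsg.Agent.Fischer.UJ
import Cfsg.Agent.Herm.Perp

/-! Subgroups of `Q` and subspaces. -/

set_option autoImplicit false
set_option linter.unusedSectionVars false
set_option linter.unusedVariables false

namespace Cfsg.Agent.LF
open Subgroup Module Cfsg.Agent.Comp Cfsg.Agent.FiC Cfsg.Agent.Herm Cfsg.Agent.Fischer.U6
  Cfsg.Agent.Fischer

theorem exists_notMem {G : Type*} [Group G] [Finite G] {F : Subgroup G} (l : List G)
    (h : l.length < Nat.card F) : ∃ x ∈ F, x ∉ l := by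
  classical
  by_contra hc
  push Not at hc
  have := Set.ncard_le_ncard (s := (F : Set G)) (t := (l.toFinset : Set G))
    (fun x hx => by simpa using hc x hx)
  rw [Set.ncard_coe_finset] at this
  exact absurd (this.trans (List.toFinset_card_le _)) (not_le.2 h)

variable {H : Type*} [Group H] [Finite H] {Q N M L R A : Subgroup H} {z a b s t : H}
  {V : Type*} [AddCommGroup V] [Module K4 V] [FiniteDimensional K4 V]
  {B : V →ₛₗ[s4] V →ₗ[K4] K4} {χ : H → V} {φ : L →* SUG B}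

theorem card_W (W : Submodule K4 V) : Nat.card W = 4 ^ finrank K4 W := by
  rw [Module.natCard_eq_pow_finrank (K := K4), c4]; rfl

namespace FT
variable (h : FT Q N M L z B χ φ)
include h

theorem kw {P : Subgroup (SUG B ⧸ center (SUG B))} (hP : P ≤ im φ M) (h2 : IsPGroup 2 P) :
    ∃ E F T v, KW (TV h.S.hB) (im φ M) E F T v ∧ P ≤ T := by
  have := h.fin
  obtain ⟨τ, s, b⟩ := U62.base_tv card_K4 h.S
  obtain ⟨π, p1, p2⟩ := h.ex
  obtain ⟨e⟩ := equiv_of_ker (((ps φ).subgroupMap _).comp (subgroupOfEquivOfLe h.ML).symm.toMonoidHom)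
    π (((ps φ).subgroupMap_surjective _).comp (MulEquiv.surjective _)) p1 fun m =>
      Subtype.ext_iff.trans ((h.ker _).trans (p2 m).symm)
  exact U62.kw_all b e hP h2

theorem comm (ha : a ∈ Q) (hb : b ∈ Q) : Commute a b ↔ B (χ a) (χ b) + B (χ b) (χ a) = 0 := by
  have h1 := MT.es_sq_mul h.l.toES ha hb
  rw [h.sq _ (mul_mem ha hb), h.sq a ha, h.sq b hb, h.mul a ha b hb, b_add_left, map_add,
    map_add] at h1
  have h2 := h.S.hB.fix (χ a)
  have h3 := h.S.hB.fix (χ b)
  rw [← h.S.hB.symm (χ a) (χ b)] at h1 ⊢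
  rw [s4_eq] at h1 h2 h3 ⊢
  generalize B (χ a) (χ a) = p at *
  generalize B (χ b) (χ b) = q at *
  generalize B (χ a) (χ b) = r at *
  by_cases e : Commute a b <;> simp only [e, iff_true, iff_false, true_iff, false_iff] at h1 ⊢ <;>
    revert p q r <;> decide +kernel

theorem one : χ 1 = 0 := (h.zero _ (one_mem _)).2 (.inl rfl)

theorem inv (ha : a ∈ Q) : χ a⁻¹ = χ a := by
  have := h.mul _ (inv_mem ha) _ ha
  rw [inv_mul_cancel, h.one] at this
  exact add_right_cancel (this.symm.trans (h.S.add_self _).symm)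

/-- the coordinates as a homomorphism -/
def hom : Q →* Multiplicative V :=
  MonoidHom.mk' (fun a => Multiplicative.ofAdd (χ a)) fun a b => h.mul a a.2 b b.2

theorem card_cm' (X : Subgroup (Multiplicative V)) :
    Nat.card ((X.comap h.hom).map Q.subtype) = 2 * Nat.card X := by
  rw [card_map_of_injective (subtype_injective _), card_cm h.hom fun v _ =>
    (h.surj v.toAdd).elim fun a ha => ⟨⟨a, ha.1⟩, ha.2⟩, mul_comm,
    show h.hom.ker = (zpowers z).subgroupOf Q from Subgroup.ext fun a =>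
      (h.zero a a.2).trans (mem_zpowers_two h.l.zsq).symm,
    Core.card_subgroupOf_of_le (zpowers_le.2 h.l.mem), Nat.card_zpowers, h.l.orderOf]

/-- the preimage of a subspace -/
def pre (W : Submodule K4 V) : Subgroup H := (W.toAddSubgroup.toSubgroup.comap h.hom).map Q.subtype

theorem mem_pre {W : Submodule K4 V} : a ∈ h.pre W ↔ a ∈ Q ∧ χ a ∈ W :=
  ⟨fun ⟨b, hb, e⟩ => e ▸ ⟨b.2, hb⟩, fun e => ⟨⟨a, e.1⟩, e.2, rfl⟩⟩

theorem card_pre (W : Submodule K4 V) : Nat.card (h.pre W) = 2 * 4 ^ finrank K4 W :=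
  (h.card_cm' _).trans (congrArg _ (card_W W))

theorem z_pre (W : Submodule K4 V) : z ∈ h.pre W :=
  h.mem_pre.2 ⟨h.l.mem, (h.zero z h.l.mem).2 (.inr rfl) ▸ zero_mem _⟩

theorem cen_pre {W : Submodule K4 V} (ha : a ∈ Q) :
    (∀ b ∈ h.pre W, Commute a b) ↔ χ a ∈ perp B W := by
  refine ⟨fun e w hw => ?_, fun e b hb => ?_⟩
  · have : ∀ c : K4, s4 (s4 c * B w (χ a)) + s4 c * B w (χ a) = 0 := fun c => by
      obtain ⟨b, hb, e'⟩ := h.surj (c • w)
      have := (h.comm ha hb).1 (e b (h.mem_pre.2 ⟨hb, e' ▸ W.smul_mem c hw⟩))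
      rwa [← h.S.hB.symm (χ b), e', b_smul_left] at this
    simp only [s4_eq] at this
    generalize B w (χ a) = p at *
    revert p
    decide +kernel
  · have := e _ (h.mem_pre.1 hb).2
    rw [h.comm ha (h.mem_pre.1 hb).1, this, h.S.hB.zero_symm this, add_zero]

theorem semi_bound {g : H} (hg : g ∉ L) (hA : A ≤ Q) (hc : ∀ a ∈ A, Commute g a)
    (W : Submodule K4 V) (hW : ∀ a ∈ A, χ a ∈ W) : Nat.card A ^ 2 ≤ 4 * 4 ^ finrank K4 W := by
  have h1 := card_le_of_le (show A ≤ (((A.subgroupOf Q).map h.hom).comap h.hom).map Q.subtype from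
    fun a ha => ⟨⟨a, hA ha⟩, ⟨_, ha, rfl⟩, rfl⟩)
  rw [h.card_cm'] at h1
  have h3 : ∀ x ∈ (A.subgroupOf Q).map h.hom, Multiplicative.toAdd x ∈ W := by
    rintro _ ⟨a, ha, rfl⟩
    exact hW a ha
  have : Finite W := Nat.finite_of_card_ne_zero (by rw [card_W]; positivity)
  have h2 := Nat.card_le_card_of_injective (α := (A.subgroupOf Q).map h.hom × (A.subgroupOf Q).map h.hom)
    (β := W) (fun p => ⟨_, add_mem (h3 _ p.1.2) (W.smul_mem w4 (h3 _ p.2.2))⟩) (by
      rintro ⟨⟨_, a, ha, rfl⟩, _, b, hb, rfl⟩ ⟨⟨_, a', ha', rfl⟩, _, b', hb', rfl⟩ e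
      replace e : χ a + w4 • χ b = χ a' + w4 • χ b' := congrArg Subtype.val e
      have e1 : χ (a * a') = w4 • χ (b * b') := by
        rw [h.mul _ a.2 _ a'.2, h.mul _ b.2 _ b'.2, smul_add]
        linear_combination (norm := abel) e + h.S.add_self (χ a') - h.S.add_self (w4 • χ b)
      have e2 := (h.semi g hg _ (mul_mem b.2 b'.2) _ (mul_mem a.2 a'.2)).1 _ e1
      rw [(hc (a * a') (mul_mem ha ha')).eq, (hc (b * b') (mul_mem hb hb')).eq, mul_inv_cancel_right,
        mul_inv_cancel_right, e1, ← sub_eq_zero, ← sub_smul, s4_eq,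
        show w4 - ⟨w4.re + w4.im, w4.im⟩ = 1 by decide +kernel, one_smul, h.mul _ b.2 _ b'.2] at e2
      have e3 : χ b = χ b' := add_right_cancel (e2.trans (h.S.add_self _).symm)
      rw [e3] at e
      exact Prod.ext (Subtype.ext (add_right_cancel (G := V) e)) (Subtype.ext e3))
  rw [Nat.card_prod, card_W] at h2
  nlinarith

theorem eig {u : V} (hu : Is B u) (g : L) :
    Commute (ps φ g) (tp h.S.hB u) ↔ ∃ c : K4, (φ g).1.1 u = c • u := by
  have U := uc_tp h.S
  have h1 : Is B ((φ g).1.1 u) := ⟨fun e => hu.1 ((UG.apply_eq_zero _).1 e), (UG.map_b ..).trans hu.2⟩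
  have h2 : ps φ g * tp h.S.hB u * (ps φ g)⁻¹ = tp h.S.hB ((φ g).1.1 u) := tp_conj h.S.hB (φ g) hu.2
  exact ⟨fun e => U.inj _ _ hu h1 (e.mul_inv_cancel.symm.trans h2),
    fun ⟨c, e⟩ => mul_inv_eq_iff_eq_mul.1 (h2.trans (U.eq_of_smul hu h1 e))⟩

omit h in
theorem eig_pow {g : L} {u : V} {c : K4} (e : (φ g).1.1 u = c • u) (n : ℕ) :
    (φ (g ^ n)).1.1 u = c ^ n • u := by
  induction n with
  | zero => simp
  | succ n ih => rw [pow_succ, map_mul, sug_mul_apply, e, map_smul, ih, smul_smul, pow_succ']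

omit h in
theorem eig_two {g : L} {u : V} {c : K4} (e : (φ g).1.1 u = c • u) {k : ℕ} (hk : g.1 ^ 2 ^ k = 1) :
    (φ g).1.1 u = u := by
  by_cases hu : u = 0
  · simp [hu]
  have h1 := eig_pow e (2 ^ k)
  rw [show g ^ 2 ^ k = 1 from Subtype.ext hk, map_one] at h1
  have h2 : c ^ 2 ^ k = 1 := smul_left_injective K4 hu (h1.symm.trans (one_smul _ _).symm)
  suffices c = 1 by rw [e, this, one_smul]
  clear h1 hk
  induction k with
  | zero => simpa using h2
  | succ k ih =>
    exact ih ((by decide +kernel : ∀ a : K4, a ^ 2 = 1 → a = 1) _ (by rw [← pow_mul, ← pow_succ, h2]))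

theorem memQ' {n : H} (hn : n ∈ N) (ha : Iv Q z a) (e : χ (n * a * n⁻¹) = χ a) : n ∈ Q := by
  obtain ⟨c, -, hc⟩ := h.scal' n hn
  have h2 : c = 1 := smul_left_injective K4 (h.is_of ha).1
    (((hc a ha.1).symm.trans e).trans (one_smul _ _).symm)
  exact h.triv fun b hb => by rw [hc b hb, h2, one_smul]

theorem card_im2 (h1 : R ≤ L) (h2 : IsPGroup 2 R) :
    Nat.card R = Nat.card ↥(R ⊓ Q) * Nat.card (im φ R) := by
  have e : ((ps φ).comp (inclusion h1)).ker = Q.subgroupOf R := Subgroup.ext fun g =>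
    (h.ker (inclusion h1 g)).trans ⟨fun hn => h.triv fun a ha => by
      obtain ⟨c, -, hc⟩ := h.scal' _ hn
      obtain ⟨k, hk⟩ := h2 g
      exact (h.lin (inclusion h1 g) a ha).trans (eig_two ((h.lin _ a ha).symm.trans (hc a ha))
        (congrArg Subtype.val hk)), fun hq => h.QN hq⟩
  have := card_mul_index ((ps φ).comp (inclusion h1)).ker
  rw [index_ker, e, MonoidHom.range_comp, inclusion_range, ← inf_subgroupOf_left,
    Core.card_subgroupOf_of_le inf_le_left] at this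
  exact this.symm

end FT

end Cfsg.Agent.LF
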