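import Cfsg.Agent.Fischer.LF

/-! The elementary abelian subgroup of order `2^11`. -/

set_option autoImplicit false
set_option linter.unusedSectionVars false
set_option linter.unusedVariables false

namespace Cfsg.Agent.LF
open Subgroup Module Cfsg.Agent.Comp Cfsg.Agent.FiC Cfsg.Agent.Herm Cfsg.Agent.Fischer.U6
  Cfsg.Agent.Fischer

variable {H : Type*} [Group H] [Finite H] {Q N M L R A : Subgroup H} {z a b s t : H}
  {V : Type*} [AddCommGroup V] [Module K4 V] [FiniteDimensional K4 V]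
  {B : V →ₛₗ[s4] V →ₗ[K4] K4} {χ : H → V} {φ : L →* SUG B}
  {E F T : Subgroup (SUG B ⧸ center (SUG B))} {v : SUG B ⧸ center (SUG B)} {W : Submodule K4 V}

section
variable {A X : Type*} [Group A] [Group X] (ψ : A →* X)

theorem mp_cj (k g : A) : ψ (k * g * k⁻¹) = ψ k * ψ g * (ψ k)⁻¹ := by simp

theorem mp_cj' (k : A) (y : X) : ψ k⁻¹ * y * (ψ k⁻¹)⁻¹ = (ψ k)⁻¹ * y * ψ k := by simp

theorem mp_one {k : A} (g : A) (h : ψ k = 1) : ψ (k * g * k⁻¹) = ψ g := by simp [h]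

theorem mp_cube {q g : A} (h : ψ q = 1) (h2 : ψ g * ψ g = 1) : ψ (q⁻¹ * g ^ 3) = ψ g := by
  simp [h, pow_three, h2]

theorem mp_tr {m k g : A} {c d x : X} (h : c * x * c⁻¹ = ψ g) (h' : d * x * d⁻¹ = ψ k)
    (e : ψ m = d * c⁻¹) : ψ (m * g * m⁻¹) = ψ k := by
  rw [mp_cj, e, ← h, ← h']; group

theorem mp_eq {k g : A} (h : ψ g = ψ k) : ψ (k⁻¹ * g) = 1 := by simp [h]

end

omit [Finite H] in
theorem no_anti {X : Type*} [Group X] [Finite X] {F : Subgroup X} (hF : 4 < Nat.card F) (ψ : L →* X)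
    (A : Subgroup L) (h1 : ∀ f ∈ F, ∃ g ∈ A, ψ g = f) (h2 : ∀ g ∈ A, ψ g ≠ 1 → g.1 * g.1 = z)
    (h3 : z * z = 1) (h4 : ∀ g, Commute g z) : z = 1 := by
  have an : ∀ a ∈ A, ∀ b ∈ A, ψ a ≠ 1 → ψ b ≠ 1 → ψ a * ψ b ≠ 1 → b.1 * a.1 = a * b * z :=
    fun a ha b hb e1 e2 e3 => by
      have e4 := h2 _ (mul_mem ha hb) (by rwa [map_mul])
      refine mul_left_cancel (a := a.1) (mul_right_cancel (b := b.1) ?_)
      calc a.1 * (b * a) * b = z := by rw [← e4, coe_mul]; group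
        _ = a * a * (b * b) * z := by rw [h2 a ha e1, h2 b hb e2, h3, one_mul]
        _ = _ := by simp only [mul_assoc]; rw [(h4 b).eq]
  obtain ⟨_, a1, a2⟩ := exists_notMem (F := F) [1] (by simp; omega)
  obtain ⟨a, ha, rfl⟩ := h1 _ a1
  obtain ⟨_, b1, b2⟩ := exists_notMem (F := F) [1, (ψ a)⁻¹] (by simp; omega)
  obtain ⟨b, hb, rfl⟩ := h1 _ b1
  obtain ⟨_, c1, c2⟩ := exists_notMem (F := F) [1, (ψ a)⁻¹, (ψ b)⁻¹, (ψ a * ψ b)⁻¹] (by simpa)
  obtain ⟨c, hc, rfl⟩ := h1 _ c1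
  simp only [List.mem_cons, List.not_mem_nil, or_false, not_or] at a2 b2 c2
  have i : ∀ {x y : X}, y ≠ x⁻¹ → x * y ≠ 1 := mt eq_inv_of_mul_eq_one_right
  have e1 := an a ha _ (mul_mem hb hc) a2 (by rw [map_mul]; exact i c2.2.2.1)
    (by rw [map_mul, ← mul_assoc]; exact i c2.2.2.2)
  rw [coe_mul, mul_assoc, an a ha c hc a2 c2.1 (i c2.2.1), ← mul_assoc, ← mul_assoc,
    an a ha b hb a2 b2.1 (i b2.2), mul_assoc _ z, ← (h4 c).eq, ← mul_assoc, mul_assoc _ z z, h3,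
    mul_one, ← mul_assoc] at e1
  exact left_eq_mul.1 e1

/-- the totally isotropic subspace fixed by `F` -/
structure WF (h : FT Q N M L z B χ φ) (F : Subgroup (SUG B ⧸ center (SUG B))) (W : Submodule K4 V) :
    Prop where
  r : finrank K4 W = 3
  i : ∀ u ∈ W, B u u = 0
  m : ∀ u, Is B u → (u ∈ W ↔ ∀ f ∈ F, Commute f (tp h.S.hB u))

/-- the elementary abelian subgroup -/
noncomputable def AA (h : FT Q N M L z B χ φ) (F : Subgroup (SUG B ⧸ center (SUG B)))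
    (W : Submodule K4 V) : Subgroup L :=
  F.comap (ps φ) ⊓ (centralizer (h.pre W : Set H)).subgroupOf L

namespace FT
variable (h : FT Q N M L z B χ φ)
include h

theorem kerN (ha : a ∈ N) : ps φ ⟨a, h.ML (h.NM ha)⟩ = 1 := (h.ker _).2 ha

theorem cube {u : V} (hu : Is B u) (g : L) (e : Commute (ps φ g) (tp h.S.hB u)) :
    (φ (g ^ 3)).1.1 u = u := by
  obtain ⟨c, e⟩ := (h.eig hu g).1 e
  rw [eig_pow e, (by decide +kernel : ∀ c : K4, c ≠ 0 → c ^ 3 = 1) c fun c0 => hu.1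
    ((UG.apply_eq_zero _).1 (by rw [e, c0, zero_smul])), one_smul]

theorem pre_sq (hW : ∀ u ∈ W, B u u = 0) (ha : a ∈ h.pre W) : a * a = 1 :=
  (h.sq a (h.mem_pre.1 ha).1).2 (hW _ (h.mem_pre.1 ha).2)

theorem exists_W (w : KW (TV h.S.hB) (im φ M) E F T v) : ∃ W, WF h F W := by
  have U := uc_tp h.S
  have m : ∀ u, Is B u → ((∀ g : L, ps φ g ∈ F → (φ (g ^ 3)).1.1 u = u) ↔
      ∀ f ∈ F, Commute f (tp h.S.hB u)) := fun u hu => ⟨fun e f hf => by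
    obtain ⟨g, -, rfl⟩ := w.TK (w.FT hf)
    have := (h.eig hu (g ^ 3)).2 ⟨1, (e g hf).trans (one_smul _ _).symm⟩
    rwa [map_pow, pow_three, w.Fs _ hf, mul_one] at this, fun e g hg => h.cube hu g (e _ hg)⟩
  let W : Submodule K4 V :=
    { carrier := {u | B u u = 0 ∧ ∀ g : L, ps φ g ∈ F → (φ (g ^ 3)).1.1 u = u}
      zero_mem' := ⟨by simp, fun _ _ => map_zero _⟩
      smul_mem' := fun c u hu => ⟨by simp [hu.1], fun g hg => by rw [map_smul, hu.2 g hg]⟩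
      add_mem' := fun {u u'} hu hu' => ⟨by
        by_cases e : u = 0
        · simpa [e] using hu'.1
        by_cases e' : u' = 0
        · simpa [e'] using hu.1
        have := (U.comm ⟨e, hu.1⟩ ⟨e', hu'.1⟩ h.S).1 (w.Fp _ (U.mem _ ⟨e, hu.1⟩) _ (U.mem _ ⟨e', hu'.1⟩)
          ((m u ⟨e, hu.1⟩).1 hu.2) ((m u' ⟨e', hu'.1⟩).1 hu'.2))
        simp [hu.1, hu'.1, this, h.S.hB.zero_symm this],
        fun g hg => by rw [map_add, hu.2 g hg, hu'.2 g hg]⟩ }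
  have h1 := h.rank (A := h.pre W) (fun a ha => (h.mem_pre.1 ha).1)
    fun a => h.pre_sq fun u hu => hu.1
  have : Finite W := Nat.finite_of_card_ne_zero (by rw [card_W]; positivity)
  have h2 := w.Fn.trans ((Set.ncard_le_ncard (t := tp h.S.hB '' W) (by
    rintro _ ⟨⟨u, hu, rfl⟩, e⟩
    exact ⟨u, ⟨hu.2, (m u hu).2 e⟩, rfl⟩) ((Set.toFinite (W : Set V)).image _)).trans
      (Set.ncard_image_le (Set.toFinite (W : Set V))))
  rw [h.card_pre] at h1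
  rw [show (W : Set V).ncard = _ from card_W W] at h2
  refine ⟨W, le_antisymm ((Nat.pow_le_pow_iff_right (a := 4) (by norm_num)).1 (by omega))
    ((Nat.pow_lt_pow_iff_right (a := 4) (n := 2) (by norm_num)).1 (by omega)), fun u hu => hu.1,
    fun u hu => (and_iff_right hu.2).trans (m u hu)⟩

variable {h}

theorem mem_AA {g : L} : g ∈ AA h F W ↔ ps φ g ∈ F ∧ ∀ b ∈ h.pre W, Commute g.1 b :=
  and_congr_right fun _ => ⟨fun e b hb => (e b hb).symm, fun e b hb => (e b hb).symm⟩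

end FT

namespace WF
variable {h : FT Q N M L z B χ φ} (f : WF h F W)
include f

theorem com (ha : a ∈ h.pre W) (hb : b ∈ h.pre W) : Commute a b :=
  Inv.commute_of_mul_self (h.pre_sq f.i ha) (h.pre_sq f.i hb) (h.pre_sq f.i (mul_mem ha hb))

theorem cen (ha : a ∈ Q) (e : ∀ b ∈ h.pre W, Commute a b) : a ∈ h.pre W := by
  have h1 := h.S.hB.finrank_perp_add W
  rw [f.r, h.S.hn] at h1
  refine h.mem_pre.2 ⟨ha, (Submodule.eq_of_le_of_finrank_eq (fun u hu => ?_)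
    (f.r.trans (by omega))).ge ((h.cen_pre ha).1 e)⟩
  obtain ⟨b, hb, rfl⟩ := h.surj u
  exact (h.cen_pre hb).1 fun c => f.com (h.mem_pre.2 ⟨hb, hu⟩)

theorem iv : ∃ b ∈ h.pre W, Iv Q z b := by
  obtain ⟨u, hu, e⟩ := W.exists_mem_ne_zero_of_ne_bot fun e => by
    have := f.r
    rw [e, finrank_bot] at this
    omega
  obtain ⟨b, hb, rfl⟩ := h.ex_iv ⟨e, f.i u hu⟩
  exact ⟨b, h.mem_pre.2 ⟨hb.1, hu⟩, hb⟩

theorem inN {g : L} (hg : g ∈ AA h F W) (e : ps φ g = 1) : g.1 ∈ h.pre W := by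
  obtain ⟨b, hb, ib⟩ := f.iv
  exact f.cen (h.memQ ib ((h.ker g).1 e) ((FT.mem_AA.1 hg).2 b hb)) (FT.mem_AA.1 hg).2

theorem lift (w : KW (TV h.S.hB) (im φ M) E F T v) {x} (hx : x ∈ F) :
    ∃ g ∈ AA h F W, ps φ g = x := by
  obtain ⟨g, -, rfl⟩ := w.TK (w.FT hx)
  obtain ⟨q, hq, e⟩ := h.l.inner (A := h.pre W) (fun a ha => (h.mem_pre.1 ha).1) (h.z_pre W)
    (h.c (g ^ 3).1) fun a ha => by
      obtain ⟨h1, h2⟩ := h.mem_pre.1 ha
      refine h.eq_of h1 (h.nQ.conj_mem a h1 _) ((h.lin _ a h1).trans ?_)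
      by_cases e : χ a = 0
      · rw [e, map_zero]
      · exact h.cube ⟨e, f.i _ h2⟩ g ((f.m _ ⟨e, f.i _ h2⟩).1 h2 _ hx)
  have h1 := mp_cube (ps φ) (h.kerN (h.QN hq)) (w.Fs _ hx)
  refine ⟨_, FT.mem_AA.2 ⟨h1.symm ▸ hx, fun b hb => mul_inv_eq_iff_eq_mul.1 ?_⟩, h1⟩
  calc _ = q⁻¹ * ((g ^ 3).1 * b * (g ^ 3).1⁻¹) * q := by simp [mul_assoc]
    _ = b := by rw [e b hb]; group

theorem conj {k : L} (hk : ps φ k ∈ normalizer (F : Set (SUG B ⧸ center (SUG B)))) {g : L}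
    (hg : g ∈ AA h F W) : k * g * k⁻¹ ∈ AA h F W := by
  refine FT.mem_AA.2 ⟨by
    rw [mp_cj]
    exact Core.conj_mem_of_le_normalizer le_rfl hk (FT.mem_AA.1 hg).1, fun b hb => ?_⟩
  obtain ⟨h1, h2⟩ := h.mem_pre.1 hb
  have h3 := h.nQ.conj_mem b h1 (k⁻¹).1
  refine (commute_conj_left_iff k.1 g.1 b).2 ((FT.mem_AA.1 hg).2 _ (h.mem_pre.2 ⟨by simpa using h3, ?_⟩))
  rw [show k.1⁻¹ * b * k.1 = (k⁻¹).1 * b * (k⁻¹).1⁻¹ by simp]
  by_cases e : χ b = 0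
  · rw [h.lin _ b h1, e, map_zero]
    exact zero_mem _
  · obtain ⟨c, hc, e'⟩ := h.ex_iv ⟨e, f.i _ h2⟩
    rw [h.lin _ b h1, ← e', ← h.lin _ c hc.1]
    refine (f.m _ (h.is_of (h.iv_conj hc _))).2 fun x hx => ?_
    rw [← h.ps_pt hc, mp_cj', e']
    have h4 := (f.m _ ⟨e, f.i _ h2⟩).1 h2 _ (Core.conj_mem_of_le_normalizer le_rfl hk hx)
    exact (commute_conj_left_iff (ps φ k) x _).1 h4

theorem sq_eq {g k : L} (hg : g ∈ AA h F W) (hk : k ∈ AA h F W) (e : ps φ g = ps φ k) :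
    g.1 * g.1 = k.1 * k.1 := by
  have h1 := f.inN (mul_mem (inv_mem hk) hg) (mp_eq _ e)
  have h2 := ((FT.mem_AA.1 hk).2 _ h1).mul_pow 2
  rw [sq, sq, sq, h.pre_sq f.i h1] at h2
  simpa using h2

theorem sq (w : KW (TV h.S.hB) (im φ M) E F T v) {g : L} (hg : g ∈ AA h F W) : g.1 * g.1 = 1 := by
  have := h.fin
  have h1 : ∀ g ∈ AA h F W, g.1 * g.1 = 1 ∨ g.1 * g.1 = z := fun g hg => by
    obtain ⟨n, hn, e⟩ := h.scal w4 (by decide)
    have h2 := h.kerN hn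
    have h3 := f.sq_eq (f.conj (k := ⟨n, h.ML (h.NM hn)⟩) (by rw [h2]; exact one_mem _) hg) hg (mp_one _ _ h2)
    have h4 := (h.mem_pre.1 (f.inN (mul_mem hg hg) (by
      rw [map_mul (ps φ)]; exact w.Fs _ (FT.mem_AA.1 hg).1))).1
    have h5 := e _ h4
    rw [show n * (g * g).1 * n⁻¹ = (g * g).1 from (conj_mul ..).symm.trans h3] at h5
    exact (h.zero _ h4).1 (by_contra fun c => absurd (smul_left_injective K4 c
      (h5.symm.trans (one_smul _ _).symm)) (by decide))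
  refine (h1 g hg).resolve_right fun h2 => h.l.ne (no_anti (F := F) (by rw [w.Fc]; norm_num) (ps φ) _
    (fun x => f.lift w) (fun k hk h3 => ?_) h.l.zsq h.c)
  obtain ⟨x, hx⟩ := w.Ft
  obtain ⟨c, hc, e⟩ := hx _ (FT.mem_AA.1 hg).1 fun e => h.l.ne (h2.symm.trans (h.pre_sq f.i (f.inN hg e)))
  obtain ⟨c', hc', e'⟩ := hx _ (FT.mem_AA.1 hk).1 h3
  obtain ⟨m, -, e''⟩ := (im φ M).mul_mem hc'.1 ((im φ M).inv_mem hc.1)
  rw [← f.sq_eq (f.conj (k := m) (by rw [e'']; exact Subgroup.mul_mem _ hc'.2 (Subgroup.inv_mem _ hc.2))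
    hg) hk (mp_tr _ e e' e'')]
  exact (conj_mul ..).trans (by rw [h2, (h.c m).eq, mul_inv_cancel_right])

theorem inf : (AA h F W).map L.subtype ⊓ Q = h.pre W := by
  refine le_antisymm ?_ fun a ha => ?_
  · rintro _ ⟨⟨g, hg, rfl⟩, hq⟩
    exact f.cen hq (FT.mem_AA.1 hg).2
  · have := (h.mem_pre.1 ha).1
    exact ⟨⟨⟨a, h.ML (h.NM (h.QN this))⟩, FT.mem_AA.2
      ⟨by rw [h.kerN (h.QN this)]; exact one_mem _, fun b => f.com ha⟩, rfl⟩, this⟩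

theorem card (w : KW (TV h.S.hB) (im φ M) E F T v) :
    Nat.card ((AA h F W).map L.subtype) = 2 ^ 11 := by
  obtain ⟨b, hb, ib⟩ := f.iv
  rw [h.card_im ib (map_subtype_le _) (by
    rintro _ ⟨g, hg, rfl⟩
    exact mem_centralizer_singleton_iff.2 ((FT.mem_AA.1 hg).2 b hb)), f.inf, h.card_pre, f.r,
    show im φ ((AA h F W).map L.subtype) = F from ?_, w.Fc]
  · norm_num
  unfold im
  rw [subgroupOf, comap_map_eq_self_of_injective (subtype_injective _)]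
  exact le_antisymm (map_le_iff_le_comap.2 inf_le_left) fun x => f.lift w

end WF

end Cfsg.Agent.LF
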