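import Cfsg.Agent.Fischer.LG

/-! The Thompson subgroup of a Sylow `2`-subgroup. -/

set_option autoImplicit false
set_option linter.unusedSectionVars false
set_option linter.unusedVariables false

namespace Cfsg.Agent.LF
open Subgroup Module Cfsg.Agent.Comp Cfsg.Agent.FiC Cfsg.Agent.Herm Cfsg.Agent.Fischer.U6
  Cfsg.Agent.Fischer

variable {H : Type*} [Group H] [Finite H] {Q N M L R A : Subgroup H} {z a b s t : H}
  {V : Type*} [AddCommGroup V] [Module K4 V] [FiniteDimensional K4 V]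
  {B : V →ₛₗ[s4] V →ₗ[K4] K4} {χ : H → V} {φ : L →* SUG B}
  {E F T : Subgroup (SUG B ⧸ center (SUG B))} {v : SUG B ⧸ center (SUG B)} {W : Submodule K4 V}

namespace FT
variable (h : FT Q N M L z B χ φ)
include h

theorem im_com (ha : Iv Q z a) (h1 : R ≤ centralizer {a}) : ∀ x ∈ im φ R, Commute x (tp h.S.hB (χ a)) := by
  rintro _ ⟨g, hg, rfl⟩
  exact mem_centralizer_singleton_iff.1 (h.cen_of ha g (mem_centralizer_singleton_iff.1 (h1 hg)))

/-- a property of the isotropic vectors -/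
theorem mem_of_iv (h1 : A ≤ Q) (h2 : ∀ a ∈ A, a * a = 1) (h3 : ∀ a ∈ A, Iv Q z a → χ a ∈ W) :
    A ≤ h.pre W := fun a ha => h.mem_pre.2 ⟨h1 ha, by
  by_cases e : χ a = 0
  · exact e ▸ zero_mem _
  · rw [h.zero a (h1 ha), not_or] at e
    exact h3 a ha ⟨h1 ha, h2 a ha, e⟩⟩

theorem unique (hL : L ≤ M) (w : KW (TV h.S.hB) (im φ M) E F T v) (f : WF h F W)
    (h1 : im φ (A ⊓ M) ≤ T) (h2 : ∀ a ∈ A, a * a = 1) (h3 : 2 ^ 11 ≤ Nat.card A) :
    A ≤ (AA h F W).map L.subtype := by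
  have := h.fin
  have U := uc_tp h.S
  have QM := h.QN.trans h.NM
  have cm : ∀ a ∈ A, ∀ b ∈ A, Commute a b := fun a ha b hb =>
    Inv.commute_of_mul_self (h2 a ha) (h2 b hb) (h2 _ (mul_mem ha hb))
  have h4 := h.card_im2 (R := A ⊓ M) (inf_le_right.trans h.ML) fun g =>
    ⟨1, Subtype.ext ((pow_two g.1).trans (h2 _ g.2.1))⟩
  have h5 := card_le_two h.iM A
  have h6 := h.rank (A := A ⊓ Q) inf_le_right fun a ha => h2 a ha.1
  have h7 : ∀ a ∈ A ⊓ Q, Iv Q z a → ∀ x ∈ im φ (A ⊓ M), Commute x (tp h.S.hB (χ a)) :=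
    fun a ha ia => h.im_com ia fun g hg => mem_centralizer_singleton_iff.2 (cm g hg.1 a ha.1)
  have sb : ¬ A ≤ M → ∀ W : Submodule K4 V, (∀ a ∈ A ⊓ Q, χ a ∈ W) →
      Nat.card ↥(A ⊓ Q) ^ 2 ≤ 4 * 4 ^ finrank K4 W := fun e => by
    obtain ⟨g, hg, e⟩ := SetLike.not_le_iff_exists.1 e
    exact h.semi_bound (fun c => e (hL c)) inf_le_right fun a ha => cm g hg a ha.1
  rw [inf_assoc, inf_of_le_right QM] at h4
  by_cases e : 16 ≤ Nat.card (im φ (A ⊓ M))
  · rcases w.Tm _ h1 (by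
      rintro _ ⟨g, hg, rfl⟩
      rw [← map_mul (ps φ), show g * g = 1 from Subtype.ext (h2 g hg.1), map_one]) e with e' | e'
    · obtain ⟨u, hu, rfl⟩ := w.hv
      have e1 := Core.eq_of_le_of_card_le e' (w.Ec.trans_le e)
      have := card_le_of_le (h.mem_of_iv (A := A ⊓ Q) (W := .span K4 {u}) inf_le_right
        (fun a ha => h2 a ha.1) fun a ha ia => by
          obtain ⟨c, e⟩ := U.inj _ _ hu (h.is_of ia) (w.fx _ (h.pt_mem ia) (e1 ▸ h7 a ha ia)).symm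
          exact Submodule.mem_span_singleton.2 ⟨c, e.symm⟩)
      rw [h.card_pre, finrank_span_singleton hu.1] at this
      rw [e1, w.Ec] at h4
      omega
    · have e1 := Core.eq_of_le_of_card_le e' (w.Fc.trans_le e)
      have e2 := h.mem_of_iv (A := A ⊓ Q) (W := W) inf_le_right (fun a ha => h2 a ha.1)
        fun a ha ia => (f.m _ (h.is_of ia)).2 (e1 ▸ h7 a ha ia)
      rw [e1, w.Fc] at h4
      by_cases hM : A ≤ M
      · rw [inf_of_le_left hM] at h4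
        have e3 := Core.eq_of_le_of_card_le e2 (by rw [h.card_pre, f.r]; omega)
        exact fun a ha => ⟨⟨a, h.ML (hM ha)⟩, FT.mem_AA.2 ⟨e' ⟨_, ⟨ha, hM ha⟩, rfl⟩,
          fun b hb => cm a ha b (e3.ge hb).1⟩, rfl⟩
      · have := sb hM W fun a ha => (h.mem_pre.1 (e2 ha)).2
        rw [f.r] at this
        nlinarith
  · exfalso
    let W' : Submodule K4 V :=
      { carrier := {u | ∀ g : L, g.1 ∈ A → (φ g).1.1 u = u}
        zero_mem' := fun _ _ => map_zero _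
        smul_mem' := fun c u hu g hg => by rw [map_smul, hu g hg]
        add_mem' := fun {u u'} hu hu' g hg => by rw [map_add, hu g hg, hu' g hg] }
    have h8 := sb (fun hM => by rw [inf_of_le_left hM] at h4 e; nlinarith) W' fun a ha g hg => by
      rw [← h.lin g a ha.2, (cm g hg a ha.1).eq, mul_inv_cancel_right]
    have h9 : W' = ⊤ := Submodule.eq_top_of_finrank_eq (le_antisymm W'.finrank_le (by
      rw [h.S.hn]
      by_contra hc
      have := Nat.pow_le_pow_right (show 0 < 4 by norm_num) (show finrank K4 W' ≤ 5 by omega)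
      have : 69 ≤ Nat.card ↥(A ⊓ Q) := by nlinarith
      nlinarith))
    have := card_le_of_le (show A ⊓ M ≤ A ⊓ Q from fun g hg => ⟨hg.1, h.triv fun a ha =>
      (h.lin ⟨g, h.ML hg.2⟩ a ha).trans (h9.ge Submodule.mem_top _ hg.1)⟩)
    omega

theorem max_elem (hL : L ≤ M) (T : Sylow 2 H) : ∃ A ≤ (T : Subgroup H), (∀ a ∈ A, a * a = 1) ∧
    Nat.card A = 2 ^ 11 ∧ Nat.card ↥(A ⊓ Q) = 2 ^ 7 ∧
      ∀ A' ≤ (T : Subgroup H), (∀ a ∈ A', a * a = 1) → 2 ^ 11 ≤ Nat.card A' → A' = A := by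
  have := h.fin
  have := h.nQ
  have : Fact (Nat.Prime 2) := ⟨Nat.prime_two⟩
  have h1 : IsPGroup 2 ↥((T : Subgroup H) ⊓ M) := T.2.to_inf_left
  obtain ⟨E, F, T₀, v, w, h2⟩ := h.kw (P := im φ (T ⊓ M)) (map_mono (comap_mono inf_le_right))
    (h.im_two h1)
  obtain ⟨W, f⟩ := h.exists_W w
  have h3 : Q ≤ T := (IsPGroup.of_card h.cQ).le_sylow_of_normal T
  have h4 := h.card_im2 (inf_le_right.trans h.ML) h1
  have h5 := card_le_two h.iM T
  have h6 := Nat.le_of_dvd Nat.card_pos (T.pow_dvd_card_of_pow_dvd_card (n := 21) (by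
    rw [← card_mul_index M, h.iM, h.cM, h.cN, h.cQ]; norm_num))
  rw [inf_of_le_right (le_inf h3 (h.QN.trans h.NM)), h.cQ] at h4
  have h7 := Core.eq_of_le_of_card_le h2 (by rw [w.Tc]; omega)
  refine ⟨_, ?_, ?_, f.card w, by rw [f.inf, h.card_pre, f.r]; norm_num, fun A h8 h9 h10 =>
    Core.eq_of_le_of_card_le (h.unique hL w f ((map_mono (comap_mono (inf_le_inf_right _ h8))).trans h2)
      h9 h10) ((f.card w).trans_le h10)⟩
  · rintro _ ⟨g, hg, rfl⟩
    obtain ⟨h8, h9⟩ := FT.mem_AA.1 hg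
    obtain ⟨t, ht, e⟩ := h7.ge (w.FT h8)
    obtain ⟨b, hb, ib⟩ := f.iv
    obtain ⟨c, e1⟩ := (h.eig (h.is_of ib) t⁻¹).1 ((f.m _ (h.is_of ib)).1 (h.mem_pre.1 hb).2 _ (by
      rw [map_inv (ps φ), e]; exact inv_mem h8))
    have ht' : t.1⁻¹ ∈ (T : Subgroup H) := Subgroup.inv_mem _ ht.1
    obtain ⟨k, hk⟩ := T.2 ⟨_, ht'⟩
    refine (mul_mem_cancel_left ht').1 (h3 (h.memQ' ((h.ps_eq t g).1 e) ib ?_))
    rw [← eig_two e1 (congrArg Subtype.val hk), ← h.lin _ b ib.1]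
    congr 1
    calc _ = t.1⁻¹ * (g * b * g.1⁻¹) * t := by simp [mul_assoc]
      _ = _ := by rw [(h9 b hb).mul_inv_cancel]; simp
  · rintro _ ⟨g, hg, rfl⟩
    exact f.sq w hg

end FT

end Cfsg.Agent.LF
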