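import Cfsg.Agent.Fischer.LG

/-! The subgroup of order `8` over a singular point. -/

set_option autoImplicit false
set_option linter.unusedSectionVars false
set_option linter.unusedVariables false

namespace Cfsg.Agent.LF
open Subgroup Module Cfsg.Agent.Comp Cfsg.Agent.FiC Cfsg.Agent.Herm Cfsg.Agent.Fischer.U6
  Cfsg.Agent.Fischer

variable {H : Type*} [Group H] [Finite H] {Q N M L R A : Subgroup H} {z a b s t : H}
  {V : Type*} [AddCommGroup V] [Module K4 V] [FiniteDimensional K4 V]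
  {B : V →ₛₗ[s4] V →ₗ[K4] K4} {χ : H → V} {φ : L →* SUG B}
  {E F T : Subgroup (SUG B ⧸ center (SUG B))}

theorem kw_alt {X : Type*} [Group X] [Finite X] {D : Set X} {K E F T : Subgroup X} {v : X}
    (w : KW D K E F T v) (h : PV K v) : (∃ θ : ↥(K ⊓ centralizer {v}) →* alternatingGroup (Fin 6),
      Function.Surjective θ ∧ ∀ g, θ g = 1 ↔ g.1 ∈ E) ∧
      ∀ E' ≤ normalizer (K : Set X) ⊓ centralizer {v}, IsPGroup 2 E' →
        K ⊓ centralizer {v} ≤ normalizer (E' : Set X) → E' ≤ E := by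
  obtain ⟨E₀, θ, t1, t2, h1, h2⟩ := h.alt
  obtain rfl : E = E₀ := Core.eq_of_le_of_card_le (h2 E (w.El.trans (inf_le_inf_right _ le_normalizer))
    (IsPGroup.of_card (n := 4) w.Ec) w.En) (h1.trans w.Ec.symm).le
  exact ⟨⟨θ, t1, t2⟩, h2⟩

/-- the situation at a conjugate `s` of `z` -/
structure VS (h : FT Q N M L z B χ φ) (R : Subgroup H) (s : H)
    (E F T : Subgroup (SUG B ⧸ center (SUG B))) : Prop where
  i : Iv Q z s
  r : RR Q R s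
  hz : z ∈ R
  hs : s ∈ R
  cj : ∀ x ∈ R, ∀ y ∈ R, x * y * x⁻¹ = y ∨ x * y * x⁻¹ = y * s
  sq : ∀ x ∈ R, x * x = 1 ∨ x * x = s
  w : KW (TV h.S.hB) (im φ M) E F T (tp h.S.hB (χ s))

/-- the subgroup of order `8` -/
def VV (h : FT Q N M L z B χ φ) (s : H) : Subgroup H := h.pre (K4 ∙ χ s)

/-- the subgroup of order `2^15` -/
noncomputable def OO (h : FT Q N M L z B χ φ) (s : H) (E : Subgroup (SUG B ⧸ center (SUG B))) :
    Subgroup H := (E.comap (ps φ)).map L.subtype ⊓ centralizer (VV h s : Set H)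

namespace FT
variable {h : FT Q N M L z B χ φ}

theorem mem_VV : a ∈ VV h s ↔ a ∈ Q ∧ ∃ c : K4, c • χ s = χ a :=
  h.mem_pre.trans (and_congr_right fun _ => Submodule.mem_span_singleton)

theorem cen_VV (ha : a ∈ Q) : a ∈ centralizer (VV h s : Set H) ↔ B (χ s) (χ a) = 0 :=
  Iff.trans ⟨fun e b hb => Commute.symm (e b hb), fun e b hb => (e b hb).symm⟩
    ((h.cen_pre ha).trans mem_perp_singleton)

theorem conj_VV {n : H} (hn : n ∈ N) (ha : a ∈ VV h s) : n * a * n⁻¹ ∈ VV h s := by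
  obtain ⟨c, -, hc⟩ := h.scal' n hn
  obtain ⟨h1, d, e⟩ := mem_VV.1 ha
  exact mem_VV.2 ⟨h.nQ.conj_mem a h1 n, c * d, by rw [hc a h1, ← e, mul_smul]⟩

end FT

namespace VS
variable {h : FT Q N M L z B χ φ} (c : VS h R s E F T)
include c

theorem is : Is B (χ s) := h.is_of c.i

theorem LM : L ≤ M := h.L_le c.i c.r

theorem sV : s ∈ VV h s := FT.mem_VV.2 ⟨c.i.1, 1, one_smul _ _⟩

theorem V_sq (ha : a ∈ VV h s) : a * a = 1 := by
  obtain ⟨h1, d, e⟩ := FT.mem_VV.1 ha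
  rw [h.sq a h1, ← e]
  simp [c.is.2]

theorem V_card : Nat.card (VV h s) = 8 := by
  rw [VV, h.card_pre, finrank_span_singleton c.is.1]; rfl

theorem U_sq (ha : a ∈ R) (hq : a ∈ Q) : a * a = 1 :=
  (c.sq a ha).elim id fun e => (h.l.sq a hq).resolve_right fun e' => c.i.2.2.2 (e.symm.trans e')

theorem alt : im φ (R ⊓ M) = E := by
  have := h.fin
  have h3 := (kw_alt c.w (h.pv_of c.i c.r)).2 _ (h.im_le c.i (inf_le_left.trans c.r.le))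
    (h.im_two ((IsPGroup.of_card c.r.c).to_inf_left)) (h.rr_norm c.i c.r)
  have h4 := h.card_im (R := R ⊓ M) c.i (inf_le_right.trans h.ML) (inf_le_left.trans c.r.le)
  have h5 := card_le_two h.iM R
  rw [inf_assoc, inf_of_le_right (h.QN.trans h.NM)] at h4
  have h7 := c.r.i
  rw [c.r.c, h4] at h5
  exact Core.eq_of_le_of_card_le h3 (by rw [c.w.Ec]; nlinarith)

theorem ex {e} (he : e ∈ E) : ∃ g : L, g.1 ∈ R ∧ ps φ g = e :=
  (c.alt.ge he).imp fun _ h => ⟨h.1.1, h.2⟩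

theorem act (g : L) (hg : g.1 ∈ R) (ha : a ∈ R) (hq : a ∈ Q) :
    (φ g).1.1 (χ a) = χ a ∨ (φ g).1.1 (χ a) = χ a + χ s := by
  rw [← h.lin g a hq, ← h.mul a hq s c.i.1]
  exact (c.cj g hg a ha).imp (congrArg _) (congrArg _)

theorem uw (ha : a ∈ R ⊓ Q) (hb : b ∈ R ⊓ Q) (e : χ b = w4 • χ a) : a ∈ VV h s := by
  refine FT.mem_VV.2 ⟨ha.2, ?_⟩
  by_cases h0 : χ a = 0
  · exact ⟨0, by simp [h0]⟩
  have ia : Is B (χ a) := ⟨h0, (h.sq a ha.2).1 (c.U_sq ha.1 ha.2)⟩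
  refine ((uc_tp h.S).inj _ _ c.is ia (c.w.fx _ ⟨_, ia, rfl⟩ fun x hx => ?_).symm).imp fun _ => Eq.symm
  obtain ⟨g, hg, rfl⟩ := c.ex hx
  refine (h.eig ia g).2 ⟨1, ((c.act g hg ha.1 ha.2).resolve_right fun e1 => ?_).trans (one_smul _ _).symm⟩
  have := c.act g hg hb.1 hb.2
  rw [e, map_smul, e1, smul_add, add_eq_left, add_right_inj, smul_eq_zero] at this
  rcases this with (e2 | e2) | e2
  exacts [absurd e2 (by decide), c.is.1 e2,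
    absurd (smul_left_injective K4 c.is.1 (e2.trans (one_smul _ _).symm)) (by decide)]

theorem cm0 {g q : H} (hg : g ∈ R) (hq : q ∈ Q) (e : Commute q s) : g * q * g⁻¹ * q⁻¹ ∈ R ⊓ Q :=
  ⟨by simpa [mul_assoc] using mul_mem hg (Core.conj_mem_of_le_normalizer c.r.n
      (mem_centralizer_singleton_iff.2 e) (R.inv_mem hg)),
    Q.mul_mem (h.nQ.conj_mem q hq g) (Q.inv_mem hq)⟩

theorem cm (g : L) (hg : g.1 ∈ R) {q : H} (hq : q ∈ Q) (e : B (χ s) (χ q) = 0) :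
    g * q * g.1⁻¹ * q⁻¹ ∈ VV h s ∧ ∃ b ∈ R ⊓ Q, χ b = w4 • χ (g * q * g.1⁻¹ * q⁻¹) := by
  have h1 : ∀ q ∈ Q, B (χ s) (χ q) = 0 → g * q * g.1⁻¹ * q⁻¹ ∈ R ⊓ Q := fun q hq e =>
    c.cm0 hg hq (((FT.cen_VV hq).2 e s c.sV).symm)
  have h2 : ∀ q ∈ Q, χ (g * q * g.1⁻¹ * q⁻¹) = (φ g).1.1 (χ q) + χ q := fun q hq => by
    rw [h.mul _ (h.nQ.conj_mem q hq g) _ (inv_mem hq), h.inv hq, h.lin g q hq]
  obtain ⟨p, hp, e'⟩ := h.surj (w4 • χ q)
  have h3 := h1 p hp (by simp [e', e])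
  have h4 : χ (g * p * g.1⁻¹ * p⁻¹) = w4 • χ (g * q * g.1⁻¹ * q⁻¹) := by
    rw [h2 p hp, h2 q hq, e', map_smul, smul_add]
  exact ⟨c.uw (h1 q hq e) h3 h4, _, h3, h4⟩

theorem V_le : VV h s ≤ R := fun a ha => by
  have := h.fin
  obtain ⟨e, he, e1⟩ := exists_notMem (F := E) [1] (by rw [c.w.Ec]; simp)
  obtain ⟨g, hg, rfl⟩ := c.ex he
  have h1 := mt (c.w.fz _ he) (by simpa using e1)
  push Not at h1
  obtain ⟨_, hy, h1, h2⟩ := h1
  obtain ⟨q, hq, rfl⟩ := h.ex_pt hy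
  have h3 := ((uc_tp h.S).comm c.is (h.is_of hq) h.S).1 h1
  obtain ⟨h4, b, hb, h5⟩ := c.cm g hg hq.1 h3
  have h6 := c.cm0 hg hq.1 (((FT.cen_VV hq.1).2 h3 s c.sV).symm)
  have h7 : χ (g * q * g.1⁻¹ * q⁻¹) ≠ 0 := fun e => h2 ((h.eig (h.is_of hq) g).2 ⟨1, by
    rw [h.mul _ (h.nQ.conj_mem q hq.1 g) _ (inv_mem hq.1), h.inv hq.1, h.lin g q hq.1] at e
    exact (add_right_cancel (e.trans (h.S.add_self _).symm)).trans (one_smul _ _).symm⟩)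
  generalize g * q * g.1⁻¹ * q⁻¹ = u at h4 h5 h6 h7
  obtain ⟨h8, d, e⟩ := FT.mem_VV.1 ha
  obtain ⟨-, k, e'⟩ := FT.mem_VV.1 h4
  obtain ⟨x, hx, e''⟩ : ∃ x ∈ R ⊓ Q, χ a = χ x := by
    rw [← e]
    rcases (by decide +kernel : ∀ d k : K4, k ≠ 0 → d = 0 ∨ d = k ∨ d = w4 * k ∨ d = k + w4 * k) d k
      (fun k0 => h7 (by rw [← e', k0, zero_smul])) with rfl | rfl | rfl | rfl
    exacts [⟨1, one_mem _, by rw [h.one, zero_smul]⟩, ⟨u, h6, e'⟩, ⟨b, hb, by rw [h5, ← e', mul_smul]⟩,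
      ⟨_, mul_mem h6 hb, by rw [h.mul _ h6.2 _ hb.2, h5, ← e', add_smul, mul_smul]⟩]
  rcases h.eq_of hx.2 h8 e'' with rfl | rfl
  exacts [hx.1, mul_mem hx.1 c.hz]

theorem Y_le : centralizer (VV h s : Set H) ≤ M := fun y hy => by
  by_contra hm
  obtain ⟨b, hb, e⟩ := h.surj (w4 • χ s)
  have := (h.semi y (fun e => hm (c.LM e)) s c.i.1 b hb).1 _ e
  rw [← hy s c.sV, ← hy b (FT.mem_VV.2 ⟨hb, _, e.symm⟩), mul_inv_cancel_right, mul_inv_cancel_right,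
    e, s4_eq] at this
  exact absurd (smul_left_injective K4 c.is.1 this) (by decide +kernel)

theorem Y_s : centralizer (VV h s : Set H) ≤ centralizer {s} := fun y hy =>
  mem_centralizer_singleton_iff.2 (hy s c.sV).symm

theorem fixV (g : L) (e : Commute g.1 s) (ha : a ∈ VV h s) : χ (g * a * g.1⁻¹) = χ a := by
  obtain ⟨h1, d, e'⟩ := FT.mem_VV.1 ha
  rw [h.lin g a h1, ← e', map_smul, ← h.lin g s c.i.1, e.mul_inv_cancel]

theorem im_Y : im φ (centralizer (VV h s : Set H)) = im φ M ⊓ centralizer {tp h.S.hB (χ s)} := by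
  rw [← h.im_cen c.i]
  refine le_antisymm (map_mono (comap_mono (le_inf c.Y_le c.Y_s))) ?_
  rintro _ ⟨g, hg, rfl⟩
  obtain ⟨q, hq, e⟩ := h.l.inner (A := VV h s) (fun a ha => (FT.mem_VV.1 ha).1) (h.z_pre _) (h.c g)
    fun a ha => h.eq_of (FT.mem_VV.1 ha).1 (h.nQ.conj_mem a (FT.mem_VV.1 ha).1 g)
      (c.fixV g (mem_centralizer_singleton_iff.1 hg.2) ha)
  refine ⟨(⟨q, h.ML (h.NM (h.QN hq))⟩ : L)⁻¹ * g, fun b hb => (mul_inv_eq_iff_eq_mul.1 ?_).symm,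
    ((h.ps_eq _ _).2 (by simpa using h.nN.conj_mem' q (h.QN hq) g))⟩
  calc _ = q⁻¹ * (g * b * g.1⁻¹) * q := by simp [mul_assoc]
    _ = b := by rw [e b hb]; group

theorem R_le (g : L) (hg : g.1 ∈ R) : g.1 ∈ OO h s E :=
  ⟨⟨g, c.alt.le ⟨g, ⟨hg, c.LM g.2⟩, rfl⟩, rfl⟩, fun a ha => (mul_inv_eq_iff_eq_mul.1
    ((c.cj g hg a (c.V_le ha)).resolve_right fun e => c.is.1 (by
      have := c.fixV g (mem_centralizer_singleton_iff.1 (c.r.le hg)) ha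
      rwa [e, h.mul a (FT.mem_VV.1 ha).1 s c.i.1, add_eq_left] at this))).symm⟩

theorem Q_le (ha : a ∈ Q) (e : a ∈ centralizer (VV h s : Set H)) : a ∈ OO h s E :=
  ⟨⟨⟨a, h.ML (h.NM (h.QN ha))⟩, by
    rw [SetLike.mem_coe, mem_comap, h.kerN (h.QN ha)]; exact one_mem _, rfl⟩, e⟩

theorem dec (ha : a ∈ OO h s E) :
    ∃ g : L, g.1 ∈ R ∧ ∃ q ∈ Q, q ∈ centralizer (VV h s : Set H) ∧ a = g * q := by
  obtain ⟨⟨k, hk, rfl⟩, ha⟩ := ha
  obtain ⟨g, hg, e⟩ := c.ex hk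
  have := Subgroup.mul_mem _ (Subgroup.inv_mem _ (c.R_le g hg).2) ha
  exact ⟨g, hg, _, h.memQ c.i ((h.ps_eq g k).1 e) (mem_centralizer_singleton_iff.1 (c.Y_s this)), this,
    by simp⟩

theorem O_sq (ha : a ∈ OO h s E) : a * a ∈ VV h s := by
  obtain ⟨g, hg, q, hq, h1, rfl⟩ := c.dec ha
  have h2 := (c.cm g⁻¹ (inv_mem hg) hq ((FT.cen_VV hq).1 h1)).1
  have h3 : g.1 * g ∈ VV h s := by
    rcases c.sq g hg with e | e <;> rw [e]
    exacts [one_mem _, c.sV]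
  have h4 : q * q ∈ VV h s := by
    rcases h.l.sq q hq with e | e <;> rw [e]
    exacts [one_mem _, h.z_pre _]
  simpa [mul_assoc] using mul_mem (mul_mem h3 h2) h4

theorem O_cen (ha : a ∈ OO h s E) (e : ∀ b ∈ OO h s E, Commute a b) : a ∈ VV h s := by
  obtain ⟨⟨k, hk, rfl⟩, ha⟩ := ha
  have h1 := h.memQ c.i ((h.ker k).1 (c.w.fz _ hk fun y hy e' => by
    obtain ⟨q, hq, rfl⟩ := h.ex_pt hy
    exact mem_centralizer_singleton_iff.1 (h.cen_of hq k (e q (c.Q_le hq.1 ((FT.cen_VV hq.1).2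
      (((uc_tp h.S).comm c.is (h.is_of hq) h.S).1 e'))))))) (mem_centralizer_singleton_iff.1 (c.Y_s ha))
  exact h.mem_pre.2 ⟨h1, (h.S.hB.perp_perp _).le ((h.cen_pre h1).1 fun b hb => e b (c.Q_le
    (h.mem_pre.1 hb).1 ((FT.cen_VV (h.mem_pre.1 hb).1).2 (mem_perp_singleton.1 (h.mem_pre.1 hb).2))))⟩

theorem O_card : Nat.card (OO h s E) = 2 ^ 15 := by
  have h1 := h.S.hB.finrank_perp_add (K4 ∙ χ s)
  rw [finrank_span_singleton c.is.1, h.S.hn] at h1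
  rw [h.card_im (R := OO h s E) c.i (inf_le_left.trans (map_subtype_le _)) (inf_le_right.trans c.Y_s),
    show OO h s E ⊓ Q = h.pre (perp B (K4 ∙ χ s)) from Subgroup.ext fun a => Iff.trans
      ⟨fun e => ⟨e.2, mem_perp_singleton.2 ((FT.cen_VV e.2).1 e.1.2)⟩, fun e =>
        ⟨c.Q_le e.1 ((FT.cen_VV e.1).2 (mem_perp_singleton.1 e.2)), e.1⟩⟩ h.mem_pre.symm, h.card_pre,
    show finrank K4 (perp B (K4 ∙ χ s)) = 5 by omega, show im φ (OO h s E) = E from le_antisymm ?_ ?_,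
    c.w.Ec]
  · norm_num
  · rintro _ ⟨g, ⟨⟨k, hk, e⟩, -⟩, rfl⟩
    exact (show k = g from Subtype.ext e) ▸ hk
  · intro e he
    obtain ⟨g, hg, rfl⟩ := c.ex he
    exact ⟨g, c.R_le g hg, rfl⟩

theorem O_z : ∃ a ∈ OO h s E, ∃ b ∈ OO h s E, a * b * a⁻¹ = b * z := by
  by_contra hc
  push Not at hc
  have h1 := h.S.hB.finrank_perp_add (K4 ∙ χ s)
  rw [finrank_span_singleton c.is.1, h.S.hn] at h1
  have h2 : ∀ a ∈ h.pre (perp B (K4 ∙ χ s)), a ∈ OO h s E := fun a ha => c.Q_le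
    (h.mem_pre.1 ha).1 ((FT.cen_VV (h.mem_pre.1 ha).1).2 (mem_perp_singleton.1 (h.mem_pre.1 ha).2))
  have := card_le_of_le (show h.pre (perp B (K4 ∙ χ s)) ≤ VV h s from fun a ha =>
    h.mem_pre.2 ⟨(h.mem_pre.1 ha).1, (h.S.hB.perp_perp _).le ((h.cen_pre (h.mem_pre.1 ha).1).1
      fun b hb => mul_inv_eq_iff_eq_mul.1 ((h.l.conj a (h.mem_pre.1 ha).1 b
        (h.mem_pre.1 hb).1).resolve_right (hc a (h2 a ha) b (h2 b hb))))⟩)
  rw [c.V_card, h.card_pre, show finrank K4 (perp B (K4 ∙ χ s)) = 5 by omega] at this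
  omega

theorem tr (ha : a ∈ VV h s) (h1 : a ≠ 1) (h2 : a ≠ z) : ∃ n ∈ N, n * s * n⁻¹ = a := by
  obtain ⟨h3, d, e⟩ := FT.mem_VV.1 ha
  have ia : Iv Q z a := ⟨h3, c.V_sq ha, h1, h2⟩
  exact h.pt_eq c.i ia ((uc_tp h.S).eq_of_smul c.is (h.is_of ia) e.symm).symm

theorem theta : ∃ θ : centralizer (VV h s : Set H) →* alternatingGroup (Fin 6),
    Function.Surjective θ ∧ ∀ g, θ g = 1 ↔ g.1 ∈ OO h s E := by
  have := h.fin
  obtain ⟨θ, t1, t2⟩ := (kw_alt c.w (h.pv_of c.i c.r)).1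
  obtain ⟨f, f1, f2⟩ := exists_onto (ps φ) (c.Y_le.trans h.ML) c.im_Y
  refine ⟨θ.comp f, t1.comp f1, fun g => (t2 _).trans ?_⟩
  rw [f2]
  exact ⟨fun e => ⟨⟨_, e, rfl⟩, g.2⟩, fun ⟨⟨k, hk, e⟩, _⟩ =>
    (show k = ⟨g, h.ML (c.Y_le g.2)⟩ from Subtype.ext e) ▸ hk⟩

theorem UO {y : H} (hy : y ∈ OO h s E) (ha : a ∈ R ⊓ Q) : ∃ x ∈ closure {z, s}, y * a * y⁻¹ = a * x := by
  obtain ⟨g, hg, q, hq, -, rfl⟩ := c.dec hy
  have h1 : z ∈ closure {z, s} := subset_closure (by simp)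
  have h2 : s ∈ closure {z, s} := subset_closure (by simp)
  rw [show g * q * a * (g * q)⁻¹ = g * (q * a * q⁻¹) * g.1⁻¹ by group]
  rcases h.l.conj q hq a ha.2 with e | e <;> rw [e]
  · exact (c.cj g hg a ha.1).elim (fun e => ⟨1, one_mem _, by simpa using e⟩) fun e => ⟨s, h2, e⟩
  · exact (c.cj g hg _ (mul_mem ha.1 c.hz)).elim (fun e => ⟨z, h1, e⟩)
      fun e => ⟨_, mul_mem h1 h2, e.trans (mul_assoc ..)⟩

end VS

end Cfsg.Agent.LF
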