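import Cfsg.Agent.Fischer.LC
import Cfsg.Agent.MT.Baby
import Cfsg.Agent.PGrp.Aut
import Cfsg.Agent.S0249
import Cfsg.Agent.Classical.SLBasic

/-! Normalizers of shape `O.(S₁ × S₂)`. -/

set_option autoImplicit false
set_option linter.unusedSectionVars false
set_option linter.unusedVariables false

namespace Cfsg.Agent.LF
open Subgroup Cfsg.Agent.LocalEven
open scoped commutatorElement

theorem simple_sl3 : IsSimpleGroup (Matrix.SpecialLinearGroup (Fin 3) (ZMod 2)) := by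
  have := S0249.result (F := ZMod 2) 3 le_rfl
  have h5 : center (Matrix.SpecialLinearGroup (Fin 3) (ZMod 2)) = ⊥ := eq_bot_iff.2 fun g hg => by
    obtain ⟨r, h6, h7⟩ := Matrix.SpecialLinearGroup.mem_center_iff.1 hg
    obtain rfl : r = 1 := ((by decide : ∀ a : ZMod 2, a = 0 ∨ a = 1) r).resolve_left
      fun e => by simp [e] at h6
    exact Subtype.ext (by simpa using h7.symm)
  exact (QuotientGroup.quotientBot.symm.trans
    (QuotientGroup.quotientMulEquivOfEq h5.symm)).isSimpleGroup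

theorem card_sl3 : Nat.card (Matrix.SpecialLinearGroup (Fin 3) (ZMod 2)) = 168 := by
  simpa [Fin.prod_univ_three] using Classical.SLBasic.card_SL (F := ZMod 2) 3 (by norm_num)

theorem aut8 {G : Type*} [Group G] [Finite G] {V : Subgroup G} (hV : IsElementaryAbelian 2 V)
    (hc : Nat.card V = 8) : Nonempty (MulAut V ≃* Matrix.SpecialLinearGroup (Fin 3) (ZMod 2)) := by
  have := hV.1
  obtain ⟨m, ⟨e⟩⟩ := BG.RepGlue.exists_mulEquiv (p := 2) (V := V) fun v => Subtype.ext (hV.2 v v.2)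
  obtain rfl : 3 = m := Nat.pow_right_injective le_rfl
    (hc.symm.trans (BG.RepGlue.card_of_mulEquiv e))
  let f : MulAut V →* Matrix.SpecialLinearGroup (Fin 3) (ZMod 2) := MonoidHom.mk' (fun α =>
    ⟨BG.RepGlue.autMatrix e α, (by decide : ∀ a b : ZMod 2, a * b = 1 → a = 1) _ _ (by
      rw [← Matrix.det_mul, ← map_mul, mul_inv_cancel α, map_one, Matrix.det_one])⟩)
    fun a b => Subtype.ext (map_mul _ a b)
  refine ⟨.ofBijective f ⟨fun a b h => PGrp.autMatrix_injective e (congrArg Subtype.val h),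
    fun A => ⟨(e.trans (AddEquiv.toMultiplicative
      (Matrix.SpecialLinearGroup.toLin' A).toAddEquiv)).trans e.symm,
      Subtype.ext (Matrix.ext_iff_mulVec.2 fun v => ?_)⟩⟩⟩
  obtain ⟨v, rfl⟩ : ∃ u, (e u).toAdd = v := ⟨e.symm (.ofAdd v), by simp⟩
  exact (BG.RepGlue.autMatrix_mulVec e _ v).trans (by simp [Matrix.SpecialLinearGroup.toLin'_apply])

theorem prod_quot {G S₁ S₂ : Type*} [Group G] [Finite G] [Group S₁] [Group S₂] [Finite S₁] [Finite S₂]
    [IsSimpleGroup S₁] [IsSimpleGroup S₂] (h1 : 3 ∣ Nat.card S₁) (h2 : 3 ∣ Nat.card S₂)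
    (hz : center S₂ = ⊥) {N Y O : Subgroup G} (α : N →* S₁) (ha : Function.Surjective α)
    (ha' : ∀ n, α n = 1 ↔ n.1 ∈ Y) (YN : Y ≤ N) (θ : Y →* S₂) (ht : Function.Surjective θ)
    (ht' : ∀ y, θ y = 1 ↔ y.1 ∈ O) (OY : O ≤ Y) (hO : IsPGroup 2 O) (q : N) (hq : q.1 ∉ Y)
    (hq' : ∀ y ∈ Y, y⁻¹ * (q * y * q.1⁻¹) ∈ O) :
    N ≤ normalizer (O : Set G) ∧ (pCore 2 N).map N.subtype = O ∧
      ∃ _ : (O.subgroupOf N).Normal, Nonempty (N ⧸ O.subgroupOf N ≃* S₁ × S₂) := by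
  have nY : ∀ n ∈ N, ∀ y ∈ Y, n * y * n⁻¹ ∈ Y := fun n hn y hy =>
    (ha' (⟨n, hn⟩ * ⟨y, YN hy⟩ * (⟨n, hn⟩ : N)⁻¹)).1 (by
      rw [map_mul, map_mul, (ha' ⟨y, YN hy⟩).2 hy]; simp)
  have nO : N ≤ normalizer (O : Set G) := le_normalizer_iff.2 fun n hn x hx =>
    (ht' ⟨_, nY n hn x (OY hx)⟩).1 (bot_of_simple h2 θ ht (isPGroup_cj n hO)
      (le_normalizer_iff.2 fun y hy w hw => by
        rw [mem_cj] at hw ⊢
        have h3 := nY _ (inv_mem hn) y hy
        simpa [mul_assoc] using (ht' (⟨_, h3⟩ * ⟨_, OY hw⟩ * (⟨_, h3⟩ : Y)⁻¹)).1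
          (by rw [map_mul, map_mul, (ht' ⟨_, OY hw⟩).2 hw]; simp)) _ (conj_mem_cj hx))
  have i1 := normal_subgroupOf_of_le_normalizer nO
  have i2 := normal_subgroupOf_of_le_normalizer (le_normalizer_iff.2 nY)
  refine ⟨nO, le_antisymm (fun x hx => ?_) ((map_subgroupOf_eq_of_le (OY.trans YN)).ge.trans
    (map_mono (Core.le_pCore i1 hO.comap_subtype))), i1, ?_⟩
  · have h3 : N ≤ normalizer ((pCore 2 N).map N.subtype : Set G) := le_normalizer_iff.2 (by
      rintro n hn _ ⟨y, hy, rfl⟩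
      exact ⟨_, (inferInstance : (pCore 2 N).Normal).conj_mem y hy ⟨n, hn⟩, rfl⟩)
    have h4 := (Core.pCore_isPGroup (G := N) 2).map N.subtype
    exact (ht' ⟨x, (ha' ⟨x, map_subtype_le _ hx⟩).1 (bot_of_simple h1 α ha h4 h3 _ hx)⟩).1
      (bot_of_simple h2 θ ht h4 (YN.trans h3) _ hx)
  let π := QuotientGroup.mk' (O.subgroupOf N)
  have i3 := i2.map π (QuotientGroup.mk'_surjective _)
  let J := (centralizer ((Y.subgroupOf N).map π : Set (N ⧸ O.subgroupOf N))).comap π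
  have hJ : ∀ j ∈ J, ∀ y : Y, π (inclusion YN y) * π j = π j * π (inclusion YN y) :=
    fun j hj y => hj _ ⟨_, y.2, rfl⟩
  have key : ∀ y y' : Y, π (inclusion YN y) = π (inclusion YN y') ↔ θ y = θ y' := fun y y' => by
    rw [← inv_mul_eq_one (a := θ y), ← map_inv, ← map_mul, ht']
    exact QuotientGroup.eq
  have hs : J.map α = ⊤ := (Normal.map inferInstance α ha).eq_bot_or_eq_top.resolve_left fun e =>
    hq ((ha' q).1 (e.le ⟨q, by
      rintro _ ⟨y, hy, rfl⟩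
      exact (mul_inv_eq_iff_eq_mul.1 (show π (q * y * q⁻¹) = π y from
        ((QuotientGroup.eq (s := O.subgroupOf N)).2 (hq' y hy)).symm)).symm, rfl⟩))
  have un : ∀ j ∈ J, ∀ j' ∈ J, ∀ y y' : Y, π j * π (inclusion YN y) = π j' * π (inclusion YN y') →
      θ y = θ y' := fun j hj j' hj' y y' e => by
    refine (mul_inv_eq_one.1 (hz.le (mem_center_iff.2 fun g => ?_))).symm
    obtain ⟨g, rfl⟩ := ht g
    have := hJ _ (mul_mem (inv_mem hj') hj) g
    rw [map_mul, map_inv, show (π j')⁻¹ * π j = π (inclusion YN (y' * y⁻¹)) by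
      rw [map_mul, map_mul, map_inv, map_inv, inv_mul_eq_iff_eq_mul, ← mul_assoc, ← e,
        mul_inv_cancel_right], ← map_mul, ← map_mul, ← map_mul, ← map_mul, key] at this
    simpa using this
  obtain ⟨e, -⟩ := MT.exists_equiv_of_rel (O.subgroupOf N) (fun n (x : S₁ × S₂) => α n = x.1 ∧
    ∃ j ∈ J, ∃ y : Y, π n = π j * π (inclusion YN y) ∧ θ y = x.2) (by
      rintro a b _ _ ⟨e1, j, hj, y, e2, e3⟩ ⟨e4, j', hj', y', e5, e6⟩
      refine ⟨by simp [e1, e4], _, mul_mem hj hj', y * y', ?_, by simp [e3, e6]⟩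
      simp only [map_mul, e2, e5, mul_assoc]
      rw [← mul_assoc (π (inclusion YN y)), hJ _ hj', mul_assoc]) (fun n => by
      obtain ⟨j, hj, e⟩ := hs.ge (mem_top (α n))
      exact ⟨(_, _), rfl, j, hj, ⟨_, (ha' (j⁻¹ * n)).1 (by simp [e])⟩, by
        rw [← map_mul]; congr 1; ext; simp, rfl⟩) (fun x => by
      obtain ⟨j, hj, e⟩ := hs.ge (mem_top x.1)
      obtain ⟨y, e'⟩ := ht x.2
      exact ⟨j * inclusion YN y, by simp [e, (ha' (inclusion YN y)).2 y.2], j, hj, y, map_mul .., e'⟩) (by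
      rintro a _ _ ⟨e1, j, hj, y, e2, e3⟩ ⟨e4, j', hj', y', e5, e6⟩
      exact Prod.ext (e1.symm.trans e4) (e3.symm.trans ((un j hj j' hj' y y' (e2.symm.trans e5)).trans e6)))
    fun a => ⟨fun ⟨e1, j, hj, y, e2, e3⟩ => (ht' ⟨a, (ha' a).1 e1⟩).1
      ((un 1 (one_mem _) j hj _ y (by rw [map_one, one_mul]; exact e2)).trans e3),
      fun e => ⟨(ha' a).2 (OY e), 1, one_mem _, ⟨a, OY e⟩, by rw [map_one, one_mul]; rfl, (ht' _).2 e⟩⟩
  exact ⟨e⟩

theorem special_of {G : Type*} [Group G] [Finite G] {O V : Subgroup G} (hO : IsPGroup 2 O)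
    (h1 : ∀ a, a ∈ V ↔ a ∈ O ∧ ∀ b ∈ O, Commute a b) (h2 : ∀ a ∈ O, a * a ∈ V) (h3 : V ≤ ⁅O, O⁆) :
    IsSpecial 2 O ∧ (center O).map O.subtype = V := by
  have : Fact (Nat.Prime 2) := ⟨Nat.prime_two⟩
  have h4 : (center O).map O.subtype = V := Subgroup.ext fun a => Iff.trans ⟨by
    rintro ⟨a, ha, rfl⟩
    exact ⟨a.2, fun b hb => (congrArg Subtype.val (mem_center_iff.1 ha ⟨b, hb⟩)).symm⟩,
    fun e => ⟨⟨a, e.1⟩, mem_center_iff.2 fun b => Subtype.ext (e.2 b b.2).symm, rfl⟩⟩ (h1 a).symm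
  have h5 : ⁅O, O⁆ ≤ V := commutator_le.2 fun a ha b hb => by
    have := mul_mem (mul_mem (h2 _ (mul_mem ha hb)) (h2 _ (mul_mem (mul_mem (inv_mem hb) (inv_mem ha)) hb)))
      (h2 _ (inv_mem hb))
    simpa [mul_assoc, commutatorElement_def] using this
  have h6 := (PGrp.map_frattini_le_iff hO).2 ⟨h5, fun a ha => (sq a).symm ▸ h2 a ha⟩
  exact ⟨⟨hO, map_injective (subtype_injective _) ((le_antisymm h6
    (h3.trans (PGrp.commutator_le_map_frattini hO))).trans h4.symm), map_injective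
      (subtype_injective _) ((Core.map_commutator_subtype O).trans ((le_antisymm h5 h3).trans h4.symm))⟩, h4⟩

end Cfsg.Agent.LF
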