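import Cfsg.Agent.Fischer.LI
import Cfsg.Agent.Fischer.LJ
import Cfsg.Agent.Fischer.ES2

/-! The normalizer of the subgroup of order `8`. -/

set_option autoImplicit false
set_option linter.unusedSectionVars false
set_option linter.unusedVariables false

namespace Cfsg.Agent.LF
open Subgroup Module Cfsg.Agent.Comp Cfsg.Agent.FiC Cfsg.Agent.Herm Cfsg.Agent.Fischer.U6
  Cfsg.Agent.Fischer Cfsg.Agent.LocalEven
open scoped commutatorElement

variable {G : Type*} [Group G] [Finite G] {z : G} {Q N M L : Subgroup (centralizer ({z} : Set G))}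
  {V : Type*} [AddCommGroup V] [Module K4 V] [FiniteDimensional K4 V]
  {B : V →ₛₗ[s4] V →ₗ[K4] K4} {χ : centralizer ({z} : Set G) → V} {φ : L →* SUG B}
  {E F T : Subgroup (SUG B ⧸ center (SUG B))} {s : centralizer ({z} : Set G)} {R : Subgroup G}

theorem exists_vs [Q.Normal] (hF : IsOfLargeFischerTypeAt z Q) (h : FT Q N M L (zz z) B χ φ) :
    ∃ (s : centralizer ({z} : Set G)) (R : Subgroup G), ∃ E F T,
      PLocal.Pr (Q.map (Subgroup.subtype _)) R z s ∧ VS h (R.subgroupOf _) s E F T := by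
  have := h.fin
  obtain ⟨s, R, h1, h2, h3⟩ := exists_rr hF
  obtain ⟨E, F, T, v, w, -⟩ := h.kw (P := ⊥) bot_le IsPGroup.of_bot
  obtain ⟨a, ha, rfl⟩ := h.ex_pt w.hv
  obtain ⟨m, -, e⟩ := h.mconj h1 ha (iff_of_true (h.pv_of h1 h2)
    (((split h.tv_conj h.kf).2.2.1 _ w.hv).resolve_left fun pu => by
      have := pu.card ▸ w.cv
      omega))
  obtain ⟨g, hg⟩ := isConj_iff.1 (h3.trans (isConj_iff.2 ⟨m, congrArg Subtype.val e⟩))
  obtain ⟨-, p, r⟩ := rr_of hF ha.1 (fun e => ha.2.2.2 (Subtype.ext e)) hg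
  rw [inf_subgroupOf_right] at r
  exact ⟨a, _, E, F, T, p, ha, r, p.hz, p.r.mem,
    fun x hx y hy => (p.r.conj _ hx _ hy).imp Subtype.ext Subtype.ext,
    fun x hx => (p.r.sq _ hx).imp Subtype.ext Subtype.ext, w⟩

theorem es_norm {Q V : Subgroup G} {t : G} (h : ES Q t) (h1 : V ≤ Q) (h2 : t ∈ V) :
    Q ≤ normalizer (V : Set G) := le_normalizer_iff.2 fun x hx y hy => by
  rcases h.conj x hx y (h1 hy) with e | e <;> rw [e]
  exacts [hy, mul_mem hy h2]

namespace VS
variable {h : FT Q N M L (zz z) B χ φ} (p : PLocal.Pr (Q.map (Subgroup.subtype _)) R z s)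
  (c : VS h (R.subgroupOf _) s E F T)
include c

theorem zV : z ∈ (VV h s).map (Subgroup.subtype _) := ⟨zz z, h.z_pre _, rfl⟩

theorem V_el : IsElementaryAbelian 2 ((VV h s).map (Subgroup.subtype _)) := elem_of_sq (by
  rintro _ ⟨a, ha, rfl⟩
  exact congrArg Subtype.val (c.V_sq ha))

theorem cenV : centralizer ((VV h s).map (Subgroup.subtype _) : Set G) =
    (centralizer (VV h s : Set (centralizer ({z} : Set G)))).map (Subgroup.subtype _) := by
  refine le_antisymm (fun y hy => ⟨⟨y, mem_centralizer_singleton_iff.2 (hy z c.zV).symm⟩,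
    fun a ha => Subtype.ext (hy _ ⟨a, ha, rfl⟩), rfl⟩) ?_
  rintro _ ⟨y, hy, rfl⟩ _ ⟨a, ha, rfl⟩
  exact congrArg Subtype.val (hy a ha)

theorem N_norm {n : centralizer ({z} : Set G)} (hn : n ∈ N) :
    n.1 ∈ normalizer ((VV h s).map (Subgroup.subtype _) : Set G) :=
  (le_normalizer_iff.2 (by
    rintro _ ⟨n, hn, rfl⟩ _ ⟨a, ha, rfl⟩
    exact ⟨_, FT.conj_VV hn ha, rfl⟩) : N.map (Subgroup.subtype _) ≤ _) ⟨n, hn, rfl⟩

include p

theorem R_norm : R ≤ normalizer ((VV h s).map (Subgroup.subtype _) : Set G) :=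
  es_norm p.r.toES (map_le_iff_le_comap.2 c.V_le) ⟨s, c.sV, rfl⟩

theorem full : Function.Surjective ((VV h s).map (Subgroup.subtype _)).normalizerMonoidHom := fun α => by
  obtain ⟨g, hg, e⟩ := exists_induce (L := normalizer ((VV h s).map (Subgroup.subtype _) : Set G))
    (fun u hu => (pow_two u).symm.trans (c.V_el.2 u hu)) (by
      rintro _ ⟨u, hu, rfl⟩ h1
      by_cases e : u = zz z
      · have h2 := map_mono (f := Subgroup.subtype _) (show VV h s ≤ Q from fun a ha => (FT.mem_VV.1 ha).1)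
        exact ⟨_, e ▸ p.l.toES, h2, es_norm p.l.toES h2 c.zV⟩
      · obtain ⟨n, hn, rfl⟩ := c.tr hu (fun e => h1 (congrArg Subtype.val e)) e
        have h2 : (VV h s).map (Subgroup.subtype _) ≤ LocalEven.cj n.1 R := fun a ha => mem_cj.2
          ((map_le_iff_le_comap.2 c.V_le : _ ≤ R) (Core.inv_conj_mem_of_le_normalizer le_rfl (c.N_norm hn) ha))
        exact ⟨_, p.r.toES.cj n, h2, es_norm (p.r.toES.cj n) h2 ⟨_, hu, rfl⟩⟩) α
  exact ⟨⟨g, hg⟩, MulEquiv.ext fun u => Subtype.ext (e u)⟩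

theorem main {W O : Subgroup G} (hW : W = (VV h s).map (Subgroup.subtype _))
    (hO : O = (OO h s E).map (Subgroup.subtype _)) :
    normalizer (W : Set G) ≤ normalizer (O : Set G) ∧
    (pCore 2 (normalizer (W : Set G))).map (Subgroup.subtype _) = O ∧
      ∃ _ : (O.subgroupOf (normalizer (W : Set G))).Normal,
        Nonempty (normalizer (W : Set G) ⧸ O.subgroupOf (normalizer (W : Set G)) ≃*
          Matrix.SpecialLinearGroup (Fin 3) (ZMod 2) × alternatingGroup (Fin 6)) := by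
  subst hW hO
  have := simple_sl3
  have := alternatingGroup.isSimpleGroup (α := Fin 6) (by simp)
  obtain ⟨e⟩ := aut8 c.V_el ((card_map_of_injective (subtype_injective _)).trans c.V_card)
  obtain ⟨θ, t1, t2⟩ := c.theta
  obtain ⟨q, hq, e1⟩ := h.l.exists_conj c.i.1 c.i.2.2.1 c.i.2.2.2
  let f := (equivMapOfInjective (centralizer (VV h s : Set (centralizer ({z} : Set G)))) _
    (subtype_injective _)).symm
  refine prod_quot (by rw [card_sl3]; norm_num) (by rw [nat_card_alternatingGroup]; simp [Nat.factorial])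
    (alternatingGroup.center_eq_bot (by simp)) (e.toMonoidHom.comp (normalizerMonoidHom _))
    (e.surjective.comp (c.full p)) (fun n => (map_eq_one_iff e e.injective).trans (by
      rw [← c.cenV, ← MonoidHom.mem_ker, normalizerMonoidHom_ker]; rfl))
    (c.cenV.ge.trans (centralizer_le_normalizer _)) (θ.comp f.toMonoidHom) (t1.comp f.surjective)
    (fun y => (t2 _).trans ?_) (map_mono inf_le_right)
    ((IsPGroup.of_card c.O_card).map _) ⟨q, c.N_norm (h.QN hq)⟩ ?_ ?_
  · obtain ⟨y, rfl⟩ := f.symm.surjective y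
    rw [MulEquiv.coe_toMonoidHom, f.apply_symm_apply]
    exact (mem_map_iff_mem (subtype_injective _)).symm
  · refine mt (mem_map_iff_mem (subtype_injective _)).1 fun e => h.l.ne ?_
    rwa [← e s c.sV, mul_inv_cancel_right, left_eq_mul] at e1
  · rintro _ ⟨y, hy, rfl⟩
    refine ⟨y⁻¹ * (q * y * q⁻¹), c.Q_le (by
      simpa [mul_assoc] using mul_mem (h.nQ.conj_mem' q hq y) (inv_mem hq)) (Subgroup.mul_mem _
        (Subgroup.inv_mem _ hy) fun a ha => ?_), rfl⟩
    have := hy _ (FT.conj_VV (inv_mem (h.QN hq)) ha)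
    calc _ = q * (q⁻¹ * a * q⁻¹⁻¹ * y) * q⁻¹ := by group
      _ = _ := by rw [this]; group

theorem special : IsSpecial 2 ((OO h s E).map (Subgroup.subtype _)) ∧
    (center ((OO h s E).map (Subgroup.subtype _))).map (Subgroup.subtype _) =
      (VV h s).map (Subgroup.subtype _) := by
  refine special_of ((IsPGroup.of_card c.O_card).map _) (fun a => ⟨?_, ?_⟩) ?_ fun a ha => ?_
  · rintro ⟨a, ha, rfl⟩
    refine ⟨⟨a, c.Q_le (FT.mem_VV.1 ha).1 fun b hb => Inv.commute_of_mul_self (c.V_sq hb) (c.V_sq ha)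
      (c.V_sq (mul_mem hb ha)), rfl⟩, ?_⟩
    rintro _ ⟨b, hb, rfl⟩
    exact congrArg Subtype.val (hb.2 a ha)
  · rintro ⟨⟨a, ha, rfl⟩, e⟩
    exact ⟨a, c.O_cen ha fun b hb => Subtype.ext (e _ ⟨b, hb, rfl⟩), rfl⟩
  · rintro _ ⟨a, ha, rfl⟩
    exact ⟨_, c.O_sq ha, rfl⟩
  · have h1 := (c.main p rfl rfl).1
    have h2 := Core.le_normalizer_commutator h1 h1
    obtain ⟨x, hx, y, hy, e⟩ := c.O_z
    have h3 : z ∈ ⁅(OO h s E).map (Subgroup.subtype _), (OO h s E).map (Subgroup.subtype _)⁆ := by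
      have := commutator_mem_commutator (H₁ := (OO h s E).map (Subgroup.subtype _))
        (H₂ := (OO h s E).map (Subgroup.subtype _)) ⟨x, hx, rfl⟩ ⟨y, hy, rfl⟩
      rwa [commutatorElement_def, show (Subgroup.subtype _ x * Subgroup.subtype _ y *
        (Subgroup.subtype _ x)⁻¹ : G) = y * z from congrArg Subtype.val e,
        ← mem_centralizer_singleton_iff.1 y.2 |>.symm, Subgroup.coe_subtype, mul_inv_cancel_right] at this
    obtain ⟨r, hr, e'⟩ := p.r.exists_conj p.hz p.l.ne p.ne.symm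
    have h4 := Core.conj_mem_of_le_normalizer h2 (c.R_norm p hr) h3
    rw [e', mul_mem_cancel_left h3] at h4
    obtain ⟨a, ha, rfl⟩ := ha
    by_cases e1 : a = 1
    · exact e1 ▸ one_mem _
    by_cases e2 : a = zz z
    · rw [e2]; exact h3
    obtain ⟨n, hn, rfl⟩ := c.tr ha e1 e2
    exact Core.conj_mem_of_le_normalizer h2 (c.N_norm hn) h4

end VS

end Cfsg.Agent.LF
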