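import Cfsg.Agent.Fischer.LI

/-! A non-split module, and the elements of order `3` acting as scalars. -/

set_option autoImplicit false
set_option linter.unusedSectionVars false
set_option linter.unusedVariables false

namespace Cfsg.Agent.LF
open Subgroup Module Cfsg.Agent.Comp Cfsg.Agent.FiC Cfsg.Agent.Herm Cfsg.Agent.Fischer.U6
  Cfsg.Agent.Fischer

variable {H : Type*} [Group H] [Finite H] {Q N M L R : Subgroup H} {z a b s t x : H}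
  {V : Type*} [AddCommGroup V] [Module K4 V] [FiniteDimensional K4 V]
  {B : V →ₛₗ[s4] V →ₗ[K4] K4} {χ : H → V} {φ : L →* SUG B}
  {E F T : Subgroup (SUG B ⧸ center (SUG B))} {Y : Type*} [Group Y] {D : Set Y} {p : V → Y}

theorem third (S : Sp B) (U : UC B D p) {u v : V} (hu : Is B u) (hv : Is B v) (h1 : B (v + u) (v + u) = 0)
    (h2 : ¬ Commute (p u) (p v)) : v + u ≠ 0 ∧ p u * p v * p u = p (v + u) := by
  rw [U.comm hu hv S] at h2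
  have h3 : B u v = 1 := by
    rw [b_add_left, map_add, map_add, hu.2, hv.2, ← S.hB.symm u v, s4_eq] at h1
    exact (by decide +kernel : ∀ p : K4, 0 + (⟨p.re + p.im, p.im⟩ : K4) + (p + 0) = 0 → p ≠ 0 → p = 1)
      _ h1 h2
  refine ⟨fun e => h2 ?_, by rw [U.op u v hu hv, h3, one_smul]⟩
  rw [add_right_cancel (e.trans (S.add_self u).symm), hu.2]

theorem ne_conj {l c v : Y} (h : l ∈ centralizer {v}) (e : c ≠ v) :
    l * c * l⁻¹ ≠ v := fun e' => e (by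
  rw [mul_inv_eq_iff_eq_mul, ← mem_centralizer_singleton_iff.1 h] at e'
  exact mul_left_cancel e')

namespace VS
variable {h : FT Q N M L z B χ φ} (c : VS h R s E F T)
include c

theorem U_iv (ha : a ∈ R ⊓ Q) (e : χ a ≠ 0) : Iv Q z a := by
  rw [Ne, h.zero a ha.2, not_or] at e
  exact ⟨ha.2, c.U_sq ha.1 ha.2, e⟩

theorem U_conj {y : H} (hy : y ∈ centralizer (VV h s : Set H)) (ha : a ∈ R ⊓ Q) :
    y * a * y⁻¹ ∈ R ⊓ Q :=
  ⟨Core.conj_mem_of_le_normalizer c.r.n (c.Y_s hy) ha.1, h.nQ.conj_mem a ha.2 y⟩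

theorem U_eq (U : UC B D p) (ha : a ∈ R ⊓ Q) (hb : b ∈ R ⊓ Q) (ia : Iv Q z a) (ib : Iv Q z b)
    (e : p (χ a) = p (χ b)) (e' : p (χ b) ≠ p (χ s)) : χ b = χ a := by
  obtain ⟨d, e1⟩ := U.inj _ _ (h.is_of ia) (h.is_of ib) e
  have h1 : ∀ {a}, Iv Q z a → a ∈ VV h s → p (χ a) = p (χ s) := fun ia ha =>
    (FT.mem_VV.1 ha).2.elim fun d e => U.eq_of_smul c.is (h.is_of ia) e.symm
  rcases (by decide +kernel : ∀ d : K4, d = 0 ∨ d = 1 ∨ d = w4 ∨ w4 * d = 1) d with rfl | rfl | rfl | e2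
  exacts [absurd (e1.trans (zero_smul _ _)) (h.is_of ib).1, e1.trans (one_smul _ _),
    absurd (e.symm.trans (h1 ia (c.uw ha hb e1))) e',
    absurd (h1 ib (c.uw hb ha (by rw [e1, smul_smul, e2, one_smul]))) e']

theorem lam_aux {A : Type*} [Group A] (f : H → A)
    (mul : ∀ a ∈ R ⊓ Q, ∀ b ∈ R ⊓ Q, f (a * b) = f a * f b) (hz : f z = 1) (hs : f s = 1)
    (inv : ∀ y ∈ centralizer (VV h s : Set H), ∀ a ∈ R ⊓ Q, f (y * a * y⁻¹) = f a)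
    (ht : t ∈ VV h s) (U : UC B D p) (ψ : L →* Y)
    (pp : ∀ a, Iv Q z a → ∀ g : L, ψ g * p (χ a) * (ψ g)⁻¹ = p (χ (g.1 * a * g.1⁻¹)))
    (eg : ∀ u, Is B u → ∀ g : L, Commute (ψ g) (p u) ↔ ∃ c : K4, (φ g).1.1 u = c • u)
    {u g : V} (hu : Is B u) (hg : Is B g) {e e' k l : L} (e1 : e.1 ∈ R) (e2 : e'.1 ∈ R)
    (k1 : k.1 ∈ centralizer (VV h s : Set H)) (l1 : l.1 ∈ centralizer (VV h s : Set H)) (kr : (k ^ 5).1 ∈ N)
    (el : ψ e' ∈ centralizer {p (χ s)}) (hl' : ψ l ∈ centralizer {p (χ s)}) {w : Y}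
    (dw : w = p u * (ψ e * p u * (ψ e)⁻¹) * p u) (d1 : ¬ Commute (p u) (ψ e * p u * (ψ e)⁻¹))
    (d3 : ∀ w ∈ D, Commute (p (χ s)) w → Commute (ψ k) w → w = p (χ s))
    (d4 : ¬ Commute w (ψ k * w * (ψ k)⁻¹)) (d5 : w * (ψ k * w * (ψ k)⁻¹) * w = ψ l * w * (ψ l)⁻¹)
    (d6 : ¬ Commute (ψ e') w) (d7 : ¬ Commute (p g) w) (d8 : ¬ Commute (p g) (ψ e' * w * (ψ e')⁻¹))
    (d9 : ∀ i ∈ [1, 2, 3, 4], Commute (ψ k ^ i * w * (ψ k ^ i)⁻¹) (p g)) : f t = 1 := by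
  have zU : z ∈ R ⊓ Q := ⟨c.hz, h.l.mem⟩
  have sU : s ∈ R ⊓ Q := ⟨c.hs, c.i.1⟩
  have leq : ∀ a ∈ R ⊓ Q, ∀ b ∈ Q, χ b = χ a → f b = f a := fun a ha b hb e => by
    rcases h.eq_of ha.2 hb e with rfl | rfl
    · rfl
    · rw [mul _ ha _ zU, hz, mul_one]
  obtain ⟨d, d0, e3⟩ := (by decide +kernel : ∀ b : K4, ∃ d : K4, d ≠ 0 ∧
    (⟨d.re + d.im, d.im⟩ : K4) * b + d * ⟨b.re + b.im, b.im⟩ = 0) (B u (χ s))
  obtain ⟨q, iq, e4⟩ := h.ex_iv (hu.smul d0)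
  have ha := c.cm0 e1 iq.1 ((h.comm iq.1 c.i.1).2 (by
    rw [e4, b_smul_left, b_smul_right, ← h.S.hB.symm u, s4_eq, s4_eq, e3]))
  have e5 := h.mul _ (h.iv_conj iq e).1 _ (inv_mem iq.1)
  rw [h.inv iq.1] at e5
  rw [← U.smul u d hu d0, ← e4, pp _ iq] at d1 dw
  obtain ⟨a0, e6⟩ := third h.S U (h.is_of iq) (h.is_of (h.iv_conj iq e))
    (e5 ▸ (h.sq _ ha.2).1 (c.U_sq ha.1 ha.2)) d1
  rw [e6, ← e5] at dw
  subst dw
  rw [← e5] at a0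
  clear e5 e6 d1
  generalize e * q * e.1⁻¹ * q⁻¹ = a at *
  have ia := c.U_iv ha a0
  have nv : p (χ a) ≠ p (χ s) := fun e => d6 (by
    rw [e]; exact mem_centralizer_singleton_iff.1 el)
  have kp : ∀ i : ℕ, (k ^ i).1 ∈ centralizer (VV h s : Set H) := pow_mem k1
  have hk' : ∀ i : ℕ, (k ^ i).1 * a * (k ^ i).1⁻¹ ∈ R ⊓ Q := fun i => c.U_conj (kp i) ha
  have f1 : f a = 1 := by
    have h1 := c.U_conj k1 ha
    have h2 := mul_mem h1 ha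
    rw [pp _ ia] at d4 d5
    obtain ⟨h3, h4⟩ := third h.S U (h.is_of ia) (h.is_of (h.iv_conj ia k))
      (h.mul _ h1.2 _ ha.2 ▸ (h.sq _ h2.2).1 (c.U_sq h2.1 h2.2)) d4
    have h5 := ne_conj hl' nv
    rw [pp _ ia] at h5 d5
    rw [← h.mul _ h1.2 _ ha.2] at h3 h4
    have := leq _ h2 _ (h.iv_conj ia l).1 (c.U_eq U h2 (c.U_conj l1 ha) (c.U_iv h2 h3) (h.iv_conj ia l)
      (h4.symm.trans d5) h5)
    rwa [inv _ l1 _ ha, mul _ h1 _ ha, inv _ k1 _ ha, right_eq_mul] at this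
  have S1 := mul_mem (hk' 3) (hk' 4)
  have S2 := mul_mem (hk' 2) S1
  have S3 := mul_mem (hk' 1) S2
  have S4 := mul_mem ha S3
  have f2 := mul _ ha _ S3
  have c2 := h.mul _ ha.2 _ S3.2
  rw [mul _ (hk' 1) _ S2, mul _ (hk' 2) _ S1, mul _ (hk' 3) _ (hk' 4), inv _ (kp _) _ ha,
    inv _ (kp _) _ ha, inv _ (kp _) _ ha, inv _ (kp _) _ ha, f1, one_mul,
    one_mul, one_mul, one_mul] at f2
  rw [h.mul _ (hk' 1).2 _ S2.2, h.mul _ (hk' 2).2 _ S1.2, h.mul _ (hk' 3).2 _ (hk' 4).2] at c2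
  have g1 : ∀ i ∈ [1, 2, 3, 4], B g (χ ((k ^ i).1 * a * (k ^ i).1⁻¹)) = 0 := fun i hi => by
    have := d9 i hi
    rw [← map_pow ψ k i, pp _ ia] at this
    exact (U.comm hg (h.is_of (h.iv_conj ia _)) h.S).1 this.symm
  have g2 : ∀ i : ℕ, (φ k).1.1 (χ ((k ^ i).1 * a * (k ^ i).1⁻¹)) =
      χ ((k ^ (i + 1)).1 * a * (k ^ (i + 1)).1⁻¹) := fun i => by
    rw [← h.lin k _ (hk' i).2, pow_succ']
    simp [mul_assoc]
  have g3 := congrArg (φ k).1.1 c2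
  have g4 := congrArg (B g) c2
  rw [map_add, map_add, map_add, map_add, g2, g2, g2, g2, h.conj_Q (a := (k ^ (4 + 1)).1)
    (h.memQ c.i kr
      (mem_centralizer_singleton_iff.1 (c.Y_s (kp 5)))) ha.2, ← h.lin k a ha.2] at g3
  replace g3 := g3.trans (Eq.trans (by rw [pow_one]; abel) c2.symm)
  rw [map_add, map_add, map_add, map_add, g1 1 (by simp), g1 2 (by simp), g1 3 (by simp),
    g1 4 (by simp), add_zero, add_zero, add_zero, add_zero] at g4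
  clear c2 S1 S2 S3
  generalize a * _ = S at *
  rw [U.comm hg (h.is_of ia) h.S] at d7
  have iS := h.is_of (c.U_iv S4 fun e => d7 (by rw [← g4, e, map_zero]))
  obtain ⟨d, e7⟩ := U.inj _ _ c.is iS (d3 _ (U.mem _ iS) ((U.comm c.is iS h.S).2 ((FT.cen_VV S4.2).1
    fun b hb => Inv.commute_of_mul_self (c.V_sq hb) (c.U_sq S4.1 S4.2) (c.U_sq
      (mul_mem (c.V_le hb) S4.1) (mul_mem (FT.mem_VV.1 hb).1 S4.2))))
    ((eg _ iS k).2 ⟨1, g3.trans (one_smul _ _).symm⟩)).symm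
  have d1 : d ≠ 1 := fun e => d8 (by
    rw [pp _ ia, U.comm hg (h.is_of (h.iv_conj ia _)) h.S, h.lin e' a ha.2,
      (c.act e' e2 ha.1 ha.2).resolve_left fun e => d6 ((eg _ (h.is_of ia) e').2
        ⟨1, e.trans (one_smul _ _).symm⟩), ← one_smul K4 (χ s), ← e, ← e7, map_add, g4]
    exact (by decide +kernel : ∀ p : K4, p + p = 0) _)
  obtain ⟨h1, r, e8⟩ := FT.mem_VV.1 ht
  rcases (by decide +kernel : ∀ d r : K4, d ≠ 0 → d ≠ 1 → r = 0 ∨ r = 1 ∨ r = d ∨ r = 1 + d) d r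
    (fun e => iS.1 (by rw [e7, e, zero_smul])) d1 with rfl | rfl | rfl | rfl
  · rw [leq z zU t h1 (by rw [← e8, zero_smul, (h.zero z h.l.mem).2 (.inr rfl)]), hz]
  · rw [leq s sU t h1 (by rw [← e8, one_smul]), hs]
  · rw [leq S S4 t h1 (e8.symm.trans e7.symm), f2]
  · rw [leq _ (mul_mem sU S4) t h1 (by rw [← e8, h.mul _ sU.2 _ S4.2, e7, add_smul, one_smul]),
      mul _ sU _ S4, hs, f2, one_mul]

theorem no_lam {A : Type*} [Group A] (f : H → A)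
    (mul : ∀ a ∈ R ⊓ Q, ∀ b ∈ R ⊓ Q, f (a * b) = f a * f b) (hz : f z = 1) (hs : f s = 1)
    (inv : ∀ y ∈ centralizer (VV h s : Set H), ∀ a ∈ R ⊓ Q, f (y * a * y⁻¹) = f a)
    (ht : t ∈ VV h s) : f t = 1 := by
  obtain ⟨_, ⟨u, hu, rfl⟩, _, ⟨g, hg, rfl⟩, _, he, _, he', _, hk, _, hl, _, d0, d1, d2, d3, d4, d5,
    d6, d7, d8, d9⟩ := c.w.dd
  obtain ⟨e, e1, rfl⟩ := c.ex he
  obtain ⟨e', e2, rfl⟩ := c.ex he'
  obtain ⟨k, k1, rfl⟩ := c.im_Y.ge hk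
  obtain ⟨l, l1, rfl⟩ := c.im_Y.ge hl
  exact c.lam_aux f mul hz hs inv ht (uc_tp h.S) (ps φ) (fun a ha => h.ps_pt ha)
    (fun u hu => h.eig hu) hu hg e1 e2 k1 l1 ((h.ker _).1 ((map_pow (ps φ) k 5).trans d2))
    (c.w.El he').2 hl.2 d0 d1 d3 d4 d5 d6 d7 d8 d9

end VS

/-- an element of order `3` acting as a scalar -/
structure XS (h : FT Q N M L z B χ φ) (x : H) (d : K4) : Prop where
  m : x ∈ N
  o : x ^ 3 = 1
  d0 : d ≠ 0
  d1 : d ≠ 1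
  a : ∀ a ∈ Q, χ (x * a * x⁻¹) = d • χ a

theorem FT.xs (h : FT Q N M L z B χ φ) (h1 : x ∈ N) (h2 : x ^ 3 = 1) (h3 : x ≠ 1) : ∃ d, XS h x d := by
  obtain ⟨d, d0, e⟩ := h.scal' x h1
  refine ⟨d, h1, h2, d0, fun d1 => h3 ?_, e⟩
  have := h.two (h.triv fun a ha => by rw [e a ha, d1, one_smul])
  rwa [pow_succ, h2, one_mul] at this

namespace XS
variable {h : FT Q N M L z B χ φ} {d : K4} (X : XS h x d)
include X

theorem pw (k : ℕ) (ha : a ∈ Q) : χ (x ^ k * a * (x ^ k)⁻¹) = d ^ k • χ a := by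
  induction k with
  | zero => simp
  | succ k ih =>
    rw [pow_succ', pow_succ', mul_smul, ← ih, ← X.a _ (h.nQ.conj_mem a ha _)]
    simp [mul_assoc]

theorem ex {r : K4} (hr : r ≠ 0) : ∃ k : ℕ, r = d ^ k :=
  ((by decide +kernel : ∀ d r : K4, d ≠ 0 → d ≠ 1 → r ≠ 0 → ∃ k : Fin 3, r = d ^ k.1) d r X.d0 X.d1
    hr).elim fun k e => ⟨k, e⟩

theorem fix (ha : a ∈ Q) (e : Commute a x) : a = 1 ∨ a = z := by
  have := X.a a ha
  rw [e.symm.mul_inv_cancel] at this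
  exact (h.zero a ha).1 (by_contra fun c => X.d1 (smul_left_injective K4 c
    (this.symm.trans (one_smul _ _).symm)))

theorem cN {n : H} (hn : n ∈ N) (e : Commute n x) : ∃ k : ℕ, n = x ^ k ∨ n = x ^ k * z := by
  obtain ⟨r, r0, e1⟩ := h.scal' n hn
  obtain ⟨k, rfl⟩ := X.ex r0
  refine ⟨k, (X.fix (a := (x ^ k)⁻¹ * n) (h.triv fun a ha => ?_)
    (((Commute.refl x).pow_left k).inv_left.mul_left e)).imp (fun e => (inv_mul_eq_one.1 e).symm)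
      inv_mul_eq_iff_eq_mul.1⟩
  refine smul_right_injective V r0 ?_
  simp only
  rw [← X.pw k (h.nQ.conj_mem a ha _), ← e1 a ha]
  simp [mul_assoc]

theorem dec {m : H} (hm : m ∈ L) : ∃ q ∈ Q, Commute (q⁻¹ * m) x := by
  have h1 : m * x * m⁻¹ * x⁻¹ ∈ Q := h.triv fun a ha => by
    have h2 := h.nQ.conj_mem' a ha x
    have h3 := h.nQ.conj_mem' _ h2 m
    have h4 := h.lin ⟨m, hm⟩ _ (h.nQ.conj_mem _ h3 x)
    rw [X.a _ h3, map_smul, ← h.lin _ _ h3] at h4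
    refine Eq.trans (congrArg χ (by group)) (h4.trans ?_)
    rw [show m * (m⁻¹ * (x⁻¹ * a * x) * m) * m⁻¹ = x⁻¹ * a * x by group, ← X.a _ h2]
    exact congrArg χ (by group)
  have h2 : 1 + d ≠ 0 := (by decide +kernel : ∀ d : K4, d ≠ 1 → 1 + d ≠ 0) d X.d1
  obtain ⟨q, hq, e⟩ := h.surj ((1 + d)⁻¹ • χ (m * x * m⁻¹ * x⁻¹))
  have h3 := h.nQ.conj_mem _ (inv_mem hq) x
  refine ⟨q, hq, ?_⟩
  rcases h.eq_of h1 (mul_mem hq h3) (by
    rw [h.mul _ hq _ h3, X.a _ (inv_mem hq), h.inv hq, ← one_smul K4 (χ q), smul_smul, ← add_smul,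
      mul_one, e, smul_smul, mul_inv_cancel₀ h2, one_smul]) with e | e
  · calc q⁻¹ * m * x = q⁻¹ * (m * x * m⁻¹ * x⁻¹) * x * m := by group
      _ = _ := by rw [← e]; group
  · have h4 : q * x * q⁻¹ = m * x * m⁻¹ * z := by
      calc _ = q * (x * q⁻¹ * x⁻¹) * x := by group
        _ = _ := by rw [e, mul_assoc _ z, ← (h.c x).eq]; group
    have h5 := congrArg (· ^ 3) h4
    simp only [conj_pow, (h.c _).mul_pow, X.o, pow_three z, h.l.zsq] at h5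
    exact absurd (by simpa using h5.symm) h.l.ne

theorem le (c : VS h R s E F T) {g : H} (e : Commute g x) : g ∈ L := by
  by_contra hg
  have h1 := (h.semi g hg s c.i.1 _ (h.nQ.conj_mem s c.i.1 x)).1 d (X.a s c.i.1)
  rw [show g * (x * s * x⁻¹) * g⁻¹ = x * (g * s * g⁻¹) * x⁻¹ by
    rw [← mul_assoc, ← mul_assoc, e.eq, mul_assoc _ x⁻¹, ← mul_inv_rev, e.eq]; group,
    X.a _ (h.iv_conj c.i g).1, s4_eq] at h1
  exact (by decide +kernel : ∀ d : K4, d ≠ 0 → d ≠ 1 → d ≠ ⟨d.re + d.im, d.im⟩) d X.d0 X.d1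
    (smul_left_injective K4 (h.is_of (h.iv_conj c.i g)).1 h1)

theorem cY (c : VS h R s E F T) {y : H} (hy : y ∈ centralizer (VV h s : Set H)) :
    ∃ q ∈ OO h s E, Commute (q⁻¹ * y) x := by
  obtain ⟨q, hq, e⟩ := X.dec (h.ML (c.Y_le hy))
  refine ⟨q, c.Q_le hq ?_, e⟩
  have h1 : ∀ k : ℕ, ∀ a, Commute (q⁻¹ * y) a → Commute (q⁻¹ * y) (x ^ k * a * (x ^ k)⁻¹) :=
    fun k a e' => ((e.pow_right k).mul_right e').mul_right (e.pow_right k).inv_right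
  have h2 : ∀ a ∈ VV h s, Commute (q⁻¹ * y) a ↔ Commute a q := fun a ha =>
    ⟨fun e => by simpa using (e.mul_left (Commute.symm (hy a ha)).inv_left).inv_left.symm,
      fun e => e.symm.inv_left.mul_left (Commute.symm (hy a ha))⟩
  have h3 : ∀ k : ℕ, x ^ k * s * (x ^ k)⁻¹ ∈ VV h s := fun k => FT.conj_VV (pow_mem X.m k) c.sV
  have h4 : ∀ k : ℕ, Commute (x ^ k * s * (x ^ k)⁻¹) q ↔ Commute s q := fun k => by
    rw [← h2 _ (h3 k), ← h2 _ c.sV]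
    refine ⟨fun e' => ?_, h1 k s⟩
    have := h1 (2 * k) _ e'
    rwa [show x ^ (2 * k) * (x ^ k * s * (x ^ k)⁻¹) * (x ^ (2 * k))⁻¹ =
      (x ^ 3) ^ k * s * ((x ^ 3) ^ k)⁻¹ by group, X.o, one_pow, one_mul, inv_one, mul_one] at this
  have h5 := h4 1
  have h6 := h4 2
  rw [h.comm (FT.mem_VV.1 (h3 _)).1 hq, h.comm c.i.1 hq, X.pw _ c.i.1, b_smul_left, b_smul_right,
    ← h.S.hB.symm (χ s), s4_eq, s4_eq] at h5 h6
  refine (FT.cen_VV hq).2 ?_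
  have a0 := X.d0
  have a1 := X.d1
  generalize B (χ s) (χ q) = p at *
  clear * - h5 h6 a0 a1
  revert d p
  decide +kernel

end XS

end Cfsg.Agent.LF
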