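import Cfsg.Agent.Fischer.LL

/-! The centralizer of an element of order `3` acting as a scalar. -/

set_option autoImplicit false
set_option linter.unusedSectionVars false
set_option linter.unusedVariables false

namespace Cfsg.Agent.LF
open Subgroup Module Cfsg.Agent.Comp Cfsg.Agent.FiC Cfsg.Agent.Herm Cfsg.Agent.Fischer.U6
  Cfsg.Agent.Fischer

theorem cm_top {C : Type*} [Group C] {ρ : C →* SchurG.U43.G} (h1 : Function.Surjective ρ) :
    (_root_.commutator C).map ρ = ⊤ := by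
  rw [_root_.commutator_def, map_commutator, ← MonoidHom.range_eq_map, MonoidHom.range_eq_top.2 h1]
  exact U62.u43_perf

theorem u43_cen : center SchurG.U43.G = ⊥ := by
  have := SchurG.U43.simple
  refine ((inferInstance : (center SchurG.U43.G).Normal).eq_bot_or_eq_top).resolve_right fun h => ?_
  rw [← commutator_eq_bot_iff_center_eq_top, U62.u43_perf] at h
  exact top_ne_bot h

theorem cext {C : Type*} [Group C] (ρ : C →* SchurG.U43.G) (h1 : Function.Surjective ρ) {w : C}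
    (h2 : w ∈ center C) (h3 : ∀ g, ρ g = 1 ↔ g ∈ zpowers w) (h4 : w ∈ _root_.commutator C)
    (h5 : orderOf w = 6) : IsQuasisimple C ∧ IsCyclic (center C) ∧ Nat.card (center C) = 6 ∧
      ∃ (K : Type) (_ : Field K) (_ : Fintype K), Fintype.card K = 9 ∧
        Nonempty (C ⧸ center C ≃* PSU 4 K 3) := by
  have := SchurG.U43.simple
  have e : center C = zpowers w := le_antisymm (fun g hg => (h3 g).1 (u43_cen.le
    (mem_center_iff.2 fun u => by
      obtain ⟨u, rfl⟩ := h1 u
      rw [← map_mul, mem_center_iff.1 hg u, map_mul]))) (zpowers_le.2 h2)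
  let f : C ⧸ center C ≃* SchurG.U43.G :=
    (QuotientGroup.quotientMulEquivOfEq (e.trans (Subgroup.ext h3).symm)).trans
      (QuotientGroup.quotientKerEquivOfSurjective ρ h1)
  obtain ⟨e9⟩ := SchurG.U43.exists_iso _ card_K9
  refine ⟨⟨⟨eq_top_iff.2 fun g _ => ?_⟩, f.isSimpleGroup⟩, e ▸ inferInstance,
    by rw [e, Nat.card_zpowers, h5], _, _, _, card_K9, ⟨f.trans e9⟩⟩
  obtain ⟨c, hc, e1⟩ := (cm_top h1).ge (mem_top (ρ g))
  simpa using mul_mem hc (zpowers_le.2 h4 ((h3 _).1 (mp_eq ρ e1.symm)))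

variable {H : Type*} [Group H] [Finite H] {Q N M L R : Subgroup H} {z a b s t x : H}
  {V : Type*} [AddCommGroup V] [Module K4 V] [FiniteDimensional K4 V]
  {B : V →ₛₗ[s4] V →ₗ[K4] K4} {χ : H → V} {φ : L →* SUG B}
  {E F T : Subgroup (SUG B ⧸ center (SUG B))}

theorem St.x_mem (h : St Q N M z) {X : Subgroup H} (hX : Nat.card X = 3) (hn : (X ⊔ Q).Normal) :
    ∃ x ∈ N, x ^ 3 = 1 ∧ x ≠ 1 ∧ centralizer (X : Set H) = centralizer {x} := by
  have := SchurG.U43.simple
  have := h.nQ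
  have : Fact (Nat.Prime 3) := ⟨by norm_num⟩
  obtain ⟨π, h1, h2⟩ := h.ex
  obtain ⟨x, hx⟩ := X.isCyclic_iff_exists_zpowers_eq_top.1 (isCyclic_of_prime_card hX)
  subst hx
  rw [Nat.card_zpowers] at hX
  have h3 : x ^ 3 = 1 := hX ▸ pow_orderOf_eq_one x
  have h4 : x ∈ M := by
    have := mul_self_mem_of_index_two h.iM (x * x)
    rwa [show x * x * (x * x) = x ^ 3 * x by simp [pow_three, mul_assoc], h3, one_mul] at this
  refine ⟨x, (h2 ⟨x, h4⟩).1 ?_, h3, fun e => by simp [e] at hX, by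
    rw [zpowers_eq_closure, centralizer_closure]⟩
  rcases ((hn.subgroupOf M).map π h1).eq_bot_or_eq_top with e | e
  · exact e.le ⟨⟨x, h4⟩, mem_sup_left (mem_zpowers x), rfl⟩
  · have h5 := Nat.le_of_dvd Nat.card_pos (((zpowers x ⊔ Q).subgroupOf M).card_map_dvd π)
    have h6 : Nat.card ((zpowers x ⊔ Q).subgroupOf M) ≤ Nat.card ↥(zpowers x ⊔ Q) :=
      Nat.card_le_card_of_injective (fun g => ⟨g.1.1, g.2⟩) fun _ _ e =>
        Subtype.ext (Subtype.ext (Subtype.mk.inj e))
    have h7 : Nat.card ↥(zpowers x ⊔ Q) ≤ Nat.card (zpowers x) * Nat.card Q :=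
      (congrArg (fun S : Set H => Nat.card S) (mul_normal _ _)).trans_le Set.natCard_mul_le
    rw [e, card_top, SchurG.U43.card.2.1] at h5
    rw [Nat.card_zpowers, hX, h.cQ] at h7
    omega

namespace XS
variable {h : FT Q N M L z B χ φ} {d : K4} (X : XS h x d) (c : VS h R s E F T)
include X c

theorem CM : centralizer {x} ≤ M := fun g hg => c.LM (X.le c (mem_centralizer_singleton_iff.1 hg))

theorem rho : ∃ ρ : centralizer ({x} : Set H) →* SchurG.U43.G, Function.Surjective ρ ∧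
    ∀ g, ρ g = 1 ↔ g.1 ∈ N := by
  obtain ⟨π, h1, h2⟩ := h.ex
  refine ⟨π.comp (inclusion (X.CM c)), fun u => ?_, fun g => h2 _⟩
  obtain ⟨m, rfl⟩ := h1 u
  obtain ⟨q, hq, e⟩ := X.dec (h.ML m.2)
  exact ⟨⟨_, mem_centralizer_singleton_iff.2 e⟩, (map_mul π (⟨q, h.NM (h.QN hq)⟩ : M)⁻¹ m).trans (by
    rw [map_inv, (h2 _).2 (h.QN hq), inv_one, one_mul])⟩

theorem x_comm : (⟨x, mem_centralizer_singleton_iff.2 rfl⟩ : centralizer ({x} : Set H)) ∈
    _root_.commutator _ := by
  by_contra hx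
  obtain ⟨ρ, h1, h2⟩ := X.rho c
  have := SchurG.U43.simple
  let _ : Module (ZMod 2) V := AddCommGroup.zmodModule fun v => (two_nsmul v).trans (h.S.add_self v)
  have : Finite V := Module.finite_of_finite K4
  have h3 : finrank (ZMod 2) V = 12 := by
    have := Module.natCard_eq_pow_finrank (K := ZMod 2) (V := V)
    rw [Module.natCard_eq_pow_finrank (K := K4), h.S.hn, c4, Nat.card_zmod, ← pow_mul] at this
    exact (Nat.pow_right_injective le_rfl this).symm
  let ι := (inclusion ((X.CM c).trans h.ML)).comp (_root_.commutator (centralizer ({x} : Set H))).subtype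
  let α : _root_.commutator (centralizer ({x} : Set H)) →* (V ≃ₗ[ZMod 2] V) := MonoidHom.mk'
    (fun g => { (φ (ι g)).1.1.toAddEquiv with map_smul' := ZMod.map_smul (φ (ι g)).1.1 })
    fun a b => LinearEquiv.ext fun v => by simp
  have h4 : ∀ g, ∀ a ∈ Q, χ (g.1.1 * a * g.1.1⁻¹) = α g (χ a) := fun g => h.lin (ι g)
  have h5 : Function.Surjective (ρ.comp (_root_.commutator _).subtype) := fun u =>
    ((cm_top h1).ge (mem_top u)).elim fun g hg => ⟨⟨g, hg.1⟩, hg.2⟩
  have h6 : (ρ.comp (_root_.commutator _).subtype).ker ≤ α.ker := fun g hg => LinearEquiv.ext fun v => by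
    obtain ⟨a, ha, rfl⟩ := h.surj v
    rw [← h4 g a ha]
    refine h.conj_Q ?_ ha
    obtain ⟨k, e⟩ := X.cN (n := g.1.1) ((h2 _).1 hg) (mem_centralizer_singleton_iff.1 g.1.2)
    have e1 : g.1.1 ^ 4 = x ^ (k % 3) := by
      have : (x ^ k) ^ 4 = x ^ (k % 3) := by
        rw [← pow_eq_pow_mod k X.o, pow_succ, pow_right_comm, X.o, one_pow, one_mul]
      rcases e with e | e <;> rw [e]
      · exact this
      · rw [(h.c _).mul_pow, this, h.two h.l.mem, mul_one]
    have e2 : k % 3 = 0 := by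
      by_contra e2
      refine hx ?_
      rcases (by omega : k % 3 = 1 ∨ k % 3 = 2) with e3 | e3 <;> rw [e3] at e1
      · convert pow_mem g.2 4 using 1
        exact Subtype.ext (e1.trans (pow_one x)).symm
      · convert pow_mem (pow_mem g.2 4) 2 using 1
        exact Subtype.ext (by rw [coe_pow, coe_pow, e1, ← pow_mul, pow_succ, X.o, one_mul])
    rw [pow_eq_pow_mod k X.o, e2, pow_zero, one_mul] at e
    rcases e with e | e <;> rw [e]
    exacts [one_mem _, h.l.mem]
  obtain ⟨u, hu⟩ := exists_ne (1 : SchurG.U43.G)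
  obtain ⟨g, rfl⟩ := h5 u
  have h7 := no_u43 h3.le ((ρ.comp _).liftOfSurjective h5 ⟨α, h6⟩) (ρ.comp (Subgroup.subtype _) g)
  rw [MonoidHom.liftOfRightInverse_comp_apply] at h7
  exact hu ((h2 _).2 (h.QN (h.triv fun a ha => (h4 g a ha).trans (by rw [show α g = 1 from h7]; rfl))))

theorem final (hz : (⟨z, mem_centralizer_singleton_iff.2 (h.c x).symm⟩ : centralizer ({x} : Set H)) ∈
    _root_.commutator _) {C : Subgroup H} (hC : C = centralizer {x}) :
    IsQuasisimple C ∧ IsCyclic (center C) ∧ Nat.card (center C) = 6 ∧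
      ∃ (K : Type) (_ : Field K) (_ : Fintype K), Fintype.card K = 9 ∧
        Nonempty (C ⧸ center C ≃* PSU 4 K 3) := by
  subst hC
  obtain ⟨ρ, h1, h2⟩ := X.rho c
  have : Fact (Nat.Prime 3) := ⟨by norm_num⟩
  have x1 : x ≠ 1 := fun e => X.d1 (smul_left_injective K4 c.is.1 ((X.a s c.i.1).symm.trans (by simp [e])))
  refine cext ρ h1 (w := ⟨x, mem_centralizer_singleton_iff.2 rfl⟩ *
    ⟨z, mem_centralizer_singleton_iff.2 (h.c x).symm⟩) (mem_center_iff.2 fun g => Subtype.ext
      (Commute.mul_right (mem_centralizer_singleton_iff.1 g.2) (h.c g.1))) (fun g => (h2 g).trans ?_)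
    (mul_mem (X.x_comm c) hz) ?_
  · rw [← mem_map_iff_mem (subtype_injective _), MonoidHom.map_zpowers]
    refine ⟨fun hg => ?_, fun hg => zpowers_le.2 (mul_mem X.m (h.QN h.l.mem)) hg⟩
    have e1 : x ∈ zpowers (x * z) := ⟨(4 : ℕ), by
      simp only [zpow_natCast]
      rw [(h.c _).mul_pow, h.two h.l.mem, mul_one, pow_succ, X.o, one_mul]⟩
    obtain ⟨k, e | e⟩ := X.cN hg (mem_centralizer_singleton_iff.1 g.2) <;> rw [coe_subtype, e]
    exacts [pow_mem e1 k, mul_mem (pow_mem e1 k) ((mul_mem_cancel_left e1).1 (mem_zpowers _))]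
  · rw [← orderOf_coe, coe_mul, (h.c x).orderOf_mul_eq_mul_orderOf_of_coprime] <;>
      rw [orderOf_eq_prime X.o x1, h.l.orderOf]
    norm_num

end XS

end Cfsg.Agent.LF
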