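import Cfsg.Agent.Fischer.LK
import Cfsg.Agent.Fischer.LM

/-! The central involution lies in the derived group of the centralizer of the `3`-element. -/

set_option autoImplicit false
set_option linter.unusedSectionVars false
set_option linter.unusedVariables false

namespace Cfsg.Agent.LF
open Subgroup Module Cfsg.Agent.Comp Cfsg.Agent.FiC Cfsg.Agent.Herm Cfsg.Agent.Fischer.U6
  Cfsg.Agent.Fischer Cfsg.Agent.LocalEven

section
variable {G : Type*} [Group G] {U : Subgroup G} {y u v : G}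

/-- the product over the orbit of an element of order `3` -/
def PP (y u : G) : G := u * (y * u * y⁻¹) * (y * (y * u * y⁻¹) * y⁻¹)

theorem PP_conj (e : Commute v y) : PP y (v * u * v⁻¹) = v * PP y u * v⁻¹ := by
  have : ∀ u, y * (v * u * v⁻¹) * y⁻¹ = v * (y * u * y⁻¹) * v⁻¹ := fun u => by
    rw [← mul_assoc, ← mul_assoc, ← e.eq, mul_assoc _ v⁻¹, ← mul_inv_rev, ← e.eq]; group
  rw [PP, this, this, conj_mul, conj_mul, PP]

variable (h1 : ∀ a ∈ U, ∀ b ∈ U, Commute a b) (h2 : ∀ a ∈ U, y * a * y⁻¹ ∈ U)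
include h2

theorem PP_mem (hu : u ∈ U) : PP y u ∈ U := mul_mem (mul_mem hu (h2 u hu)) (h2 _ (h2 u hu))

include h1

theorem PP_mul (hu : u ∈ U) (hv : v ∈ U) : PP y (u * v) = PP y u * PP y v := by
  rw [PP, ← conj_mul, ← conj_mul, (h1 _ hv _ (h2 u hu)).mul_mul_mul_comm,
    (h1 _ (mul_mem hv (h2 v hv)) _ (h2 _ (h2 u hu))).mul_mul_mul_comm, PP, PP]

theorem PP_comm (h3 : y ^ 3 = 1) (hu : u ∈ U) : Commute (PP y u) y := by
  refine Commute.symm (Inv.commute_iff_conj.2 ?_)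
  rw [PP, ← conj_mul, ← conj_mul, show y * (y * (y * u * y⁻¹) * y⁻¹) * y⁻¹ = y ^ 3 * u * (y ^ 3)⁻¹ by
    simp [pow_three, mul_assoc], h3, one_mul, inv_one, mul_one,
    (h1 _ (mul_mem (h2 u hu) (h2 _ (h2 u hu))) u hu).eq, mul_assoc u (y * u * y⁻¹)]

end

variable {G : Type*} [Group G] [Finite G] {z : G} {Q N M L : Subgroup (centralizer ({z} : Set G))}
  {V : Type*} [AddCommGroup V] [Module K4 V] [FiniteDimensional K4 V]
  {B : V →ₛₗ[s4] V →ₗ[K4] K4} {χ : centralizer ({z} : Set G) → V} {φ : L →* SUG B}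
  {E F T : Subgroup (SUG B ⧸ center (SUG B))} {s : centralizer ({z} : Set G)} {R : Subgroup G}

theorem pr_norm {Q R : Subgroup G} {s y : G} (p : PLocal.Pr Q R z s) (e1 : y * z * y⁻¹ = s)
    (e2 : y * s * y⁻¹ = z * s) : ∀ a ∈ Q ⊓ R, y * a * y⁻¹ ∈ Q ⊓ R := fun a ha => by
  obtain ⟨r, hr, e⟩ := p.r.exists_conj p.hz p.l.ne p.ne.symm
  have h1 : y * a * y⁻¹ ∈ R := p.tr y e1 ▸ conj_mem_cj ha.1
  have h2 : y * a * y⁻¹ ∈ cj r Q := by
    rw [p.l.cj_eq (k := y * y) (by rw [e, ← e2, ← e1]; group), cj_mul, p.tr y e1]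
    exact conj_mem_cj ha.2
  refine ⟨?_, h1⟩
  rw [mem_cj] at h2
  rcases p.r.conj _ (inv_mem hr) _ h1 with e | e <;> rw [inv_inv] at e <;> rw [e] at h2
  exacts [h2, (mul_mem_cancel_right p.hs).1 h2]

namespace VS
variable {h : FT Q N M L (zz z) B χ φ} (p : PLocal.Pr (Q.map (Subgroup.subtype _)) R z s)
  (c : VS h (R.subgroupOf _) s E F T)
include c p

theorem lam2 {y t : G} (ht : t ∈ (VV h s).map (Subgroup.subtype _)) (y3 : y ^ 3 = 1)
    (e1 : y * z * y⁻¹ = s) (e2 : y * s * y⁻¹ = z * s) (e3 : Commute t y)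
    (dec : ∀ g ∈ centralizer ((VV h s).map (Subgroup.subtype _) : Set G),
      ∃ q ∈ (OO h s E).map (Subgroup.subtype _), Commute (q⁻¹ * g) y)
    {A : Type*} [CommGroup A] (ε : G → A) (he : ∀ a b, Commute a t → Commute a y → Commute b t →
      Commute b y → ε (a * b) = ε a * ε b) : ε t = 1 := by
  have h1 : ∀ a ∈ Q.map (Subgroup.subtype _) ⊓ R, ∀ b ∈ Q.map (Subgroup.subtype _) ⊓ R, Commute a b :=
    fun a ha b hb => Inv.commute_of_mul_self (p.E_sq ha) (p.E_sq hb) (p.E_sq (mul_mem ha hb))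
  have h2 := pr_norm p e1 e2
  have h3 : ∀ {a}, a ∈ R.subgroupOf _ ⊓ Q → a.1 ∈ Q.map (Subgroup.subtype _) ⊓ R :=
    fun ha => ⟨⟨_, ha.2, rfl⟩, ha.1⟩
  obtain ⟨t, ht, rfl⟩ := ht
  have tU := h3 ⟨c.V_le ht, (FT.mem_VV.1 ht).1⟩
  have h0 : ε 1 = 1 := by
    simpa using he 1 1 (.one_left _) (.one_left _) (.one_left _) (.one_left _)
  have mul : ∀ a ∈ R.subgroupOf _ ⊓ Q, ∀ b ∈ R.subgroupOf _ ⊓ Q,
      ε (PP y (a * b).1) = ε (PP y a.1) * ε (PP y b.1) := fun a ha b hb => by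
    rw [coe_mul, PP_mul h1 h2 (h3 ha) (h3 hb)]
    exact he _ _ (h1 _ (PP_mem h2 (h3 ha)) _ tU) (PP_comm h1 h2 y3 (h3 ha))
      (h1 _ (PP_mem h2 (h3 hb)) _ tU) (PP_comm h1 h2 y3 (h3 hb))
  have fz : ε (PP y z) = 1 := by
    rw [PP, e1, e2, p.E_sq (mul_mem ⟨p.l.mem, p.hz⟩ ⟨p.hs, p.r.mem⟩), h0]
  have fs : ε (PP y s) = 1 := by
    rw [PP, e2, ← conj_mul, e1, e2, p.E_sq (mul_mem ⟨p.hs, p.r.mem⟩ (mul_mem ⟨p.l.mem, p.hz⟩
      ⟨p.hs, p.r.mem⟩)), h0]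
  have := c.no_lam (fun a => ε (PP y a.1)) mul fz fs (fun g hg a ha => ?_) ht
  · have e4 : y * t * y⁻¹ = t := e3.symm.mul_inv_cancel
    rwa [PP, e4, e4, p.E_sq tU, one_mul] at this
  obtain ⟨_, ⟨q, hq, rfl⟩, e⟩ := dec g (c.cenV.ge ⟨g, hg, rfl⟩)
  have h4 := Subgroup.mul_mem _ (Subgroup.inv_mem _ hq.2) hg
  have h5 := c.U_conj h4 ha
  obtain ⟨w, hw, e4⟩ := c.UO hq h5
  have h6 : w ∈ R.subgroupOf _ ⊓ Q ∧ ε (PP y w.1) = 1 := by
    clear e4
    induction hw using closure_induction'' with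
    | mem x hx => rcases hx with rfl | rfl; exacts [⟨⟨c.hz, h.l.mem⟩, fz⟩, ⟨⟨c.hs, c.i.1⟩, fs⟩]
    | inv_mem x hx =>
      rcases hx with rfl | rfl
      · rw [h.l.zinv]; exact ⟨⟨c.hz, h.l.mem⟩, fz⟩
      · rw [inv_eq_of_mul_eq_one_right c.i.2.1]; exact ⟨⟨c.hs, c.i.1⟩, fs⟩
    | one => exact ⟨one_mem _, by simp [PP, h0]⟩
    | mul x y _ _ a b => exact ⟨mul_mem a.1 b.1, by rw [mul _ a.1 _ b.1, a.2, b.2, one_mul]⟩
  have h7 : Commute (q⁻¹ * g).1 t.1 := congrArg Subtype.val (h4 t ht).symm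
  have h8 := h1 _ (PP_mem h2 (h3 ha)) _ tU
  have h9 := PP_comm h1 h2 y3 (h3 ha)
  replace e : Commute (q⁻¹ * g).1 y := e
  rw [show g * a * g⁻¹ = _ from Eq.trans (by group) e4, mul _ h5 _ h6.1, h6.2, mul_one, coe_mul,
    coe_mul _ _ a, coe_inv, PP_conj e, he _ _ (h7.mul_left h8) (Commute.mul_left e h9) h7.inv_left
      (Commute.inv_left e), he _ _ h7 e h8 h9, mul_right_comm,
    ← he _ _ h7 e h7.inv_left (Commute.inv_left e), mul_inv_cancel, h0, one_mul]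

theorem ex_m {a b : centralizer ({z} : Set G)} (ha : a ∈ VV h s) (hb : b ∈ VV h s) (a1 : a ≠ 1)
    (a2 : a ≠ zz z) (b1 : b ≠ 1) (b2 : b ≠ a) :
    ∃ m ∈ normalizer ((VV h s).map (Subgroup.subtype _) : Set G),
      m * a * m⁻¹ = z ∧ m * b * m⁻¹ = s := by
  obtain ⟨y, hy, e1⟩ := p.l.exists_conj p.hs p.r.ne p.ne
  obtain ⟨y', hy', e2⟩ := p.r.exists_conj p.hz p.l.ne p.ne.symm
  obtain ⟨-, e3⟩ := PLocal.conj_swap p.l.zsq p.r.zsq (p.l.central _ p.hs)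
    (p.l.central _ hy).symm.mul_inv_cancel e1 e2 (p.r.central _ hy').symm.mul_inv_cancel
  obtain ⟨y, hy, rfl⟩ := hy
  obtain ⟨n, hn, rfl⟩ := c.tr ha a1 a2
  have h1 := mul_mem (mul_mem (mul_mem (c.R_norm p hy') (c.N_norm (h.QN hy))) (c.R_norm p hy'))
    (inv_mem (c.N_norm hn))
  rw [coe_subtype] at e3
  generalize y' * y.1 * y' = w at h1 e3
  obtain ⟨v, hv, e4⟩ := conj_mem_of_mem_normalizer h1 ⟨b, hb, rfl⟩
  have e5 : w * n.1⁻¹ * (n * s * n⁻¹).1 * (w * n.1⁻¹)⁻¹ = z := Eq.trans (by simp [mul_assoc]) e3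
  obtain ⟨k, hk, rfl⟩ := c.tr hv (fun e => b1 (by rw [e, map_one, eq_comm, conj_eq_one_iff] at e4; exact Subtype.ext e4))
    (fun e => b2 (Subtype.ext ((MulAut.conj (w * n.1⁻¹)).injective
      (e4.symm.trans ((congrArg Subtype.val e).trans e5.symm)))))
  refine ⟨k.1⁻¹ * (w * n.1⁻¹), mul_mem (inv_mem (c.N_norm hk)) h1, ?_, ?_⟩
  · calc _ = k.1⁻¹ * (w * n.1⁻¹ * (n * s * n⁻¹).1 * (w * n.1⁻¹)⁻¹) * k := by group
      _ = _ := by rw [e5, mul_assoc, ← mem_centralizer_singleton_iff.1 k.2, inv_mul_cancel_left]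
  · calc _ = k.1⁻¹ * (w * n.1⁻¹ * Subgroup.subtype _ b * (w * n.1⁻¹)⁻¹) * k := by
          rw [coe_subtype]; group
      _ = _ := by rw [← e4]; simp [mul_assoc]

theorem zeps {x : centralizer ({z} : Set G)} {d : K4} (X : XS h x d) {A : Type*} [CommGroup A]
    (ε : G → A) (he : ∀ a b, Commute a z → Commute a x → Commute b z → Commute b x →
      ε (a * b) = ε a * ε b) : ε z = 1 := by
  have h1 := FT.conj_VV X.m c.sV
  have h2 := mul_mem c.sV h1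
  have h3 : χ (s * (x * s * x⁻¹)) ≠ 0 := by
    rw [h.mul _ c.i.1 _ (FT.mem_VV.1 h1).1, X.a _ c.i.1, ← one_smul K4 (χ s), smul_smul, ← add_smul]
    exact smul_ne_zero ((by decide +kernel : ∀ d : K4, d ≠ 1 → 1 + d * 1 ≠ 0) d X.d1) c.is.1
  have h4 := mt (h.zero _ (FT.mem_VV.1 h2).1).2 h3
  rw [not_or] at h4
  obtain ⟨m, hm, e1, e2⟩ := c.ex_m p h2 (FT.conj_VV X.m h2) h4.1 h4.2 (fun e => h4.1 (by simpa using e))
    fun e => (X.fix (FT.mem_VV.1 h2).1 (Commute.symm (Inv.commute_iff_conj.2 e))).elim h4.1 h4.2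
  have x3 : x.1 ^ 3 = 1 := congrArg Subtype.val X.o
  have h5 : x * (x * (s * (x * s * x⁻¹)) * x⁻¹) * x⁻¹ =
      s * (x * s * x⁻¹) * (x * (s * (x * s * x⁻¹)) * x⁻¹) := by
    rw [← conj_mul (b := x) (a := s), ← conj_mul, show x * (x * (x * s * x⁻¹) * x⁻¹) * x⁻¹ =
      x ^ 3 * s * (x ^ 3)⁻¹ by simp [pow_three, mul_assoc], X.o, one_mul, inv_one, mul_one,
      mul_assoc s, ← mul_assoc (x * s * x⁻¹), c.V_sq h1, one_mul]
    exact Inv.commute_of_mul_self (c.V_sq (FT.conj_VV X.m h1)) (c.V_sq c.sV)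
      (c.V_sq (mul_mem (FT.conj_VV X.m h1) c.sV))
  have h6 : ∀ (a : centralizer ({z} : Set G)) b, m * a * m⁻¹ = b →
      m * x * m⁻¹ * b * (m * x * m⁻¹)⁻¹ = m * (x * a * x⁻¹).1 * m⁻¹ := by
    rintro a _ rfl
    simp [mul_assoc]
  have := c.lam2 p (y := m * x * m⁻¹) (conj_mem_of_mem_normalizer hm c.zV) (by simp [conj_pow, x3])
    ((h6 _ _ e1).trans e2) ((h6 _ _ e2).trans (by rw [h5, coe_mul, ← conj_mul, e1, e2]))
    ((Commute.symm (mem_centralizer_singleton_iff.1 x.2)).conj m) (fun g hg => ?_)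
    (fun g => ε (m⁻¹ * g * m)) (fun a b a1 a2 b1 b2 => by
      rw [← he _ _ (by simpa [mul_assoc] using a1.conj m⁻¹) (by simpa [mul_assoc] using a2.conj m⁻¹)
        (by simpa [mul_assoc] using b1.conj m⁻¹) (by simpa [mul_assoc] using b2.conj m⁻¹)]
      simp [mul_assoc])
  · simpa [mul_assoc] using this
  obtain ⟨g', hg', e⟩ := c.cenV.le (show m⁻¹ * g * m ∈ _ from fun a ha => by
    have := hg _ (conj_mem_of_mem_normalizer hm ha)
    calc _ = m⁻¹ * (m * a * m⁻¹ * g) * m := by group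
      _ = _ := by rw [this]; group)
  obtain ⟨q, hq, e'⟩ := X.cY c hg'
  refine ⟨m * q * m⁻¹, conj_mem_of_mem_normalizer ((c.main p rfl rfl).1 hm) ⟨q, hq, rfl⟩, ?_⟩
  have := (e'.map (Subgroup.subtype _)).conj m
  rw [map_mul, e] at this
  simpa [mul_assoc] using this

theorem z_comm {x : centralizer ({z} : Set G)} {d : K4} (X : XS h x d) :
    (⟨zz z, mem_centralizer_singleton_iff.2 (h.c x).symm⟩ : centralizer ({x} : Set _)) ∈
      _root_.commutator _ := by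
  classical
  have := c.zeps p X (fun g => if e : Commute g z ∧ Commute g x then Abelianization.of
    (⟨⟨g, mem_centralizer_singleton_iff.2 e.1⟩, mem_centralizer_singleton_iff.2 (Subtype.ext e.2)⟩ :
      centralizer ({x} : Set _)) else 1) fun a b a1 a2 b1 b2 => by
        rw [dif_pos ⟨a1.mul_left b1, a2.mul_left b2⟩, dif_pos ⟨a1, a2⟩, dif_pos ⟨b1, b2⟩, ← map_mul]
        rfl
  rw [dif_pos ⟨rfl, (mem_centralizer_singleton_iff.1 x.2).symm⟩] at this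
  exact (QuotientGroup.eq_one_iff _).1 this

end VS

end Cfsg.Agent.LF
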