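import Cfsg.Agent.Fischer.UL1
import Cfsg.Agent.Fischer.UL2
import Cfsg.Agent.Fischer.UL3
import Cfsg.Agent.Fischer.UJ

set_option autoImplicit false
set_option linter.unusedSectionVars false
set_option linter.unusedVariables false

namespace Cfsg.Agent.FiC.U62
open Cfsg.Agent.Comp Cfsg.Agent.FiC Subgroup

variable {G : Type*} [Group G] [Finite G] {D : Set G} {τ s : ℕ → G}

theorem ko3 (i : Fin 3) : ∃ V F T v Y, ∀ {τ s : ℕ → G}, Base D τ s e2 9196830720 →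
    KW D (KS s i) (genW (sv s) V) (genW (sv s) F) (genW (sv s) T) (E s v) ∧
      KO D (KS s i) (genW (sv s) F) (E s v) fun i => E s (nth [] Y i) := by
  fin_cases i
  exacts [⟨_, _, _, _, _, fun b => ⟨w1kw b, o1ko b⟩⟩, ⟨_, _, _, _, _, fun b => ⟨w2kw b, o2ko b⟩⟩,
    ⟨_, _, _, _, _, fun b => ⟨w3kw b, o3ko b⟩⟩]

theorem ko_all (b : Base D τ s e2 9196830720) {X : Subgroup G} (e : X ≃* SchurG.U43.G)
    {P : Subgroup G} (hP : P ≤ X) (h2 : IsPGroup 2 P) :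
    ∃ E F T v y, KW D X E F T v ∧ KO D X F v y ∧ P ≤ T := by
  have : Fact (Nat.Prime 2) := ⟨Nat.prime_two⟩
  obtain ⟨g, i, h⟩ := cls b e
  obtain ⟨τ', s', b', e'⟩ := b.conj' g⁻¹
  have h1 : KS s' i = X := by
    rw [KS_conj e', ← h, Subgroup.map_map]
    convert Subgroup.map_id X
    ext x
    simp [mul_assoc]
  obtain ⟨V, F, T, v, Y, h3⟩ := ko3 (D := D) i
  have h4 := h1 ▸ (h3 b').1
  obtain ⟨S, hS⟩ := exists_sylow (G := X) (p := 2) (n := 7) (P := (genW (sv s') T).subgroupOf X)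
    (IsPGroup.of_card (n := 7) ((Core.card_subgroupOf_of_le h4.TK).trans h4.Tc))
    ((Core.card_subgroupOf_of_le h4.TK).trans h4.Tc).ge (by
      rw [Nat.card_congr e.toEquiv, SchurG.U43.card.2.1]; norm_num)
  obtain ⟨S', hS'⟩ := (h2.comap_subtype (K := X)).exists_le_sylow
  obtain ⟨k, rfl⟩ := MulAction.exists_smul_eq X S S'
  obtain ⟨τ'', s'', b'', e''⟩ := b'.conj' k
  have h5 : KS s'' i = X := by
    rw [KS_conj e'', h1]
    exact mem_normalizer_iff_map_conj_eq.1 (le_normalizer k.2)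
  refine ⟨_, _, _, _, _, h5 ▸ (h3 b'').1, h5 ▸ (h3 b'').2, fun x hx => ?_⟩
  obtain ⟨y, hy, e⟩ := hS' (show (⟨x, hP hx⟩ : X) ∈ _ from hx)
  rw [genW_conj e'']
  exact ⟨y, hS.le hy, congrArg Subtype.val e⟩

end Cfsg.Agent.FiC.U62
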