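import Cfsg.Agent.Fischer.LH
import Cfsg.Agent.Fischer.UM

/-! Coordinates for the elementary abelian subgroup of order `2^11`. -/

set_option autoImplicit false
set_option linter.unusedSectionVars false
set_option linter.unusedVariables false
set_option synthInstance.maxSize 2048

namespace Cfsg.Agent.LF
open Subgroup Module Cfsg.Agent.Comp Cfsg.Agent.FiC Cfsg.Agent.Herm Cfsg.Agent.Fischer.U6
  Cfsg.Agent.Fischer

/-- coordinates -/
abbrev C3 : Type := K4 × K4 × K4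

/-- the conjugation -/
def cj4 (a : K4) : K4 := ⟨a.re + a.im, a.im⟩

/-- the pairing -/
def bp (c l : C3) : K4 := cj4 c.1 * l.1 + cj4 c.2.1 * l.2.1 + cj4 c.2.2 * l.2.2

/-- the hyperoval -/
def hcv : Fin 6 → C3 := ![(1, 0, 0), (0, 1, 0), (0, 0, 1), (1, 1, 1), (1, ⟨0, 1⟩, ⟨1, 1⟩), (1, ⟨1, 1⟩, ⟨0, 1⟩)]

/-- the product of two transvections -/
def tm3 (i j : Fin 6) (l : C3) : C3 := bp (hcv i) l • hcv i + bp (hcv j) l • hcv j

/-- the vectors on the hyperoval -/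
def Hy (c : C3) : Prop := c ≠ 0 ∧ ∃ i, ∃ a : K4, c = a • hcv i

instance : DecidablePred Hy := fun _ => by unfold Hy; infer_instance

variable {H : Type*} [Group H] [Finite H] {Q N M L R A : Subgroup H} {z a b s t : H}
  {V : Type*} [AddCommGroup V] [Module K4 V] [FiniteDimensional K4 V]
  {B : V →ₛₗ[s4] V →ₗ[K4] K4} {χ : H → V} {φ : L →* SUG B}
  {E F T : Subgroup (SUG B ⧸ center (SUG B))} {v : SUG B ⧸ center (SUG B)} {W : Submodule K4 V}

/-- the vector with given coordinates -/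
def L3 (w : V × V × V) : C3 →ₗ[K4] V where
  toFun c := c.1 • w.1 + c.2.1 • w.2.1 + c.2.2 • w.2.2
  map_add' c d := by simp only [Prod.fst_add, Prod.snd_add, add_smul]; abel
  map_smul' a c := by simp only [Prod.smul_fst, Prod.smul_snd, smul_add, smul_eq_mul, mul_smul, RingHom.id_apply]

theorem L3_apply (w : V × V × V) (c : C3) : L3 w c = c.1 • w.1 + c.2.1 • w.2.1 + c.2.2 • w.2.2 := rfl

/-- the dual coordinates -/
def lam3 (B : V →ₛₗ[s4] V →ₗ[K4] K4) (w : V × V × V) : V →ₗ[K4] C3 :=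
  (B w.1).prod ((B w.2.1).prod (B w.2.2))

theorem b_L3 (w : V × V × V) (c : C3) (u : V) : B (L3 w c) u = bp c (lam3 B w u) := by
  rw [L3_apply, b_add_left, b_add_left, b_smul_left, b_smul_left, b_smul_left, s4_eq, s4_eq, s4_eq]
  rfl

/-- the hyperoval in coordinates -/
structure HV (h : FT Q N M L z B χ φ) (W : Submodule K4 V) (y : Fin 6 → SUG B ⧸ center (SUG B))
    (w : V × V × V) (σ : Equiv.Perm (Fin 6)) : Prop where
  inj : ∀ c, L3 w c = 0 → c = 0
  sp : ∀ u, u ∈ W ↔ ∃ c, u = L3 w c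
  dual : ∀ l, ∃ u, lam3 B w u = l
  pt : ∀ i, tp h.S.hB (L3 w (hcv i)) = y (σ i)

namespace WF
variable {h : FT Q N M L z B χ φ} (f : WF h F W)
include f

theorem orth {u u' : V} (hu : u ∈ W) (hu' : u' ∈ W) : B u u' = 0 := by
  have h1 := f.i _ (add_mem hu hu')
  have h2 := f.i _ (add_mem hu (W.smul_mem w4 hu'))
  rw [b_add_left, map_add, map_add, f.i _ hu, f.i _ hu', ← h.S.hB.symm u u', s4_eq] at h1
  rw [b_add_left, map_add, map_add, f.i _ hu, f.i _ (W.smul_mem w4 hu'), ← h.S.hB.symm u (w4 • u'),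
    b_smul_right, s4_eq] at h2
  generalize B u u' = p at h1 h2 ⊢
  revert p
  decide +kernel

theorem span {w : V × V × V} (h1 : w.1 ∈ W) (h2 : w.2.1 ∈ W) (h3 : w.2.2 ∈ W)
    (hi : ∀ c, L3 w c = 0 → c = 0) (u : V) : u ∈ W ↔ ∃ c, u = L3 w c := by
  have e : LinearMap.range (L3 w) = W := Submodule.eq_of_le_of_finrank_eq (by
    rintro _ ⟨c, rfl⟩
    exact add_mem (add_mem (W.smul_mem _ h1) (W.smul_mem _ h2)) (W.smul_mem _ h3)) (by
    rw [LinearMap.finrank_range_of_inj ((injective_iff_map_eq_zero _).2 hi), f.r]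
    simp)
  rw [← e]
  exact exists_congr fun _ => eq_comm

theorem exists_hv {y : Fin 6 → SUG B ⧸ center (SUG B)} (k : KO (TV h.S.hB) (im φ M) F v y) :
    ∃ w σ, HV h W y w σ := by
  have U := uc_tp h.S
  choose u hu e using k.hy
  have hW : ∀ i, u i ∈ W := fun i => (f.m _ (hu i)).2 fun g hg => e i ▸ k.fy i g hg
  have ind : ∀ i j, i ≠ j → ∃ g, ∀ l, B (u l) g = 0 ↔ l = i ∨ l = j := fun i j hij => by
    obtain ⟨_, ⟨g, hg, rfl⟩, e1⟩ := k.ind i j hij
    exact ⟨g, fun l => ((U.comm (hu l) hg h.S).symm.trans (e l ▸ Commute.symm_iff)).trans (e1 l)⟩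
  have nc : ∀ i j l, i ≠ j → l ≠ i → l ≠ j → ∀ a b c : K4, c • u l = a • u i + b • u j → c = 0 :=
    fun i j l h1 h2 h3 a b c e1 => by
      obtain ⟨g, hg⟩ := ind i j h1
      have := congrArg (B · g) e1
      simp only [b_add_left, b_smul_left, (hg i).2 (.inl rfl), (hg j).2 (.inr rfl), mul_zero, add_zero,
        mul_eq_zero, map_eq_zero, hg l, h2, h3, or_false] at this
      exact this
  have ng : ∀ {a b : V}, a + b = 0 → a = b := fun {a b} e => add_right_cancel (e.trans (h.S.add_self b).symm)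
  have i0 : ∀ c, L3 (u 0, u 1, u 2) c = 0 → c = 0 := fun c e => by
    rw [L3_apply] at e
    exact Prod.ext (nc 1 2 0 (by decide) (by decide) (by decide) _ _ _ (ng ((add_assoc ..).symm.trans e)))
      (Prod.ext (nc 0 2 1 (by decide) (by decide) (by decide) _ _ _ (ng (Eq.trans (by abel) e)))
        (nc 0 1 2 (by decide) (by decide) (by decide) _ _ _ (ng e).symm))
  obtain ⟨p, e3⟩ := (f.span (hW 0) (hW 1) (hW 2) i0 _).1 (hW 3)
  rw [L3_apply] at e3
  have p0 : p.1 ≠ 0 := fun e => one_ne_zero (nc 1 2 3 (by decide) (by decide) (by decide) p.2.1 p.2.2 1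
    (by simp [e3, e]))
  have p1 : p.2.1 ≠ 0 := fun e => one_ne_zero (nc 0 2 3 (by decide) (by decide) (by decide) p.1 p.2.2 1
    (by simp [e3, e]))
  have p2 : p.2.2 ≠ 0 := fun e => one_ne_zero (nc 0 1 3 (by decide) (by decide) (by decide) p.1 p.2.1 1
    (by simp [e3, e]))
  let w : V × V × V := (p.1 • u 0, p.2.1 • u 1, p.2.2 • u 2)
  have i1 : ∀ c, L3 w c = 0 → c = 0 := fun c e => by
    have := i0 (c.1 * p.1, c.2.1 * p.2.1, c.2.2 * p.2.2) (by simpa only [L3_apply, w, smul_smul] using e)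
    simp only [Prod.ext_iff, Prod.fst_zero, Prod.snd_zero, mul_eq_zero, p0, p1, p2, or_false] at this ⊢
    exact this
  have sp := f.span (W.smul_mem p.1 (hW 0)) (W.smul_mem p.2.1 (hW 1)) (W.smul_mem p.2.2 (hW 2)) i1
  have e4 : ∀ i : Fin 6, i.1 < 4 → ∃ a : K4, a ≠ 0 ∧ L3 w (hcv i) = a • u i := fun i hi => by
    fin_cases i
    exacts [⟨_, p0, by simp [L3_apply, hcv, w]⟩, ⟨_, p1, by simp [L3_apply, hcv, w]⟩,
      ⟨_, p2, by simp [L3_apply, hcv, w]⟩, ⟨1, one_ne_zero, by simp [L3_apply, hcv, w, e3]⟩,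
      absurd hi (by decide), absurd hi (by decide)]
  have e5 : ∀ l : Fin 6, 4 ≤ l.1 → ∃ a : K4, a ≠ 0 ∧
      (L3 w (hcv 4) = a • u l ∨ L3 w (hcv 5) = a • u l) := fun l hl => by
    obtain ⟨c, e⟩ := (sp _).1 (hW l)
    obtain ⟨a, a0, e'⟩ := (by decide +kernel : ∀ c : C3, (∀ i j : Fin 6, i.1 < 4 → j.1 < 4 → i ≠ j →
      ∀ a b : K4, c ≠ a • hcv i + b • hcv j) → ∃ a : K4, a ≠ 0 ∧ (hcv 4 = a • c ∨ hcv 5 = a • c)) c
        fun i j hi hj hij a b e' => by
          obtain ⟨a', -, e1⟩ := e4 i hi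
          obtain ⟨b', -, e2⟩ := e4 j hj
          exact one_ne_zero (nc i j l hij (by omega) (by omega) (a * a') (b * b') 1 (by
            rw [e, e', map_add, map_smul, map_smul, e1, e2, smul_smul, smul_smul, one_smul]))
    exact ⟨a, a0, e'.imp (fun e' => by rw [e', map_smul, e]) fun e' => by rw [e', map_smul, e]⟩
  have dual : ∀ l, ∃ g, lam3 B w g = l := fun l => by
    obtain ⟨g0, h0⟩ := ind 1 2 (by decide)
    obtain ⟨g1, h1⟩ := ind 0 2 (by decide)
    obtain ⟨g2, h2⟩ := ind 0 1 (by decide)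
    refine ⟨(l.1 / B w.1 g0) • g0 + (l.2.1 / B w.2.1 g1) • g1 + (l.2.2 / B w.2.2 g2) • g2, ?_⟩
    have : ∀ a b c : K4, a ≠ 0 → b ≠ 0 → s4 a * (c / (s4 a * b) * b) = c := fun a b c h1 h2 => by
      have := (map_ne_zero s4).2 h1
      field_simp
    simp [lam3, w, (h0 1).2, (h0 2).2, (h1 0).2, (h1 2).2, (h2 0).2, (h2 1).2,
      this _ _ _ p0 (mt (h0 0).1 (by decide)), this _ _ _ p1 (mt (h1 1).1 (by decide)),
      this _ _ _ p2 (mt (h2 2).1 (by decide))]
  have pt : ∀ {i l : Fin 6} {a : K4}, a ≠ 0 → L3 w (hcv i) = a • u l → tp h.S.hB (L3 w (hcv i)) = y l :=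
    fun {i l a} a0 e' => (congrArg _ e').trans ((U.smul _ a (hu l) a0).trans (e l))
  have e6 : ∀ σ : Equiv.Perm (Fin 6), (∀ i : Fin 6, i.1 < 4 → σ i = i) →
      tp h.S.hB (L3 w (hcv 4)) = y (σ 4) → tp h.S.hB (L3 w (hcv 5)) = y (σ 5) → ∃ w σ, HV h W y w σ :=
    fun σ h1 h2 h3 => ⟨w, σ, i1, sp, dual, fun i => by
      by_cases hi : i.1 < 4
      · obtain ⟨a, a0, e'⟩ := e4 i hi
        exact (h1 i hi).symm ▸ pt a0 e'
      · rcases (by omega : i = 4 ∨ i = 5) with rfl | rfl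
        exacts [h2, h3]⟩
  obtain ⟨a, a0, e7⟩ := e5 4 (by decide)
  obtain ⟨b, b0, e8⟩ := e5 5 (by decide)
  have e9 : b • u 5 ≠ a • u 4 := fun e => b0 (nc 4 0 5 (by decide) (by decide) (by decide) a 0 b (by simp [e]))
  rcases e7 with e7 | e7 <;> rcases e8 with e8 | e8
  exacts [absurd (e8.symm.trans e7) e9, e6 1 (fun _ _ => rfl) (pt a0 e7) (pt b0 e8),
    e6 (Equiv.swap 4 5) (by decide) (pt b0 e8) (pt a0 e7), absurd (e8.symm.trans e7) e9]

theorem act_of {g : L} (hg : g ∈ AA h F W) {u u' : V} (hu : Is B u) (hu' : Is B u') (h1 : u ∈ W)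
    (h2 : u' ∈ W) (e : ps φ g = tp h.S.hB u * tp h.S.hB u') (x : V) :
    (φ g).1.1 x = x + (B u x • u + B u' x • u') := by
  have t : ∀ {u : V}, Is B u → ∀ x, (ts h.S.hB u).1.1 x = x + B u x • u := fun {u} hu x => by
    rw [ts_val h.S.hB hu.2, h.S.hB.qr_apply (by rw [hu.2, map_one, mul_zero, add_zero, h.S.two]), one_mul]
  obtain ⟨c, -, hc⟩ := scalar_of_mk_eq_one h.S.hB (by rw [h.S.hn]; norm_num)
    (g := φ g * (ts h.S.hB u * ts h.S.hB u')⁻¹) (mul_inv_eq_one.2 e)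
  have h3 : ∀ x, (φ g).1.1 x = c • (x + (B u x • u + B u' x • u')) := fun x => by
    have := hc ((ts h.S.hB u * ts h.S.hB u').1.1 x)
    rw [← sug_mul_apply, inv_mul_cancel_right, sug_mul_apply, t hu, t hu', map_add, map_smul,
      f.orth h1 h2, smul_zero, add_zero] at this
    rw [this]; congr 1; abel
  obtain ⟨b, ib, rfl⟩ := h.ex_iv hu
  have h4 := h3 (χ b)
  rw [hu.2, f.orth h2 h1, zero_smul, zero_smul, add_zero, add_zero, ← h.lin g b ib.1,
    ((FT.mem_AA.1 hg).2 b (h.mem_pre.2 ⟨ib.1, h1⟩)).mul_inv_cancel] at h4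
  rw [h3, ← smul_left_injective K4 hu.1 ((one_smul _ _).trans h4), one_smul]

end WF

end Cfsg.Agent.LF
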