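import Cfsg.Agent.Fischer.LO

/-! The structure of the elementary abelian subgroup of order `2^11`. -/

set_option autoImplicit false
set_option linter.unusedSectionVars false
set_option linter.unusedVariables false
set_option synthInstance.maxSize 2048

namespace Cfsg.Agent.LF
open Subgroup Module Cfsg.Agent.Comp Cfsg.Agent.FiC Cfsg.Agent.Herm Cfsg.Agent.Fischer.U6
  Cfsg.Agent.Fischer

variable {H : Type*} [Group H] [Finite H] {Q N M L R A : Subgroup H} {z a b s t : H}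
  {V : Type*} [AddCommGroup V] [Module K4 V] [FiniteDimensional K4 V]
  {B : V →ₛₗ[s4] V →ₗ[K4] K4} {χ : H → V} {φ : L →* SUG B}
  {E F T : Subgroup (SUG B ⧸ center (SUG B))} {v : SUG B ⧸ center (SUG B)} {W : Submodule K4 V}

/-- acting as a product of two transvections -/
def Ov (h : FT Q N M L z B χ φ) (w : V × V × V) (a : H) (i j : Fin 6) : Prop :=
  ∀ b ∈ Q, χ (a * b * a⁻¹) = χ b + L3 w (tm3 i j (lam3 B w (χ b)))

/-- the facts about the elementary abelian subgroup -/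
structure AS (h : FT Q N M L z B χ φ) (A : Subgroup H) (w : V × V × V) : Prop where
  sq : ∀ a ∈ A, a * a = 1
  card : Nat.card A = 2 ^ 11
  inj : ∀ c, L3 w c = 0 → c = 0
  iso : ∀ c, lam3 B w (L3 w c) = 0
  dual : ∀ l, ∃ u, lam3 B w u = l
  AQ : ∀ a ∈ Q, a ∈ A ↔ ∃ c, χ a = L3 w c
  ov : ∀ a ∈ A, ∃ i j, Ov h w a i j
  ex : ∀ i j, ∃ a ∈ A, Ov h w a i j
  nN : N ≤ normalizer (A : Set H)
  tr : ∀ a ∈ A, a ∉ Q → ∀ b ∈ A, b ∉ Q → ∃ k ∈ normalizer (A : Set H), b⁻¹ * (k * a * k⁻¹) ∈ Q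
  pv : ∀ c, c ≠ 0 → (PV (im φ M) (tp h.S.hB (L3 w c)) ↔ ¬ Hy c)
  nc : 2 ^ 14 * 3 * 5760 ≤ Nat.card (normalizer (A : Set H))
  cen : centralizer (A : Set H) ≤ A

theorem hcv_ne : ∀ i, hcv i ≠ 0 := by decide +kernel

namespace FT
variable (h : FT Q N M L z B χ φ)
include h

theorem ko {P : Subgroup (SUG B ⧸ center (SUG B))} (hP : P ≤ im φ M) (h2 : IsPGroup 2 P) :
    ∃ E F T v y, KW (TV h.S.hB) (im φ M) E F T v ∧ KO (TV h.S.hB) (im φ M) F v y ∧ P ≤ T := by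
  have := h.fin
  obtain ⟨τ, s, b⟩ := U62.base_tv card_K4 h.S
  obtain ⟨π, p1, p2⟩ := h.ex
  obtain ⟨e⟩ := equiv_of_ker (((ps φ).subgroupMap _).comp (subgroupOfEquivOfLe h.ML).symm.toMonoidHom)
    π (((ps φ).subgroupMap_surjective _).comp (MulEquiv.surjective _)) p1 fun m =>
      Subtype.ext_iff.trans ((h.ker _).trans (p2 m).symm)
  exact U62.ko_all b e hP h2

theorem card_imN (h1 : R ≤ L) : Nat.card R = Nat.card ↥(R ⊓ N) * Nat.card (im φ R) := by
  have e : ((ps φ).comp (inclusion h1)).ker = N.subgroupOf R := Subgroup.ext fun g =>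
    h.ker (inclusion h1 g)
  have := card_mul_index ((ps φ).comp (inclusion h1)).ker
  rw [index_ker, e, MonoidHom.range_comp, inclusion_range, ← inf_subgroupOf_left,
    Core.card_subgroupOf_of_le inf_le_left] at this
  exact this.symm

end FT

theorem WF.norm {h : FT Q N M L z B χ φ} (f : WF h F W) {k : L}
    (hk : ps φ k ∈ normalizer (F : Set (SUG B ⧸ center (SUG B)))) :
    k.1 ∈ normalizer ((AA h F W).map L.subtype : Set H) :=
  (le_normalizer_iff.2 (by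
    rintro _ ⟨k, hk, rfl⟩ _ ⟨g, hg, rfl⟩
    exact ⟨_, f.conj hk hg, rfl⟩) : ((normalizer (F : Set (SUG B ⧸ center (SUG B)))).comap
      (ps φ)).map L.subtype ≤ _) ⟨k, hk, rfl⟩

set_option maxHeartbeats 800000 in
theorem FT.exists_as (h : FT Q N M L z B χ φ) (hL : L ≤ M) (T : Sylow 2 H) :
    ∃ A w, AS h A w ∧ A ≤ (T : Subgroup H) ∧
      ∀ A' ≤ (T : Subgroup H), (∀ a ∈ A', a * a = 1) → 2 ^ 11 ≤ Nat.card A' → A' = A := by
  have := h.fin
  have := h.nQ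
  have : Fact (Nat.Prime 2) := ⟨Nat.prime_two⟩
  have U := uc_tp h.S
  have h1 : IsPGroup 2 ↥((T : Subgroup H) ⊓ M) := T.2.to_inf_left
  obtain ⟨E, F, T₀, v, y, w, k, h2⟩ := h.ko (P := im φ (T ⊓ M)) (map_mono (comap_mono inf_le_right))
    (h.im_two h1)
  obtain ⟨W, f⟩ := h.exists_W w
  obtain ⟨u, σ, c⟩ := f.exists_hv k
  have h3 : Q ≤ T := (IsPGroup.of_card h.cQ).le_sylow_of_normal T
  have h4 := h.card_im2 (inf_le_right.trans h.ML) h1
  have h5 := card_le_two h.iM T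
  have h6 := Nat.le_of_dvd Nat.card_pos (T.pow_dvd_card_of_pow_dvd_card (n := 21) (by
    rw [← card_mul_index M, h.iM, h.cM, h.cN, h.cQ]; norm_num))
  rw [inf_of_le_right (le_inf h3 (h.QN.trans h.NM)), h.cQ] at h4
  have h7 := Core.eq_of_le_of_card_le h2 (by rw [w.Tc]; omega)
  have a1 : (AA h F W).map L.subtype ≤ T := by
    rintro _ ⟨g, hg, rfl⟩
    obtain ⟨h8, h9⟩ := FT.mem_AA.1 hg
    obtain ⟨t, ht, e⟩ := h7.ge (w.FT h8)
    obtain ⟨b, hb, ib⟩ := f.iv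
    obtain ⟨c, e1⟩ := (h.eig (h.is_of ib) t⁻¹).1 ((f.m _ (h.is_of ib)).1 (h.mem_pre.1 hb).2 _ (by
      rw [map_inv (ps φ), e]; exact inv_mem h8))
    have ht' : t.1⁻¹ ∈ (T : Subgroup H) := Subgroup.inv_mem _ ht.1
    obtain ⟨k, hk⟩ := T.2 ⟨_, ht'⟩
    refine (mul_mem_cancel_left ht').1 (h3 (h.memQ' ((h.ps_eq t g).1 e) ib ?_))
    rw [← eig_two e1 (congrArg Subtype.val hk), ← h.lin _ b ib.1]
    congr 1
    calc _ = t.1⁻¹ * (g * b * g.1⁻¹) * t := by simp [mul_assoc]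
      _ = _ := by rw [(h9 b hb).mul_inv_cancel]; simp
  have a2 : ∀ a ∈ (AA h F W).map L.subtype, a * a = 1 := by
    rintro _ ⟨g, hg, rfl⟩
    exact f.sq w hg
  have a3 : ∀ A' ≤ (T : Subgroup H), (∀ a ∈ A', a * a = 1) → 2 ^ 11 ≤ Nat.card A' →
      A' = (AA h F W).map L.subtype := fun A h8 h9 h10 =>
    Core.eq_of_le_of_card_le (h.unique hL w f ((map_mono (comap_mono (inf_le_inf_right _ h8))).trans h2)
      h9 h10) ((f.card w).trans_le h10)
  have a4 : (T : Subgroup H) ≤ normalizer ((AA h F W).map L.subtype : Set H) := fun t ht =>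
    LocalEven.cj_eq_self_iff.1 (a3 _ (LocalEven.cj_le_of_mem ht a1) (fun a ha => by
      obtain ⟨b, hb, rfl⟩ := LocalEven.mem_cj'.1 ha
      rw [conj_mul, a2 b hb, mul_one, mul_inv_cancel]) (by rw [LocalEven.card_cj, f.card w]))
  have mW : ∀ d, L3 u d ∈ W := fun d => (c.sp _).2 ⟨d, rfl⟩
  have is : ∀ d, d ≠ 0 → Is B (L3 u d) := fun d e => ⟨mt (c.inj d) e, f.i _ (mW d)⟩
  have ih : ∀ i, Is B (L3 u (hcv i)) := fun i => is _ (hcv_ne i)
  have ov : ∀ g ∈ AA h F W, ∀ i j, ps φ g = y (σ i) * y (σ j) → Ov h u g.1 i j := fun g hg i j e b hb => by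
    rw [h.lin g b hb, f.act_of hg (ih i) (ih j) (mW _) (mW _) (e.trans (congrArg₂ _ (c.pt i) (c.pt j)).symm),
      tm3, map_add, map_smul, map_smul, b_L3, b_L3]
  have nN : N ≤ normalizer ((AA h F W).map L.subtype : Set H) := fun n hn =>
    f.norm (k := ⟨n, h.ML (h.NM hn)⟩) ((h.kerN hn).symm ▸ one_mem _)
  have pv : PV (im φ M) v := ((split h.tv_conj h.kf).2.2.1 _ w.hv).resolve_left fun pu => by
    have := pu.card ▸ w.cv
    omega
  refine ⟨_, u, ⟨a2, f.card w, c.inj, fun d => Prod.ext (f.orth (by simpa [L3_apply] using mW (1, 0, 0)) (mW d))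
    (Prod.ext (f.orth (by simpa [L3_apply] using mW (0, 1, 0)) (mW d))
      (f.orth (by simpa [L3_apply] using mW (0, 0, 1)) (mW d))), c.dual, fun a ha => ?_, ?_, fun i j => ?_,
    nN, ?_, fun d d0 => ⟨fun e ⟨_, i, a, e'⟩ => ?_, fun e => ?_⟩, ?_, fun g hg => ?_⟩, a1, a3⟩
  · rw [← c.sp, ← and_iff_right ha (b := χ a ∈ W), ← h.mem_pre, ← f.inf, mem_inf, and_iff_left ha]
  · rintro _ ⟨g, hg, rfl⟩
    obtain ⟨i, j, e⟩ := k.pr _ (FT.mem_AA.1 hg).1
    exact ⟨_, _, ov g hg (σ.symm i) (σ.symm j) (by rwa [σ.apply_symm_apply, σ.apply_symm_apply])⟩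
  · obtain ⟨g, hg, e⟩ := f.lift w (k.pm (σ i) (σ j))
    exact ⟨_, ⟨g, hg, rfl⟩, ov g hg i j e⟩
  · rintro _ ⟨g, hg, rfl⟩ e1 _ ⟨g', hg', rfl⟩ e2
    obtain ⟨x, hx⟩ := w.Ft
    obtain ⟨c, hc, e⟩ := hx _ (FT.mem_AA.1 hg).1 fun e => e1 (h.mem_pre.1 (f.inN hg e)).1
    obtain ⟨c', hc', e'⟩ := hx _ (FT.mem_AA.1 hg').1 fun e => e2 (h.mem_pre.1 (f.inN hg' e)).1
    obtain ⟨m, -, e''⟩ := (im φ M).mul_mem hc'.1 ((im φ M).inv_mem hc.1)
    have : ps φ m ∈ normalizer (F : Set (SUG B ⧸ center (SUG B))) :=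
      e''.symm ▸ Subgroup.mul_mem _ hc'.2 (Subgroup.inv_mem _ hc.2)
    exact ⟨m, f.norm this, (h.mem_pre.1 (f.inN (mul_mem (inv_mem hg') (f.conj this hg))
      (mp_eq _ (mp_tr _ e e' e'')))).1⟩
  · exact (k.cy (σ i)).ne' ((congrArg (fun x => Nat.card ↥(im φ M ⊓ centralizer {x}))
      ((U.eq_of_smul (ih i) (is d d0) (by rw [e', map_smul])).trans (c.pt i))).symm.trans e.1)
  · rcases k.fx _ (U.mem _ (is d d0)) ((f.m _ (is d d0)).1 (mW d)) with ⟨i, e'⟩ | ⟨g, hg, e'⟩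
    · obtain ⟨a, e1⟩ := U.inj _ _ (ih (σ.symm i)) (is d d0) ((c.pt _).trans
        ((congrArg y (σ.apply_symm_apply i)).trans e'))
      refine (e ⟨d0, σ.symm i, a, sub_eq_zero.1 (c.inj _ ?_)⟩).elim
      rw [map_sub, map_smul, e1, sub_self]
    · exact e' ▸ pv.conj hg
  · have b1 := h.card_imN (R := normalizer ((AA h F W).map L.subtype : Set H) ⊓ M) (inf_le_right.trans h.ML)
    have b0 : im φ M ⊓ normalizer (F : Set (SUG B ⧸ center (SUG B))) ≤
        im φ (normalizer ((AA h F W).map L.subtype : Set H) ⊓ M) := by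
      rintro _ ⟨⟨g, hg, rfl⟩, hx⟩
      exact ⟨g, ⟨f.norm hx, hg⟩, rfl⟩
    have b2 := k.nF.trans (card_le_of_le b0)
    have b3 := card_mul_index (M.subgroupOf (normalizer ((AA h F W).map L.subtype : Set H)))
    have b4 : (M.subgroupOf (normalizer ((AA h F W).map L.subtype : Set H))).index ≠ 1 := fun e => by
      rw [h7, w.Tc, inf_of_le_left (a4.trans (subgroupOf_eq_top.1 (index_eq_one.1 e)))] at h4
      omega
    have b5 := (M.subgroupOf (normalizer ((AA h F W).map L.subtype : Set H))).index_ne_zero_of_finite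
    rw [inf_of_le_right (le_inf nN h.NM), h.cN, h.cQ] at b1
    rw [← inf_subgroupOf_left, Core.card_subgroupOf_of_le inf_le_left, inf_subgroupOf_left, b1] at b3
    rw [← b3]
    exact le_trans (by norm_num) (Nat.mul_le_mul (Nat.mul_le_mul_left _ b2) (show 2 ≤ _ by omega))
  · have b0 : h.pre W ≤ (AA h F W).map L.subtype := f.inf.ge.trans inf_le_left
    generalize hC : centralizer ((AA h F W).map L.subtype : Set H) = C at hg
    have b1 : ∀ g ∈ C, ∀ r ∈ h.pre W, Commute g r := fun g hg r hr => (hC.ge hg r (b0 hr)).symm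
    have b2 : C ≤ L := fun g hg => by_contra fun e => by
      obtain ⟨r, hr, ir⟩ := f.iv
      obtain ⟨r', h8, h9⟩ := h.surj (w4 • χ r)
      have := (h.semi g e r ir.1 r' h8).1 w4 h9
      rw [(b1 g hg r hr).mul_inv_cancel, (b1 g hg r' (h.mem_pre.2 ⟨h8, h9 ▸ W.smul_mem _
        (h.mem_pre.1 hr).2⟩)).mul_inv_cancel, h9, s4_eq] at this
      exact absurd (smul_left_injective K4 (h.is_of ir).1 this) (by decide)
    have b3 : ∀ g ∈ C, g * g ∈ Q := fun g hg => h.l.cmem _ fun q hq => by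
      have h8 := h.nQ.conj_mem q hq g
      have h9 := f.cen (mul_mem h8 (inv_mem hq)) fun r hr => by
        rw [h.l.commute_mul_iff h8 (inv_mem hq) (h.mem_pre.1 hr).1, PLocal.commute_cj_iff,
          Commute.inv_left_iff, mul_assoc, ← (b1 g hg r hr).eq, inv_mul_cancel_left]
      refine Inv.commute_iff_conj.2 ?_
      calc _ = g * (g * q * g⁻¹ * q⁻¹) * g⁻¹ * (g * q * g⁻¹ * q⁻¹) * q := by group
        _ = _ := by rw [(b1 g hg _ h9).mul_inv_cancel, h.pre_sq f.i h9, one_mul]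
    have b4 : C ≤ T := le_sup_right.trans (T.is_maximal' (T.2.to_sup_of_normal_right'
      (fun g => ⟨3, Subtype.ext ((pow_mul g.1 2 4).trans (by rw [pow_two]; exact h.two (b3 _ g.2)))⟩)
      (hC ▸ a4.trans (Core.normalizer_le_normalizer_centralizer _))) le_sup_left).le
    have b5 : F ≤ im φ C := fun x hx => (f.lift w hx).elim fun g hg => ⟨g, hC.le fun b hb =>
      Inv.commute_of_mul_self (a2 b hb) (a2 _ ⟨g, hg.1, rfl⟩) (a2 _ (mul_mem hb ⟨g, hg.1, rfl⟩)), hg.2⟩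
    rcases w.Tm (im φ C) ((map_mono (comap_mono (le_inf b4 (b2.trans hL)))).trans h2) (by
      rintro _ ⟨g, hg, rfl⟩
      exact (map_mul (ps φ) g g).symm.trans ((h.ker _).2 (h.QN (b3 _ hg))))
      (w.Fc.ge.trans (card_le_of_le b5)) with e | e
    · have e1 := Core.eq_of_le_of_card_le (b5.trans e) (w.Ec.trans w.Fc.symm).le
      obtain ⟨x, -, hx⟩ := k.ind 0 2 (by decide)
      exact absurd ((hx 1).1 (((w.fx _ (k.hy 0) fun x hx => k.fy 0 x (e1.ge hx)).trans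
        (w.fx _ (k.hy 1) fun x hx => k.fy 1 x (e1.ge hx)).symm) ▸ (hx 0).2 (.inl rfl))) (by decide)
    · exact ⟨⟨g, b2 hg⟩, FT.mem_AA.2 ⟨e ⟨_, hg, rfl⟩, b1 g hg⟩, rfl⟩

end Cfsg.Agent.LF
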