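import Cfsg.Agent.Fischer.LP
import Cfsg.Agent.Fischer.LN

/-! Conjugation in the elementary abelian subgroup of order `2^11`, in coordinates. -/

set_option autoImplicit false
set_option linter.unusedSectionVars false
set_option linter.unusedVariables false
set_option synthInstance.maxSize 2048

namespace Cfsg.Agent.LF
open Subgroup Module Cfsg.Agent.Comp Cfsg.Agent.FiC Cfsg.Agent.Herm Cfsg.Agent.Fischer.U6
  Cfsg.Agent.Fischer

/-- the norm -/
def nm4 (a : K4) : ZMod 2 := (cj4 a * a).re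

/-- the action of the extraspecial group -/
def mv3 (i j : Fin 6) (l : C3) (s : C3 × ZMod 2) : C3 × ZMod 2 :=
  (tm3 i j l + s.1, nm4 (bp (hcv i) l) + nm4 (bp (hcv j) l) + (s.2 + (bp s.1 l).im))

variable {H : Type*} [Group H] [Finite H] {Q N M L A : Subgroup H} {z a b q x : H}
  {V : Type*} [AddCommGroup V] [Module K4 V] [FiniteDimensional K4 V]
  {B : V →ₛₗ[s4] V →ₗ[K4] K4} {χ : H → V} {φ : L →* SUG B} {w : V × V × V} {i j : Fin 6}
  {h : FT Q N M L z B χ φ} {R : C3 × ZMod 2 → H} {f g : C3 → C3}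

theorem FT.exists_xs (h : FT Q N M L z B χ φ) : ∃ x, XS h x w4 := by
  obtain ⟨x, h1, h2, h3, -⟩ := h.ex_x
  obtain ⟨d, X⟩ := h.xs h1 h3 fun e => h2 (e ▸ one_mem _)
  rcases (by decide +kernel : ∀ d : K4, d ≠ 0 → d ≠ 1 → d = w4 ∨ d ^ 2 = w4) d X.d0 X.d1 with rfl | e
  exacts [⟨x, X⟩, ⟨x ^ 2, pow_mem h1 2, by rw [pow_right_comm, h3, one_pow], by decide, by decide,
    fun a ha => e ▸ X.pw 2 ha⟩]

/-- the action on the quotient -/
def Ac (h : FT Q N M L z B χ φ) (w : V × V × V) (a : H) (f : C3 → C3) : Prop :=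
  ∀ b ∈ Q, χ (a * b * a⁻¹) = χ b + L3 w (f (lam3 B w (χ b)))

theorem Ac.memQ (e : Ac h w a 0) : a ∈ Q := h.triv fun b hb => by simpa using e b hb

theorem ac_Q (ha : a ∈ Q) : Ac h w a 0 := fun b hb => by simpa using h.conj_Q ha hb

/-- the coordinates in the intersection with the extraspecial group -/
structure RM (h : FT Q N M L z B χ φ) (A : Subgroup H) (w : V × V × V) (x : H)
    (R : C3 × ZMod 2 → H) : Prop extends AS h A w, XS h x w4 where
  mA : ∀ s, R s ∈ A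
  mQ : ∀ s, R s ∈ Q
  chi : ∀ s, χ (R s) = L3 w s.1
  pp : ∀ s, PP x (R s) = z ^ s.2.val

namespace AS
variable (c : AS h A w)
include c

theorem com (ha : a ∈ A) (hb : b ∈ A) : Commute a b :=
  Inv.commute_of_mul_self (c.sq a ha) (c.sq b hb) (c.sq _ (mul_mem ha hb))

theorem zA : z ∈ A := (c.AQ z h.l.mem).2 ⟨0, by rw [(h.zero z h.l.mem).2 (.inr rfl), map_zero]⟩

theorem ac_mul (e : Ac h w a f) (e' : Ac h w b g) : Ac h w (a * b) (g + f) := fun r hr => by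
  rw [show a * b * r * (a * b)⁻¹ = a * (b * r * b⁻¹) * a⁻¹ by group, e _ (h.nQ.conj_mem r hr b), e' r hr,
    map_add, c.iso, add_zero, Pi.add_apply, map_add, add_assoc]

theorem ac_eq (e : Ac h w a f) (e' : Ac h w a g) : f = g := funext fun l => by
  obtain ⟨u, rfl⟩ := c.dual l
  obtain ⟨b, hb, rfl⟩ := h.surj u
  exact sub_eq_zero.1 (c.inj _ (by
    rw [map_sub, add_left_cancel ((e b hb).symm.trans (e' b hb)), sub_self]))

theorem notQ (e : Ov h w a i j) (hij : i ≠ j) : a ∉ Q := fun ha =>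
  (by decide +kernel : ∀ i j, i ≠ j → tm3 i j ≠ 0) i j hij (c.ac_eq e (ac_Q ha))

theorem xA (X : XS h x w4) : ∀ a ∈ A, x * a * x⁻¹ ∈ A := fun a ha =>
  LocalEven.conj_mem_of_mem_normalizer (c.nN X.m) ha

theorem pp_z (X : XS h x w4) : PP x z = z := by
  rw [PP, (h.c x).mul_inv_cancel, (h.c x).mul_inv_cancel, h.l.zsq, one_mul]

theorem exists_rm (X : XS h x w4) : ∃ R, RM h A w x R := by
  have : ∀ s : C3 × ZMod 2, ∃ r, r ∈ A ∧ r ∈ Q ∧ χ r = L3 w s.1 ∧ PP x r = z ^ s.2.val := fun s => by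
    obtain ⟨r, hr, e⟩ := h.surj (L3 w s.1)
    have h1 := (c.AQ r hr).2 ⟨_, e⟩
    have h2 := PP_mul (fun _ ha _ => c.com ha) (c.xA X) h1 c.zA
    rw [c.pp_z X] at h2
    rcases X.fix (PP_mem (fun a ha => h.nQ.conj_mem a ha x) hr)
      (PP_comm (fun _ ha _ => c.com ha) (c.xA X) X.o h1) with e1 | e1 <;> rw [e1] at h2 <;>
      rcases (by decide : ∀ e : ZMod 2, e.val = 0 ∨ e.val = 1) s.2 with e2 | e2 <;> rw [e2]
    exacts [⟨r, h1, hr, e, by simpa using e1⟩,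
      ⟨_, mul_mem h1 c.zA, mul_mem hr h.l.mem, (h.mul_z hr).trans e, by simpa using h2⟩,
      ⟨_, mul_mem h1 c.zA, mul_mem hr h.l.mem, (h.mul_z hr).trans e, by simpa [h.l.zsq] using h2⟩,
      ⟨r, h1, hr, e, by simpa using e1⟩]
  choose R h1 h2 h3 h4 using this
  exact ⟨R, c, X, h1, h2, h3, h4⟩

theorem exists_x (X : XS h x w4) (i j : Fin 6) : ∃ a ∈ A, Commute a x ∧ Ov h w a i j := by
  obtain ⟨a, ha, e⟩ := c.ex i j
  have h1 : ∀ a, Ac h w a (tm3 i j) → Ac h w (x * a * x⁻¹) (tm3 i j) := fun a e b hb => by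
    have h2 := h.nQ.conj_mem' b hb x
    have h3 := X.a _ h2
    rw [show x * a * x⁻¹ * b * (x * a * x⁻¹)⁻¹ = x * (a * (x⁻¹ * b * x) * a⁻¹) * x⁻¹ by group,
      X.a _ (h.nQ.conj_mem _ h2 a), e _ h2, show χ b = _ from Eq.trans (congrArg χ (by group)) h3,
      map_smul, (by decide +kernel : ∀ i j l, tm3 i j (w4 • l) = w4 • tm3 i j l), map_smul, smul_add]
  refine ⟨_, PP_mem (c.xA X) ha, PP_comm (fun _ ha _ => c.com ha) (c.xA X) X.o ha, ?_⟩
  have := c.ac_mul (c.ac_mul e (h1 a e)) (h1 _ (h1 a e))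
  rwa [(by decide +kernel : ∀ i j, tm3 i j + (tm3 i j + tm3 i j) = tm3 i j)] at this

end AS

theorem zpow_add2 (hz : z * z = 1) (d e : ZMod 2) : z ^ (d + e).val = z ^ d.val * z ^ e.val := by
  rw [ZMod.val_add, ← pow_eq_pow_mod _ ((pow_two z).trans hz), pow_add]

namespace RM
variable (r : RM h A w x R)
include r

theorem ppm (ha : a ∈ A) (hb : b ∈ A) : PP x (a * b) = PP x a * PP x b :=
  PP_mul (fun _ ha _ => r.com ha) (r.xA r.toXS) ha hb

theorem ext {s : C3 × ZMod 2} (hq : a ∈ Q) (h1 : χ a = L3 w s.1) (h2 : PP x a = z ^ s.2.val) :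
    a = R s := (h.eq_of (r.mQ s) hq (h1.trans (r.chi s).symm)).resolve_right fun e => h.l.ne (by
  rwa [e, r.ppm (r.mA s) r.zA, r.pp, r.pp_z r.toXS, mul_eq_left] at h2)

theorem add (s t : C3 × ZMod 2) : R (s + t) = R s * R t :=
  (r.ext (mul_mem (r.mQ s) (r.mQ t)) (by
    rw [h.mul _ (r.mQ s) _ (r.mQ t), r.chi, r.chi, Prod.fst_add, map_add]) (by
    rw [r.ppm (r.mA s) (r.mA t), r.pp, r.pp, Prod.snd_add, zpow_add2 h.l.zsq])).symm

theorem zero : R 0 = 1 := (r.ext (one_mem _) (by simp [h.one]) (by simp [PP])).symm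

theorem rz : R (0, 1) = z :=
  (r.ext h.l.mem (by rw [(h.zero z h.l.mem).2 (.inr rfl), map_zero]) (by
    rw [r.pp_z r.toXS]; exact (pow_one z).symm)).symm

theorem eq_zero {s : C3 × ZMod 2} (e : R s = 1) : s = 0 := by
  have h1 := r.chi s
  have h2 := r.pp s
  rw [e, h.one] at h1
  rw [e] at h2
  refine Prod.ext (r.inj _ h1.symm) (((by decide : ∀ e : ZMod 2, e = 0 ∨ e.val = 1) s.2).resolve_right
    fun e => h.l.ne ?_)
  simpa [PP, e] using h2.symm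

theorem sur (ha : a ∈ A) (hq : a ∈ Q) : ∃ s, a = R s := by
  obtain ⟨d, e⟩ := (r.AQ a hq).1 ha
  rcases h.eq_of (r.mQ (d, 0)) hq (e.trans (r.chi (d, 0)).symm) with e | e
  exacts [⟨_, e⟩, ⟨_, by rw [e, ← r.rz, ← r.add]⟩]

theorem cx (s : C3 × ZMod 2) : x * R s * x⁻¹ = R (w4 • s.1, s.2) :=
  r.ext (h.nQ.conj_mem _ (r.mQ s) x) (by rw [r.a _ (r.mQ s), r.chi, map_smul]) (by
    rw [PP_conj (Commute.refl x), r.pp, ((h.c x).pow_right _).mul_inv_cancel])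

theorem cq (hq : q ∈ Q) (s : C3 × ZMod 2) :
    q * R s * q⁻¹ = R (s.1, s.2 + (bp s.1 (lam3 B w (χ q))).im) := by
  have h1 := h.comm (r.mQ s) hq
  rw [← h.S.hB.symm (χ (R s)), r.chi, b_L3, s4_eq] at h1
  generalize bp s.1 (lam3 B w (χ q)) = p at h1 ⊢
  rcases (by decide +kernel : ∀ p : K4, p + ⟨p.re + p.im, p.im⟩ = 0 ∧ p.im = 0 ∨
    p + ⟨p.re + p.im, p.im⟩ ≠ 0 ∧ p.im = 1) p with e | e <;> rw [e.2]
  · rw [(h1.2 e.1).symm.mul_inv_cancel, add_zero]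
  · rw [h.l.conj_eq hq (r.mQ s) fun e' => e.1 (h1.1 e'.symm), ← r.rz, ← r.add]
    exact congrArg R (Prod.ext (add_zero _) rfl)

theorem ca (ha : a ∈ A) (hx : Commute a x) (e : Ov h w a i j) (hq : q ∈ Q) (s : C3 × ZMod 2) :
    q * (a * R s) * q⁻¹ = a * R (mv3 i j (lam3 B w (χ q)) s) := by
  have h1 := h.nQ.conj_mem q hq a
  have h2 := h.mul _ h1 _ (inv_mem hq)
  rw [e q hq, h.inv hq, add_right_comm, h.S.add_self, zero_add] at h2
  obtain ⟨t, e1⟩ := r.sur ((r.AQ _ (mul_mem h1 (inv_mem hq))).2 ⟨_, h2⟩) (mul_mem h1 (inv_mem hq))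
  have h3 : t.1 = tm3 i j (lam3 B w (χ q)) := sub_eq_zero.1 (r.inj _ (by
    rw [map_sub, ← r.chi, ← e1, h2, sub_self]))
  have h4 := h.nQ.conj_mem q hq x
  have h5 := h.nQ.conj_mem _ h4 x
  have h6 : ∀ q t, a * q * a⁻¹ * q⁻¹ = R t →
      a * (x * q * x⁻¹) * a⁻¹ * (x * q * x⁻¹)⁻¹ = R (w4 • t.1, t.2) := fun q t e => by
    rw [← r.cx, ← e]
    calc _ = a * x * q * (a * x)⁻¹ * (x * q * x⁻¹)⁻¹ := by group
      _ = _ := by rw [hx.eq]; group
  have h7 : Commute a (q * (x * q * x⁻¹) * (x * (x * q * x⁻¹) * x⁻¹)) := by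
    rcases (h.zero _ (mul_mem (mul_mem hq h4) h5)).1 (by
      rw [h.mul _ (mul_mem hq h4) _ h5, h.mul _ hq _ h4, r.a _ h4, r.a _ hq, ← one_smul K4 (χ q),
        smul_smul, smul_smul, ← add_smul, ← add_smul,
        show 1 + w4 * 1 + w4 * (w4 * 1) = 0 by decide, zero_smul]) with e | e <;> rw [e]
    exacts [Commute.one_right a, h.c a]
  have h8 := r.cq hq (w4 • t.1, t.2)
  have h9 := r.cq (mul_mem hq h4) (w4 • w4 • t.1, t.2)
  have h10 := r.eq_zero ((r.add _ _).trans ((congrArg₂ _ ((r.add t _).trans (congrArg _ h8.symm))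
    h9.symm).trans (by
      rw [← h6 _ _ (h6 _ _ e1), ← h6 _ _ e1, ← e1]
      exact Eq.trans (by group) (mul_inv_eq_one.2 h7.mul_inv_cancel))))
  rw [h.mul _ hq _ h4, r.a _ hq, map_add, map_smul] at h10
  calc _ = a * (a * q * a⁻¹ * q⁻¹ * (q * R s * q⁻¹)) := by
        rw [← mul_assoc a, ← mul_assoc a, ← mul_assoc a, ← mul_assoc a, r.sq a ha,
          inv_eq_of_mul_eq_one_right (r.sq a ha)]
        group
    _ = _ := by
      rw [e1, r.cq hq, ← r.add, mv3, ← h3, ← (by decide +kernel : ∀ i j l (e : ZMod 2),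
        (tm3 i j l, e) + (w4 • tm3 i j l, e + (bp (w4 • tm3 i j l) l).im) + (w4 • w4 • tm3 i j l,
          e + (bp (w4 • w4 • tm3 i j l) (l + w4 • l)).im) = 0 →
        e = nm4 (bp (hcv i) l) + nm4 (bp (hcv j) l)) i j _ t.2 (by rw [← h3]; exact h10)]
      rfl

theorem ovr (ha : a ∈ A) (hb : b ∈ A) (e : Ov h w a i j) (e' : Ov h w b i j) : ∃ s, b = a * R s := by
  have := r.ac_mul e e'
  rw [(by decide +kernel : ∀ i j, tm3 i j + tm3 i j = 0)] at this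
  obtain ⟨s, e1⟩ := r.sur (mul_mem ha hb) this.memQ
  exact ⟨s, by rw [← e1, ← mul_assoc, r.sq a ha, one_mul]⟩

end RM

end Cfsg.Agent.LF
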