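import Cfsg.Agent.Fischer.LQ

/-! Fusion in the elementary abelian subgroup of order `2^11`. -/

set_option autoImplicit false
set_option linter.unusedSectionVars false
set_option linter.unusedVariables false
set_option synthInstance.maxSize 2048

namespace Cfsg.Agent.LF
open Subgroup Module Cfsg.Agent.Comp Cfsg.Agent.FiC Cfsg.Agent.Herm Cfsg.Agent.Fischer.U6
  Cfsg.Agent.Fischer

theorem cj4_eq (a : K4) : cj4 a = s4 a := (s4_eq a).symm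

theorem bp_left (a b : K4) (c d l : C3) : bp (a • c + b • d) l = cj4 a * bp c l + cj4 b * bp d l := by
  simp only [bp, cj4_eq, Prod.fst_add, Prod.snd_add, Prod.smul_fst, Prod.smul_snd, smul_eq_mul, map_add,
    map_mul]
  ring

theorem bp_right (a b : K4) (c d l : C3) : bp l (a • c + b • d) = a * bp l c + b * bp l d := by
  simp only [bp, Prod.fst_add, Prod.snd_add, Prod.smul_fst, Prod.smul_snd, smul_eq_mul]
  ring

theorem c3_two (c : C3) : c + c = 0 := by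
  rw [← two_smul K4, show (2 : K4) = 0 by decide, zero_smul]

/-- the equation of a secant -/
def cr3 (c d : C3) : C3 := (cj4 (c.2.1 * d.2.2 + c.2.2 * d.2.1), cj4 (c.1 * d.2.2 + c.2.2 * d.1),
  cj4 (c.1 * d.2.1 + c.2.1 * d.1))

theorem cr_zero : ∀ i j, bp (hcv i) (cr3 (hcv i) (hcv j)) = 0 ∧ bp (hcv j) (cr3 (hcv i) (hcv j)) = 0 := by
  decide +kernel

theorem cr_span : ∀ i j, i ≠ j → ∀ c, bp c (cr3 (hcv i) (hcv j)) = 0 →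
    ∃ a b : K4, c = a • hcv i + b • hcv j := by decide +kernel

theorem ex_dual {i j : Fin 6} (hij : i ≠ j) (a b : K4) : ∃ l, bp (hcv i) l = a ∧ bp (hcv j) l = b := by
  have := (by decide +kernel : ∀ i j, i ≠ j → ∃ l, bp (hcv i) l = 1 ∧ bp (hcv j) l = 0)
  obtain ⟨c, h1, h2⟩ := this i j hij
  obtain ⟨d, h3, h4⟩ := this j i hij.symm
  exact ⟨a • c + b • d, by simp [bp_right, *], by simp [bp_right, *]⟩

/-- the signs -/
def sg3 (i j : Fin 6) (s : C3 × ZMod 2) : Prop :=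
  ∃ a b : K4, s = (a • hcv i + b • hcv j, nm4 a + nm4 b)

instance (i j : Fin 6) : DecidablePred (sg3 i j) := fun _ => by unfold sg3; infer_instance

theorem sg_iff {i j : Fin 6} (hij : i ≠ j) (a b : K4) (e : ZMod 2) :
    sg3 i j (a • hcv i + b • hcv j, e) ↔ e = nm4 a + nm4 b := by
  refine ⟨fun ⟨a', b', e1⟩ => ?_, fun e1 => ⟨a, b, by rw [e1]⟩⟩
  obtain ⟨l, h1, h2⟩ := ex_dual hij 1 0
  obtain ⟨l', h3, h4⟩ := ex_dual hij 0 1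
  have h5 := congrArg (bp ·.1 l) e1
  have h6 := congrArg (bp ·.1 l') e1
  simp only [bp_left, h1, h2, h3, h4, cj4_eq, mul_one, mul_zero, add_zero, zero_add,
    s4.injective.eq_iff] at h5 h6
  rw [h5, h6]
  exact congrArg Prod.snd e1

theorem hy3 {a b c : C3} (h1 : Hy a) (h2 : Hy b) (h3 : Hy c) (h4 : Hy (a + b)) (h5 : Hy (a + c)) :
    Hy (b + c) ∨ b + c = 0 := by
  obtain ⟨l, hl, h⟩ : ∃ l : List C3, (∀ c, Hy c ↔ c ∈ l) ∧ ∀ a ∈ l, ∀ b ∈ l, a + b ∈ l → ∀ c ∈ l,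
      a + c ∈ l → b + c ∈ l ∨ b + c = 0 :=
    ⟨[(⟨1, 0⟩, 0, 0), (⟨0, 1⟩, 0, 0), (⟨1, 1⟩, 0, 0), (0, ⟨1, 0⟩, 0), (0, ⟨0, 1⟩, 0), (0, ⟨1, 1⟩, 0),
      (0, 0, ⟨1, 0⟩), (0, 0, ⟨0, 1⟩), (0, 0, ⟨1, 1⟩), (⟨1, 0⟩, ⟨1, 0⟩, ⟨1, 0⟩), (⟨0, 1⟩, ⟨0, 1⟩, ⟨0, 1⟩),
      (⟨1, 1⟩, ⟨1, 1⟩, ⟨1, 1⟩), (⟨1, 0⟩, ⟨0, 1⟩, ⟨1, 1⟩), (⟨0, 1⟩, ⟨1, 1⟩, ⟨1, 0⟩), (⟨1, 1⟩, ⟨1, 0⟩, ⟨0, 1⟩),
      (⟨1, 0⟩, ⟨1, 1⟩, ⟨0, 1⟩), (⟨0, 1⟩, ⟨1, 0⟩, ⟨1, 1⟩), (⟨1, 1⟩, ⟨0, 1⟩, ⟨1, 0⟩)],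
      by decide +kernel, by decide +kernel⟩
  simp only [hl] at *
  exact h a h1 b h2 h4 c h3 h5

variable {H : Type*} [Group H] [Finite H] {Q N M L A : Subgroup H} {z a b q x y : H}
  {V : Type*} [AddCommGroup V] [Module K4 V] [FiniteDimensional K4 V]
  {B : V →ₛₗ[s4] V →ₗ[K4] K4} {χ : H → V} {φ : L →* SUG B} {w : V × V × V} {i j : Fin 6}
  {h : FT Q N M L z B χ φ} {R : C3 × ZMod 2 → H} {G : Type*} [Group G] {ι : H →* G}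
  {s t : C3 × ZMod 2}

/-- the involutions which are not conjugate to `z` -/
def Dl (ι : H →* G) (z a : H) : Prop := a ≠ 1 ∧ ¬ IsConj (ι z) (ι a)

/-- the fusion -/
structure FZ (h : FT Q N M L z B χ φ) (A : Subgroup H) (ι : H →* G) : Prop where
  inj : Function.Injective ι
  zp : ∀ a, Iv Q z a → (IsConj (ι z) (ι a) ↔ PV (im φ M) (tp h.S.hB (χ a)))
  fc : ∀ y ∈ A, IsConj (ι z) (ι y) → ∃ α : H → H, (∀ b ∈ A, ∃ a ∈ A, α a = b) ∧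
    (∀ a ∈ A, ∀ b ∈ A, α (a * b) = α a * α b) ∧ α z = y ∧ ∀ a ∈ A, IsConj (ι a) (ι (α a))

theorem cj_h (ι : H →* G) (g a : H) : IsConj (ι a) (ι (g * a * g⁻¹)) :=
  isConj_iff.2 ⟨ι g, by simp⟩

theorem FZ.dl (F : FZ h A ι) (e : IsConj (ι a) (ι b)) : Dl ι z a ↔ Dl ι z b :=
  and_congr (not_congr (by
    rw [← map_eq_one_iff ι F.inj, ← map_eq_one_iff ι F.inj (x := b)]
    exact ⟨fun e' => isConj_one_right.1 (e' ▸ e), fun e' => isConj_one_left.1 (e' ▸ e)⟩))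
    (not_congr ⟨fun e' => e'.trans e, fun e' => e'.trans e.symm⟩)

theorem FZ.dz (F : FZ h A ι) (g a : H) : Dl ι z (a * z) ↔ Dl ι z (g * a * g⁻¹ * z) := by
  rw [F.dl (cj_h ι g _), ← conj_mul, (h.c g).mul_inv_cancel]

namespace RM
variable (r : RM h A w x R)
include r

theorem mz (s : C3 × ZMod 2) : R s * z = R (s.1, s.2 + 1) := by
  rw [← r.rz, ← r.add]
  exact congrArg R (Prod.ext (add_zero _) rfl)

section
variable (ha : a ∈ A) (hx : Commute a x) (e : Ov h w a i j) (hij : i ≠ j)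
include ha hx e

theorem cl (l : C3) (s : C3 × ZMod 2) : ∃ q, q * (a * R s) * q⁻¹ = a * R (mv3 i j l s) := by
  obtain ⟨u, rfl⟩ := r.dual l
  obtain ⟨q, hq, rfl⟩ := h.surj u
  exact ⟨q, r.ca ha hx e hq s⟩

theorem m1 (hs : bp s.1 (cr3 (hcv i) (hcv j)) ≠ 0) : ∃ q, q * (a * R s) * q⁻¹ = a * R s * z := by
  obtain ⟨c, hc⟩ := (by decide +kernel : ∀ p : K4, p ≠ 0 → ∃ c, (c * p + 0 * p).im = 1) _ hs
  obtain ⟨q, hq⟩ := r.cl ha hx e (c • cr3 (hcv i) (hcv j) + (0 : K4) • cr3 (hcv i) (hcv j)) s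
  refine ⟨q, ?_⟩
  rw [hq, mul_assoc, r.mz, mv3, tm3, bp_right, bp_right, bp_right, hc, (cr_zero i j).1, (cr_zero i j).2]
  simp [nm4]

include hij

theorem m2 (c d : K4) (k : ZMod 2) : ∃ q, q * (a * R (c • hcv i + d • hcv j, k)) * q⁻¹ =
    a * R (0, k + (nm4 c + nm4 d)) := by
  obtain ⟨l, h1, h2⟩ := ex_dual hij c d
  obtain ⟨q, hq⟩ := r.cl ha hx e l (c • hcv i + d • hcv j, k)
  refine ⟨q, ?_⟩
  rw [hq, mv3, tm3, bp_left, h1, h2, c3_two,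
    (by decide +kernel : ∀ c d : K4, (cj4 c * c + cj4 d * d).im = 0), add_zero, add_comm]

theorem m3 (hs : bp s.1 (cr3 (hcv i) (hcv j)) ≠ 0) (ht : bp t.1 (cr3 (hcv i) (hcv j)) ≠ 0) :
    ∃ g, g * (a * R s) * g⁻¹ = a * R t ∨ g * (a * R s) * g⁻¹ = a * R t * z := by
  obtain ⟨k, hk⟩ := (by decide +kernel : ∀ p q : K4, p ≠ 0 → q ≠ 0 → ∃ k : Fin 3,
    cj4 (w4 ^ k.1) * p + cj4 1 * q = 0) _ _ hs ht
  obtain ⟨c, d, e1⟩ := cr_span i j hij _ ((bp_left ..).trans hk)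
  obtain ⟨l, h1, h2⟩ := ex_dual hij c d
  obtain ⟨q, hq⟩ := r.cl ha hx e l (w4 ^ k.1 • s.1, s.2)
  have h3 : ∀ k : ℕ, x ^ k * (a * R s) * (x ^ k)⁻¹ = a * R (w4 ^ k • s.1, s.2) := fun k => by
    induction k with
    | zero => simp
    | succ k ih =>
      rw [pow_succ', pow_succ', mul_smul, ← r.cx (_, s.2), ← hx.symm.mul_inv_cancel, conj_mul,
        hx.symm.mul_inv_cancel, ← ih]
      group
  refine ⟨q * x ^ k.1, ?_⟩
  rw [show q * x ^ k.1 * (a * R s) * (q * x ^ k.1)⁻¹ = q * (x ^ k.1 * (a * R s) * (x ^ k.1)⁻¹) * q⁻¹ by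
    group, h3, hq, mul_assoc, r.mz, mv3, tm3, h1, h2, ← e1, one_smul, add_right_comm, c3_two, zero_add]
  generalize nm4 c + nm4 d + _ = k
  rcases (by decide : ∀ k e : ZMod 2, k = e ∨ k = e + 1) k t.2 with rfl | rfl
  exacts [.inl rfl, .inr rfl]

end

variable (F : FZ h A ι)
include F

theorem dr (s : C3 × ZMod 2) : Dl ι z (R s) ↔ Hy s.1 := by
  by_cases e : s.1 = 0
  · refine iff_of_false ?_ fun c => c.1 e
    rcases (h.zero _ (r.mQ s)).1 (by rw [r.chi, e, map_zero]) with e | e <;> rw [e]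
    exacts [fun c => c.1 rfl, fun c => c.2 (IsConj.refl _)]
  · have := mt (h.zero _ (r.mQ s)).2 (r.chi s ▸ mt (r.inj _) e)
    rw [not_or] at this
    rw [Dl, F.zp _ ⟨r.mQ s, r.sq _ (r.mA s), this⟩, r.chi, r.pv _ e, not_not, and_iff_right this.1]

theorem dq (ha : a ∈ A) (hq : a ∈ Q) (e : Dl ι z a) : Dl ι z (a * z) := by
  obtain ⟨s, rfl⟩ := r.sur ha hq
  rw [r.mz, r.dr F]
  exact (r.dr F s).1 e

theorem step1 : ∃ d ∈ A, Dl ι z d ∧ ¬ Dl ι z (d * z) ∧ IsConj (ι (R ((w4, 0, 0), 0))) (ι d) := by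
  obtain ⟨α, h1, h2, h3, h4⟩ := F.fc _ (r.mA ((1, 1, 0), 0)) (by_contra fun e => absurd
    ((r.dr F _).1 ⟨mt r.eq_zero (by decide), e⟩) (by decide +kernel))
  obtain ⟨d, hd, e⟩ := h1 _ (r.mA ((w4, 0, 0), 0))
  refine ⟨d, hd, ?_, ?_, e ▸ (h4 d hd).symm⟩
  · rw [F.dl (h4 d hd), e, r.dr F]
    decide +kernel
  · rw [F.dl (h4 _ (mul_mem hd r.zA)), h2 _ hd _ r.zA, e, h3, ← r.add, r.dr F]
    decide +kernel

theorem step2 (hij : i ≠ j) : ∃ a ∈ A, Commute a x ∧ Ov h w a i j ∧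
    IsConj (ι (R ((w4, 0, 0), 0))) (ι a) ∧ ∀ (c d : K4) k,
      Dl ι z (a * R (c • hcv i + d • hcv j, k)) ↔ k = nm4 c + nm4 d := by
  obtain ⟨d, hd, h1, h2, h3⟩ := r.step1 F
  obtain ⟨a, ha, hx, e⟩ := r.exists_x r.toXS i j
  obtain ⟨k, hk, h4⟩ := r.tr d hd (fun e => h2 (r.dq F hd e h1)) a ha (r.notQ e hij)
  obtain ⟨s, h5⟩ := r.sur (mul_mem (inv_mem ha) (LocalEven.conj_mem_of_mem_normalizer hk hd)) h4
  rw [inv_mul_eq_iff_eq_mul] at h5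
  by_cases hs : bp s.1 (cr3 (hcv i) (hcv j)) = 0
  swap
  · obtain ⟨q, hq⟩ := r.m1 ha hx e hs
    rw [F.dz k, h5, ← hq, ← F.dl (cj_h ι q _), ← h5, ← F.dl (cj_h ι k _)] at h2
    exact absurd h1 h2
  obtain ⟨c, c', e1⟩ := cr_span i j hij _ hs
  obtain ⟨q, hq⟩ := r.m2 ha hx e hij c c' s.2
  rw [← e1, ← h5] at hq
  generalize s.2 + _ = k' at hq
  have h6 : Commute (a * R (0, k')) x := hx.mul_left (Commute.symm (Inv.commute_iff_conj.2 (by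
    rw [r.cx, smul_zero])))
  have h7 : Ov h w (a * R (0, k')) i j := by
    have := r.ac_mul e (ac_Q (r.mQ (0, k')))
    rwa [zero_add] at this
  have h8 := mul_mem ha (r.mA (0, k'))
  rw [F.dz k, F.dz q, hq] at h2
  rw [F.dl (cj_h ι k _), F.dl (cj_h ι q _), hq] at h1
  refine ⟨_, h8, h6, h7, hq ▸ (h3.trans (cj_h ι k _)).trans (cj_h ι q _), fun c d k => ?_⟩
  obtain ⟨q, hq⟩ := r.m2 h8 h6 h7 hij c d k
  rw [F.dl (cj_h ι q _), hq]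
  rcases (by decide : ∀ k e : ZMod 2, k = e ∧ k + e = 0 ∨ k ≠ e ∧ k + e = 1) k (nm4 c + nm4 d) with
    e | e <;> rw [e.2]
  · exact iff_of_true (by rwa [show ((0, 0) : C3 × ZMod 2) = 0 from rfl, r.zero, mul_one]) e.1
  · exact iff_of_false (by rwa [r.rz]) e.1

omit F in
theorem ex_ov (ha : a ∈ A) (hq : a ∉ Q) : ∃ i j, i ≠ j ∧ Ov h w a i j := by
  obtain ⟨i, j, e⟩ := r.ov a ha
  refine ⟨i, j, fun e' => hq (Ac.memQ (h := h) (w := w) ?_), e⟩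
  subst e'
  exact (funext fun l => c3_two _ : tm3 i i = 0) ▸ e

theorem step4 (ha : a ∈ A) (hx : Commute a x) (e : Ov h w a i j) (hij : i ≠ j)
    (hs : bp s.1 (cr3 (hcv i) (hcv j)) ≠ 0) : ¬ Dl ι z (a * R s) := fun hd => by
  have h1 : ∀ b ∈ A, ¬ Dl ι z b → ¬ Dl ι z (b * z) → b ∈ Q := fun b hb b1 b2 => by_contra fun hq => by
    obtain ⟨k, l, hkl, e1⟩ := r.ex_ov hb hq
    obtain ⟨a', ha', hx', e', -, h2⟩ := r.step2 F hkl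
    have h3 : ∀ t : C3 × ZMod 2, (Dl ι z (a' * R t) ↔ Dl ι z (a' * R t * z)) →
        bp t.1 (cr3 (hcv k) (hcv l)) ≠ 0 := fun t e1 e2 => by
      obtain ⟨c, d, e3⟩ := cr_span k l hkl _ e2
      rw [mul_assoc, r.mz, ← Prod.mk.eta (p := t), e3, h2, h2] at e1
      exact (by decide : ∀ a b : ZMod 2, ¬ (a = b ↔ a + 1 = b)) _ _ e1
    obtain ⟨t, rfl⟩ := r.ovr ha' hb e' e1
    obtain ⟨m, hm, h4⟩ := r.tr _ (mul_mem ha (r.mA s)) (fun e2 => r.notQ e hij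
      ((mul_mem_cancel_right (r.mQ s)).1 e2)) a' ha' (r.notQ e' hkl)
    obtain ⟨t', h5⟩ := r.sur (mul_mem (inv_mem ha') (LocalEven.conj_mem_of_mem_normalizer hm
      (mul_mem ha (r.mA s)))) h4
    rw [inv_mul_eq_iff_eq_mul] at h5
    obtain ⟨q, hq⟩ := r.m1 ha hx e hs
    obtain ⟨g, hg⟩ := r.m3 ha' hx' e' hkl (h3 t' (by
      rw [← h5, ← F.dz, ← hq, ← F.dl (cj_h ι m _), ← F.dl (cj_h ι q _)])) (h3 t (iff_of_false b1 b2))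
    rw [F.dl (cj_h ι m _), h5, F.dl (cj_h ι g _)] at hd
    exact hg.elim (fun e => b1 (e ▸ hd)) fun e => b2 (e ▸ hd)
  obtain ⟨α, h2, h3, h4, h5⟩ := F.fc _ (r.mA ((1, 1, 0), 0)) (by_contra fun e => absurd
    ((r.dr F _).1 ⟨mt r.eq_zero (by decide), e⟩) (by decide +kernel))
  have h6 : ∀ a ∈ A, ∀ t, α a = R t → (Dl ι z a ↔ Hy t.1) ∧ (Dl ι z (a * z) ↔ Hy (t.1 + (1, 1, 0))) :=
    fun a ha t e => ⟨by rw [F.dl (h5 a ha), e, r.dr F], by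
      rw [F.dl (h5 _ (mul_mem ha r.zA)), h3 _ ha _ r.zA, e, h4, ← r.add, r.dr F]; rfl⟩
  obtain ⟨y, hy, e1⟩ := h2 _ (r.mA ((1, 0, 1), 0))
  obtain ⟨y', hy', e2⟩ := h2 _ (r.mA ((1 + w4, 0, 1), 0))
  have h7 := h6 _ (mul_mem hy hy') _ (by rw [h3 _ hy _ hy', e1, e2, ← r.add])
  exact absurd (h7.2.1 (r.dq F (mul_mem hy hy') (mul_mem
    (h1 y hy (mt (h6 y hy _ e1).1.1 (by decide +kernel)) (mt (h6 y hy _ e1).2.1 (by decide +kernel)))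
    (h1 y' hy' (mt (h6 y' hy' _ e2).1.1 (by decide +kernel)) (mt (h6 y' hy' _ e2).2.1 (by decide +kernel))))
    (h7.1.2 (by decide +kernel)))) (by decide +kernel)

end RM

/-- the distinguished involutions outside the extraspecial group -/
structure DD (r : RM h A w x R) (ι : H →* G) (a : H) (i j : Fin 6) : Prop where
  m : a ∈ A
  c : Commute a x
  o : Ov h w a i j
  k : IsConj (ι (R ((w4, 0, 0), 0))) (ι a)
  d : ∀ s, Dl ι z (a * R s) ↔ sg3 i j s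

namespace RM
variable (r : RM h A w x R) (F : FZ h A ι)
include r F

theorem exists_dd (hij : i ≠ j) : ∃ a, DD r ι a i j := by
  obtain ⟨a, ha, hx, e, h1, h2⟩ := r.step2 F hij
  refine ⟨a, ha, hx, e, h1, fun s => ?_⟩
  by_cases hs : bp s.1 (cr3 (hcv i) (hcv j)) = 0
  · obtain ⟨c, d, e1⟩ := cr_span i j hij _ hs
    rw [← Prod.mk.eta (p := s), e1, h2, sg_iff hij]
  · refine iff_of_false (r.step4 F ha hx e hij hs) fun ⟨c, d, e1⟩ => hs ?_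
    rw [e1, bp_left, (cr_zero i j).1, (cr_zero i j).2, mul_zero, mul_zero, add_zero]

theorem all_conj (ha : a ∈ A) (hd : Dl ι z a) : IsConj (ι (R ((w4, 0, 0), 0))) (ι a) := by
  by_cases hq : a ∈ Q
  · have h1 : ∀ {a}, a ∈ A → a ∈ Q → Dl ι z a → Iv Q z a ∧ ¬ PV (im φ M) (tp h.S.hB (χ a)) :=
      fun {a} ha hq hd => have : Iv Q z a := ⟨hq, r.sq a ha, hd.1, fun e => hd.2 (e ▸ IsConj.refl _)⟩
        ⟨this, mt (F.zp a this).2 hd.2⟩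
    have h2 := h1 (r.mA _) (r.mQ _) ((r.dr F ((w4, 0, 0), 0)).2 (by decide +kernel))
    obtain ⟨m, -, rfl⟩ := h.mconj h2.1 (h1 ha hq hd).1 (iff_of_false h2.2 (h1 ha hq hd).2)
    exact cj_h ..
  · obtain ⟨i, j, hij, e⟩ := r.ex_ov ha hq
    obtain ⟨b, D⟩ := r.exists_dd F hij
    obtain ⟨s, rfl⟩ := r.ovr D.m ha D.o e
    obtain ⟨c, d, rfl⟩ := (D.d s).1 hd
    obtain ⟨q, hq⟩ := r.m2 D.m D.c D.o hij c d (nm4 c + nm4 d)
    rw [CharTwo.add_self_eq_zero, show ((0, 0) : C3 × ZMod 2) = 0 from rfl, r.zero, mul_one] at hq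
    exact D.k.trans ((congrArg (IsConj _ <| ι ·) hq).mp (cj_h ι q _)).symm

theorem inQ (ha : a ∈ A) (h1 : Dl ι z a) (h2 : Dl ι z (a * z)) : ∃ s, a = R s := by
  refine r.sur ha (by_contra fun hq => ?_)
  obtain ⟨i, j, hij, e⟩ := r.ex_ov ha hq
  obtain ⟨b, D⟩ := r.exists_dd F hij
  obtain ⟨s, rfl⟩ := r.ovr D.m ha D.o e
  obtain ⟨c, d, rfl⟩ := (D.d s).1 h1
  rw [mul_assoc, r.mz, D.d, sg_iff hij] at h2
  exact one_ne_zero (add_eq_left.1 h2)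

theorem tet (hy : y ∈ A) (h1 : y ≠ 1) (h2 : ¬ Dl ι z y) {c : H} (ha : a ∈ A) (hb : b ∈ A) (hc : c ∈ A)
    (a1 : Dl ι z a) (a2 : Dl ι z (a * y)) (b1 : Dl ι z b) (b2 : Dl ι z (b * y)) (e : Dl ι z (a * b)) :
    Dl ι z (a * b * y) ∧ (Dl ι z c → Dl ι z (c * y) → Dl ι z (a * c) →
      Dl ι z (b * c) ∨ b * c = 1 ∨ b * c = y) := by
  obtain ⟨α, h4, h3, rfl, h5⟩ := F.fc _ hy (by_contra fun e => h2 ⟨h1, e⟩)
  obtain ⟨a, ha', rfl⟩ := h4 a ha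
  obtain ⟨b, hb', rfl⟩ := h4 b hb
  obtain ⟨c, hc', rfl⟩ := h4 c hc
  clear ha hb hc
  rename' ha' => ha, hb' => hb, hc' => hc
  have z1 := r.zA
  have h6 : ∀ {a}, a ∈ A → (Dl ι z (α a) ↔ Dl ι z a) := fun ha => (F.dl (h5 _ ha)).symm
  rw [h6 ‹_›] at a1 b1
  rw [← h3 _ ‹_› _ ‹_›, h6 (mul_mem ‹_› ‹_›)] at a2 b2 e
  rw [h6 hc, ← h3 _ hc _ z1, ← h3 _ ha _ hb, ← h3 _ ha _ hc, ← h3 _ hb _ hc, ← h3 _ (mul_mem ha hb) _ z1,
    h6 (mul_mem hc z1), h6 (mul_mem ha hc), h6 (mul_mem hb hc), h6 (mul_mem (mul_mem ha hb) z1)]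
  obtain ⟨s, rfl⟩ := r.inQ F ha a1 a2
  obtain ⟨t, rfl⟩ := r.inQ F hb b1 b2
  refine ⟨r.dq F (mul_mem ha hb) (mul_mem (r.mQ _) (r.mQ _)) e, fun c1 c2 e' => ?_⟩
  obtain ⟨u, rfl⟩ := r.inQ F hc c1 c2
  simp only [← r.add, r.dr F] at *
  refine (hy3 a1 b1 c1 e e').imp id fun e => ?_
  rcases (h.zero _ (r.mQ (t + u))).1 (by rw [r.chi, Prod.fst_add, e, map_zero]) with e | e <;> rw [e]
  · exact .inl ((map_eq_one_iff ι F.inj).1 (isConj_one_right.1 (map_one ι ▸ h5 1 (one_mem _))))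
  · exact .inr rfl

end RM

end Cfsg.Agent.LF
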