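import Cfsg.Agent.Fischer.LR
import Cfsg.Agent.LocalEven.WeakCl
import Cfsg.Agent.Transfer.ThompsonJ

/-! The Thompson subgroup of a Sylow `2`-subgroup of the whole group. -/

set_option autoImplicit false
set_option linter.unusedSectionVars false
set_option linter.unusedVariables false

namespace Cfsg.Agent.LF
open Subgroup Module Cfsg.Agent.Comp Cfsg.Agent.FiC Cfsg.Agent.Herm Cfsg.Agent.Fischer.U6
  Cfsg.Agent.Fischer Cfsg.Agent.LocalEven

variable {G : Type*} [Group G] [Finite G] {z : G} {Q : Subgroup (centralizer ({z} : Set G))}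

theorem j_fus (T : Sylow 2 G) {J : Subgroup G} (hJ : thompsonSubgroupOf 2 (T : Subgroup G) = J)
    (hc : ∀ a ∈ J, ∀ b ∈ J, Commute a b) {a : G} (ha : a ∈ J) (g : G) (hg : g * a * g⁻¹ ∈ J) :
    ∃ m ∈ normalizer (J : Set G), m * a * m⁻¹ = g * a * g⁻¹ := by
  have : Fact (Nat.Prime 2) := ⟨Nat.prime_two⟩
  have w : WC 2 J := hJ ▸ wc_of_sylow (isSylowIn_top T) (Transfer.thompsonSubgroupOf_le _)
    fun g => Transfer.conj_smul_thompsonSubgroupOf_eq_of_le
  obtain ⟨k, hk, e⟩ := w.exists_conj (K := centralizer {a}) (g := g⁻¹)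
    (fun b hb => mem_centralizer_singleton_iff.2 (hc b hb a ha)) fun b hb =>
      mem_centralizer_singleton_iff.2 (by simpa [mul_assoc] using ((hc _ (mem_cj_inv.1 hb) _ hg).conj g⁻¹).eq)
  refine ⟨g * k, cj_eq_self_iff.1 (by rw [cj_mul, ← e, cj_cj_inv]), ?_⟩
  rw [mul_assoc g, mem_centralizer_singleton_iff.1 hk]
  group

theorem exists_setup [Q.Normal] (hF : IsOfLargeFischerTypeAt z Q) (T : Sylow 2 G) :
    ∃ (N M L : Subgroup (centralizer ({z} : Set G))) (V : Type) (_ : AddCommGroup V) (_ : Module K4 V)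
      (_ : FiniteDimensional K4 V) (B : V →ₛₗ[s4] V →ₗ[K4] K4) (χ : _ → V) (φ : L →* SUG B)
      (h : FT Q N M L (zz z) B χ φ) (A : Subgroup (centralizer ({z} : Set G))) (w : V × V × V), ∃ x R,
      ∃ ι : centralizer ({z} : Set G) →* G, RM h A w x R ∧ FZ h A ι ∧
        thompsonSubgroupOf 2 (T : Subgroup G) = A.map ι ∧ IsConj z (ι (zz z)) ∧
        ∀ g, Commute g (ι (zz z)) → g ∈ ι.range := by
  have : Fact (Nat.Prime 2) := ⟨Nat.prime_two⟩
  obtain ⟨N, M, h⟩ := st_of hF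
  obtain ⟨V, _, _, B, χ, L, φ, h⟩ := h.exists_ft
  have := h.S.fd
  obtain ⟨s, R, h1, h2, h3⟩ := exists_rr hF
  obtain ⟨S⟩ : Nonempty (Sylow 2 (centralizer ({z} : Set G))) := inferInstance
  obtain ⟨A, w, c, h4, h5⟩ := h.exists_as (h.L_le h1 h2) S
  obtain ⟨x, X⟩ := h.exists_xs
  obtain ⟨R, r⟩ := c.exists_rm X
  obtain ⟨l, -⟩ := MT.ls_of_setting hF.1
  have h6 := isSylowIn_map S
  have h7 : Q.map (Subgroup.subtype _) ≤ (S : Subgroup _).map (Subgroup.subtype _) :=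
    map_mono ((IsPGroup.of_card h.cQ).le_sylow_of_normal S)
  obtain ⟨g, -, hg⟩ := (IsSylowIn.of_normalizer (H := ⊤) (h6.mono (le_inf le_top le_normalizer)
    fun n hn => by
      have h8 : ∀ q ∈ Q.map (Subgroup.subtype _), Commute (n * z * n⁻¹) q := fun q hq =>
        (PLocal.commute_cj_iff ..).2 (mem_centralizer_singleton_iff.1
          (h6.le (inv_conj_mem_of_mem_normalizer hn.2 (h7 hq)))).symm
      exact mem_centralizer_singleton_iff.2 (mul_inv_eq_iff_eq_mul.1 ((l.cent _ (l.cmem _ h8) h8).resolve_left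
        fun e => l.ne (conj_eq_one_iff.1 e))))).conj (isSylowIn_top T)
  let ι := (MulAut.conj g).toMonoidHom.comp (centralizer ({z} : Set G)).subtype
  have hι : Function.Injective ι := (MulAut.conj g).injective.comp (subtype_injective _)
  have hc : ∀ a b, IsConj (ι a) (ι b) ↔ IsConj a.1 b.1 := fun a b =>
    have : ∀ a, IsConj a.1 (ι a) := fun a => isConj_iff.2 ⟨g, rfl⟩
    ⟨fun e => ((this a).trans e).trans (this b).symm, fun e => ((this a).symm.trans e).trans (this b)⟩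
  have hJ : thompsonSubgroupOf 2 (T : Subgroup G) = A.map ι := by
    have h8 : A ∈ Transfer.MaxEA 2 (S : Subgroup _) := ⟨h4, elem_of_sq c.sq, fun X e1 e2 =>
      (le_total _ _).elim id fun e' => (h5 X e1 (fun a ha => (pow_two a).symm.trans (e2.2 a ha))
        (c.card.ge.trans e')).symm ▸ le_rfl⟩
    rw [← hg, show cj g _ = _ from Subgroup.map_map .., ← Transfer.map_thompsonSubgroupOf_of_injective _ hι]
    exact congrArg _ (le_antisymm (Transfer.thompsonSubgroupOf_le_iff.2 fun X e => (h5 X e.1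
      (fun a ha => (pow_two a).symm.trans (e.2.1.2 a ha)) (c.card.ge.trans (e.2.2 A h4 h8.2.1))).le)
      (Transfer.le_thompsonSubgroupOf h8))
  refine ⟨N, M, L, V, _, _, this, B, χ, φ, h, A, w, x, R, ι, r, ⟨hι, fun a ha => (hc _ _).trans
    ⟨fun e => ?_, fun e => ?_⟩, fun y hy e => ?_⟩, hJ, isConj_iff.2 ⟨g, rfl⟩, fun k hk =>
      ⟨⟨g⁻¹ * k * g, mem_centralizer_singleton_iff.2 ((PLocal.commute_cj_iff ..).1 hk.symm).symm⟩,
        by simp [ι, mul_assoc]⟩⟩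
  · obtain ⟨k, hk⟩ := isConj_iff.1 e
    exact h.pv_of ha (rr_of hF ha.1 (fun e => ha.2.2.2 (Subtype.ext e)) hk).2.2
  · obtain ⟨m, -, rfl⟩ := h.mconj h1 ha (iff_of_true (h.pv_of h1 h2) e)
    exact h3.trans (isConj_iff.2 ⟨m, rfl⟩)
  · obtain ⟨k, hk⟩ := isConj_iff.1 e
    obtain ⟨m, hm, e⟩ := j_fus T hJ (by
      rintro _ ⟨a, ha, rfl⟩ _ ⟨b, hb, rfl⟩
      exact (c.com ha hb).map ι) ⟨_, c.zA, rfl⟩ k ⟨y, hy, hk.symm⟩
    have h8 : ∀ a ∈ A, ι (Function.invFun ι (m * ι a * m⁻¹)) = m * ι a * m⁻¹ := fun a ha =>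
      Function.invFun_eq ((conj_mem_of_mem_normalizer hm ⟨a, ha, rfl⟩).imp fun _ e => e.2)
    refine ⟨fun a => Function.invFun ι (m * ι a * m⁻¹), fun b hb => ?_, fun a ha b hb => hι ?_,
      hι ((h8 _ c.zA).trans (e.trans hk)), fun a ha => isConj_iff.2 ⟨m, (h8 a ha).symm⟩⟩
    · obtain ⟨a, ha, e⟩ := inv_conj_mem_of_mem_normalizer hm ⟨b, hb, rfl⟩
      exact ⟨a, ha, hι (by rw [h8 a ha, e]; group)⟩
    · rw [map_mul, h8 a ha, h8 b hb, h8 _ (mul_mem ha hb), map_mul, conj_mul]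

end Cfsg.Agent.LF
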