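import Cfsg.Agent.Golay.Codes
import Cfsg.Agent.Golay.M24Order

/-! A group acting on the even half of the Golay cocode and keeping the duads. -/

set_option autoImplicit false
set_option linter.unusedSectionVars false
set_option linter.unusedVariables false

namespace Cfsg.Agent.LF
open Subgroup Cfsg.Agent.Golay

/-- the word of a pair of points -/
def dw (p q : GolayPt) : GolayPt → ZMod 2 := Pi.single p 1 + Pi.single q 1

variable {a b c d e f p q x : GolayPt}

theorem dw_comm (p q : GolayPt) : dw p q = dw q p := add_comm ..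

theorem dw_self (p : GolayPt) : dw p p = 0 := add_self₂ _

theorem dw_add (c p q : GolayPt) : dw c p + dw c q = dw p q := by
  rw [dw, dw, add_add_add_comm, add_self₂, zero_add, dw]

theorem dw_ne (h : dw p q x ≠ 0) : x = p ∨ x = q := by
  by_contra! n
  simp [dw, n] at h

theorem dw_left (h : p ≠ q) : dw p q p = 1 := by simp [dw, h]

theorem dw_sum (p q : GolayPt) : ∑ x, dw p q x = 0 := by
  simp [dw, Finset.sum_add_distrib, CharTwo.add_self_eq_zero]

theorem dw_meet (h1 : a ≠ b) (h2 : c ≠ d) (h : dw a b + dw c d = dw e f) :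
    a = c ∨ a = d ∨ b = c ∨ b = d := by
  by_contra! n
  have k : ∀ x, dw a b x + dw c d x ≠ 0 → x = e ∨ x = f := fun x hx => dw_ne (h ▸ hx)
  have k1 := k a (by simp [dw, *])
  have k2 := k b (by simp [dw, h1.symm, n])
  have k3 := k c (by simp [dw, h2, n.1.symm, n.2.2.1.symm])
  grind

theorem dw_pair (h : a ≠ b) : dw c d = dw a b ↔ ({c, d} : Set GolayPt) = {a, b} := by
  rw [Set.pair_eq_pair_iff]
  refine ⟨fun e => ?_, ?_⟩
  · have k1 := dw_ne (x := a) (e ▸ dw_left h ▸ one_ne_zero)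
    have k2 := dw_ne (x := b) (e ▸ dw_comm a b ▸ dw_left h.symm ▸ one_ne_zero)
    grind
  · rintro (⟨rfl, rfl⟩ | ⟨rfl, rfl⟩)
    exacts [rfl, dw_comm ..]

theorem dw_small (h : dw a b + dw c d + dw e f ∈ golayCode) : dw a b + dw c d = dw e f := by
  have h1 : ∀ p q, hammingNorm (dw p q) ≤ 2 := by decide +kernel
  have h2 := norm_add₂ (dw a b + dw c d) (dw e f)
  have h3 := norm_add₂ (dw a b) (dw c d)
  have := mt (golay_min _ h) (by have := h1 a b; have := h1 c d; have := h1 e f; omega)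
  rw [← sub_eq_zero, sub_eq_add₂]
  exact not_not.1 this

theorem dw_ind (P : (GolayPt → ZMod 2) → Prop) (h1 : ∀ u v, P u → P v → P (u + v))
    (h2 : ∀ p q, P (dw p q)) (u : GolayPt → ZMod 2) (hu : ∑ x, u x = 0) : P u := by
  have : ∀ u : GolayPt → ZMod 2, P (u + (∑ x, u x) • Pi.single none 1) := fun u => by
    refine Pi.single_induction (fun u : GolayPt → ZMod 2 => P (u + (∑ x, u x) • Pi.single none 1)) u
      (by simpa [dw_self] using h2 none none) (fun u v hu hv => ?_) fun i m => ?_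
    · simpa [Finset.sum_add_distrib, add_smul, add_add_add_comm] using h1 _ _ hu hv
    · rcases zmod2_cases m with rfl | rfl
      exacts [by simpa [dw_self] using h2 none none, by simpa [dw] using h2 i none]
  simpa [hu] using this u

theorem golay_even {u : GolayPt → ZMod 2} (hu : u ∈ golayCode) : ∑ x, u x = 0 := by
  refine Submodule.span_induction ?_ (by simp) (fun u v _ _ h1 h2 => by
    simp [Finset.sum_add_distrib, h1, h2]) (fun a u _ h => by simp [← Finset.mul_sum, h]) hu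
  rintro _ (⟨t, rfl⟩ | rfl)
  · revert t; decide +kernel
  · decide +kernel

theorem dw_star (f : GolayPt → GolayPt → GolayPt → ZMod 2)
    (h1 : ∀ p q, ∃ s t, f p q = dw s t ∧ (p ≠ q → s ≠ t))
    (h2 : ∀ a b c d e k, dw a b + dw c d = dw e k ↔ f a b + f c d = f e k) :
    ∃ σ : Equiv.Perm GolayPt, ∀ p q, f p q = dw (σ p) (σ q) := by
  have h3 : ∀ p q, f none p + f none q = f p q := fun p q => (h2 ..).1 (dw_add ..)
  have h4 : ∀ {q q' s t s' t'}, s ≠ t → s' ≠ t' → f none q = dw s t → f none q' = dw s' t' →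
      s = s' ∨ s = t' ∨ t = s' ∨ t = t' := fun {q q' s t s' t'} e1 e2 e3 e4 => by
    obtain ⟨_, _, e, -⟩ := h1 q q'
    exact dw_meet e1 e2 (e3 ▸ e4 ▸ (h3 q q').trans e)
  obtain ⟨c, x, y, hx, hy, e1, e2⟩ : ∃ c x y, c ≠ x ∧ c ≠ y ∧ f none (some 0) = dw c x ∧
      f none (some 1) = dw c y := by
    obtain ⟨s, t, e1, e2⟩ := h1 none (some 0)
    obtain ⟨s', t', e3, e4⟩ := h1 none (some 1)
    have e2 := e2 nofun
    have e4 := e4 nofun
    rcases h4 e2 e4 e1 e3 with rfl | rfl | rfl | rfl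
    exacts [⟨_, _, _, e2, e4, e1, e3⟩, ⟨_, _, _, e2, e4.symm, e1, e3.trans (dw_comm ..)⟩,
      ⟨_, _, _, e2.symm, e4, e1.trans (dw_comm ..), e3⟩,
      ⟨_, _, _, e2.symm, e4.symm, e1.trans (dw_comm ..), e3.trans (dw_comm ..)⟩]
  have h0 : ∀ p, f p p = 0 := fun p => (h3 p p).symm.trans (add_self₂ _)
  have h5 : x ≠ y := fun e => absurd ((h2 none (some 0) none (some 1) none none).2 (by
    rw [e1, e2, e, h0, add_self₂])) (by decide +kernel)
  have h6 : ∀ q, ∃ s, f none q = dw c s := fun q => by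
    by_cases hq : none = q
    · exact ⟨c, hq ▸ (h0 _).trans (dw_self c).symm⟩
    obtain ⟨s, t, e, e'⟩ := h1 none q
    by_cases hs : s = c
    · exact ⟨t, hs ▸ e⟩
    by_cases ht : t = c
    · exact ⟨s, ht ▸ e.trans (dw_comm ..)⟩
    have k1 := h4 (e' hq) hx e e1
    have k2 := h4 (e' hq) hy e e2
    have k3 := congrFun ((h2 none (some 0) none (some 1) none q).2 (by
      rw [e1, e2, e, dw_add]
      exact ((dw_pair h5).2 (Set.pair_eq_pair_iff.2 (by grind))).symm)) none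
    rw [dw_left hq, dw_add] at k3
    exact absurd k3 (by decide +kernel)
  choose σ hσ using h6
  have h7 : ∀ p q, f p q = dw (σ p) (σ q) := fun p q => by rw [← h3, hσ, hσ, dw_add]
  refine ⟨Equiv.ofBijective σ (Finite.injective_iff_bijective.1 fun p q e => by_contra fun n => ?_), h7⟩
  obtain ⟨s, t, e1, e2⟩ := h1 p q
  have := dw_left (e2 n)
  rw [← e1, h7, e, dw_self] at this
  exact zero_ne_one this

theorem dw_uniq {σ τ : Equiv.Perm GolayPt} (h : ∀ p q, dw (σ p) (σ q) = dw (τ p) (τ q)) : σ = τ := by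
  ext1 p
  obtain ⟨q, h1, h2⟩ := (by decide +kernel : ∀ p p' : GolayPt, ∃ q, p ≠ q ∧ p' ≠ q) p (τ.symm (σ p))
  exact (dw_ne (h p q ▸ dw_left (σ.injective.ne h1) ▸ one_ne_zero)).resolve_right fun e =>
    h2 (τ.symm_apply_eq.2 e)

/-- the even half of the cocode in a group -/
structure GI {G : Type*} [Group G] (J : Subgroup G) (D : G → Prop) (E : (GolayPt → ZMod 2) → G) :
    Prop where
  add : ∀ u v, E (u + v) = E u * E v
  mem : ∀ u, E u ∈ J
  ker : ∀ u, ∑ p, u p = 0 → (E u = 1 ↔ u ∈ golayCode)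
  sur : ∀ a ∈ J, ∃ u, ∑ p, u p = 0 ∧ a = E u
  du : ∀ a ∈ J, D a ↔ ∃ p q, p ≠ q ∧ a = E (dw p q)

theorem quot_of {K Γ : Type*} [Group K] [Group Γ] (f : K →* Γ) {X : Subgroup K} {Y : Subgroup Γ}
    (h1 : f.ker = X) (h2 : f.range = Y) : ∃ _ : X.Normal, Nonempty (K ⧸ X ≃* Y) := by
  subst h1 h2
  exact ⟨inferInstance, ⟨QuotientGroup.quotientKerEquivRange f⟩⟩

namespace GI
variable {G : Type*} [Group G] [Finite G] {J : Subgroup G} {D : G → Prop} {E : (GolayPt → ZMod 2) → G}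
  (k : GI J D E)
include k

theorem zero : E 0 = 1 := by simpa using k.add 0 0

theorem eq3 (h : E (dw a b) * E (dw c d) = E (dw e f)) : dw a b + dw c d = dw e f :=
  dw_small ((k.ker _ (by simp only [Pi.add_apply, Finset.sum_add_distrib, dw_sum, add_zero])).1 (by
    rw [k.add, k.add, h, ← k.add, add_self₂, k.zero]))

theorem eq2 (h : E (dw a b) = E (dw c d)) : dw a b = dw c d := by
  simpa [dw_self] using k.eq3 (c := a) (d := a) (by rwa [dw_self, k.zero, mul_one])

theorem theta (hD : ∀ g a, D a → D (g * a * g⁻¹)) :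
    ∃ Θ : normalizer (J : Set G) →* Equiv.Perm GolayPt, Θ.range ≤ M24 ∧
      (∀ g p q, g.1 * E (dw p q) * g.1⁻¹ = E (dw (Θ g p) (Θ g q))) ∧
      ∀ g, Θ g = 1 ↔ g.1 ∈ centralizer (J : Set G) := by
  have h1 : ∀ g : normalizer (J : Set G), ∃ σ : Equiv.Perm GolayPt,
      ∀ p q, g.1 * E (dw p q) * g.1⁻¹ = E (dw (σ p) (σ q)) := fun g => by
    have : ∀ p q, ∃ u, g.1 * E (dw p q) * g.1⁻¹ = E u ∧ ∃ s t, u = dw s t ∧ (p ≠ q → s ≠ t) :=
      fun p q => by
        by_cases e : p = q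
        · exact ⟨0, by simp [e, dw_self, k.zero], p, p, (dw_self p).symm, absurd e⟩
        obtain ⟨s, t, e1, e2⟩ := (k.du _ ((mem_normalizer_iff.1 g.2 _).1 (k.mem _))).1
          (hD g _ ((k.du _ (k.mem _)).2 ⟨p, q, e, rfl⟩))
        exact ⟨_, e2, s, t, rfl, fun _ => e1⟩
    choose f h1 h2 using this
    obtain ⟨σ, hσ⟩ := dw_star f h2 fun a b c d e l => ⟨fun e1 => by
      obtain ⟨_, _, e2, -⟩ := h2 a b
      obtain ⟨_, _, e3, -⟩ := h2 c d
      obtain ⟨_, _, e4, -⟩ := h2 e l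
      rw [e2, e3, e4]
      refine k.eq3 ?_
      rw [← e2, ← e3, ← e4, ← h1, ← h1, ← h1, conj_mul, ← k.add, e1],
      fun e1 => k.eq3 (conj_injective (x := g.1) (by
        beta_reduce
        rw [← conj_mul, h1, h1, h1, ← k.add, e1]))⟩
    exact ⟨σ, fun p q => (h1 p q).trans (congrArg E (hσ p q))⟩
  choose θ hθ using h1
  refine ⟨MonoidHom.mk' θ fun g g' => dw_uniq fun p q => k.eq2 (by
    rw [← hθ, Equiv.Perm.mul_apply, Equiv.Perm.mul_apply, ← hθ, ← hθ]
    simp [mul_assoc]), ?_, hθ, fun g => ⟨fun e a ha => ?_, fun e => dw_uniq fun p q => k.eq2 ?_⟩⟩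
  · rintro _ ⟨g, rfl⟩
    refine (mem_M24_iff _).2 fun s hs => ?_
    rw [mem_CW_iff] at hs ⊢
    have h1 := golay_even hs
    rw [MonoidHom.mk'_apply, ind_smul, ← k.ker _ ((Equiv.sum_comp _ _).trans h1),
      ← dw_ind (fun u => g.1 * E u * g.1⁻¹ = E fun p => u ((θ g).symm p)) (fun u v hu hv => by
        rw [k.add, ← conj_mul, hu, hv, ← k.add]; rfl) (fun p q => (hθ g p q).trans (congrArg E
          (funext fun x => by simp [dw, Pi.single_apply, Equiv.symm_apply_eq]))) _ h1,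
      (k.ker _ h1).2 hs, mul_one, mul_inv_cancel]
  · obtain ⟨u, hu, rfl⟩ := k.sur a ha
    refine (mul_inv_eq_iff_eq_mul.1 (dw_ind (fun u => g.1 * E u * g.1⁻¹ = E u) (fun u v hu hv => by
      rw [k.add, ← conj_mul, hu, hv]) (fun p q => (hθ g p q).trans ?_) u hu)).symm
    rw [show θ g = 1 from e]; rfl
  · exact (hθ g p q).symm.trans (mul_inv_eq_iff_eq_mul.2 (e _ (k.mem _)).symm)

theorem count {y : G} (h : ∀ a ∈ J, a ≠ 1 → ¬ D a → ∃ m ∈ normalizer (J : Set G), m * y * m⁻¹ = a) :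
    Nat.card J ≤ ((centralizer {y}).subgroupOf (normalizer (J : Set G))).index + 276 + 1 := by
  obtain ⟨S, h1, h2⟩ : ∃ S : Finset (GolayPt × GolayPt), S.card = 276 ∧
      ∀ p q, p ≠ q → (p, q) ∈ S ∨ (q, p) ∈ S :=
    ⟨Finset.univ.filter fun x => x.1.elim 23 ZMod.val < x.2.elim 23 ZMod.val, by decide +kernel, by
      simp only [Finset.mem_filter, Finset.mem_univ, true_and]; decide +kernel⟩
  refine (Set.ncard_le_ncard (t := insert 1 ((fun c : _ ⧸ (centralizer {y}).subgroupOf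
    (normalizer (J : Set G)) => c.out.1 * y * c.out.1⁻¹) '' Set.univ ∪
      (fun x => E (dw x.1 x.2)) '' (S : Set (GolayPt × GolayPt)))) fun a ha => ?_).trans
    ((Set.ncard_insert_le ..).trans (Nat.succ_le_succ ((Set.ncard_union_le ..).trans
      (add_le_add ((Set.ncard_image_le).trans (Set.ncard_univ _).le)
        ((Set.ncard_image_le).trans ((Set.ncard_coe_finset S).trans h1).le)))))
  refine or_iff_not_imp_left.2 fun e => or_iff_not_imp_right.2 fun e' => ?_
  obtain ⟨m, hm, rfl⟩ := h a ha e fun hd => e' (by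
    obtain ⟨p, q, e1, rfl⟩ := (k.du a ha).1 hd
    exact (h2 p q e1).elim (fun e => ⟨_, e, rfl⟩) fun e => ⟨_, e, congrArg E (dw_comm ..)⟩)
  obtain ⟨n, e⟩ := QuotientGroup.mk_out_eq_mul ((centralizer {y}).subgroupOf (normalizer (J : Set G))) ⟨m, hm⟩
  refine ⟨QuotientGroup.mk ⟨m, hm⟩, trivial, ?_⟩
  beta_reduce
  rw [e, Subgroup.coe_mul, mul_assoc m, show n.1.1 * y = _ from mem_centralizer_singleton_iff.1 n.2]
  simp [mul_assoc]

theorem main (hD : ∀ g a, D a → D (g * a * g⁻¹)) (hc : centralizer (J : Set G) ≤ J)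
    (hJ : Nat.card J = 2 ^ 11) {y : G}
    (h : ∀ a ∈ J, a ≠ 1 → ¬ D a → ∃ m ∈ normalizer (J : Set G), m * y * m⁻¹ = a)
    (hn : 2 ^ 14 * 3 * 5760 ≤ Nat.card ↥(centralizer {y} ⊓ normalizer (J : Set G))) :
    ∃ Θ : normalizer (J : Set G) →* Equiv.Perm GolayPt, Θ.range = M24 ∧
      (∀ g p q, g.1 * E (dw p q) * g.1⁻¹ = E (dw (Θ g p) (Θ g q))) ∧ ∀ g, Θ g = 1 ↔ g.1 ∈ J := by
  obtain ⟨Θ, h1, h2, h3⟩ := k.theta hD
  have h4 : ∀ g, Θ g = 1 ↔ g.1 ∈ J := fun g => (h3 g).trans ⟨fun e => hc e, fun e a ha => by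
    obtain ⟨u, -, e1⟩ := k.sur _ e
    obtain ⟨v, -, rfl⟩ := k.sur a ha
    rw [e1, ← k.add, add_comm, k.add]⟩
  refine ⟨Θ, eq_of_le_of_card_ge h1 ?_, h2, h4⟩
  have h5 := card_mul_index Θ.ker
  have h6 := card_mul_index ((centralizer {y}).subgroupOf (normalizer (J : Set G)))
  have h7 := k.count h
  rw [index_ker, show Θ.ker = J.subgroupOf _ from Subgroup.ext h4,
    Nat.card_congr (subgroupOfEquivOfLe le_normalizer).toEquiv, hJ] at h5
  rw [← inf_subgroupOf_right, Nat.card_congr (subgroupOfEquivOfLe inf_le_right).toEquiv,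
    inf_subgroupOf_right, ← h5] at h6
  rw [card_M24]
  have := Nat.mul_le_mul hn (show 1771 ≤ ((centralizer {y}).subgroupOf (normalizer (J : Set G))).index by omega)
  omega

end GI

end Cfsg.Agent.LF
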