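import Cfsg.Agent.Fischer.LS
import Cfsg.Agent.Fischer.LU

/-! The elementary abelian subgroup of order `2^11` is the even half of the Golay cocode. -/

set_option autoImplicit false
set_option linter.unusedSectionVars false
set_option linter.unusedVariables false
set_option synthInstance.maxSize 2048

namespace Cfsg.Agent.LF
open Subgroup Module Cfsg.Agent.Comp Cfsg.Agent.FiC Cfsg.Agent.Herm Cfsg.Agent.Fischer.U6
  Cfsg.Agent.Fischer Cfsg.Agent.Golay

/-- the points in the hexacode model -/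
def kap (p : GolayPt) : Fin 6 × K4 :=
  [(0,⟨0,0⟩),(0,⟨1,0⟩),(0,⟨0,1⟩),(0,⟨1,1⟩),(1,⟨0,0⟩),(2,⟨0,0⟩),(3,⟨0,1⟩),(1,⟨1,1⟩),(5,⟨0,0⟩),(3,⟨1,1⟩),
    (1,⟨0,1⟩),(3,⟨0,0⟩),(1,⟨1,0⟩),(4,⟨0,0⟩),(2,⟨1,0⟩),(5,⟨1,0⟩),(5,⟨0,1⟩),(2,⟨1,1⟩),(4,⟨1,1⟩),(5,⟨1,1⟩),
    (4,⟨1,0⟩),(4,⟨0,1⟩),(3,⟨1,0⟩),(2,⟨0,1⟩)].getD (p.elim 23 ZMod.val) (0, 0)

/-- the cocode in the hexacode model -/
def emod (t : Fin 6 × K4) : (Fin 6 → ZMod 2) × C3 × ZMod 2 := (Pi.single t.1 1, t.2 • hcv t.1, nm4 t.2)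

theorem kap_bij : Function.Bijective kap := by decide +kernel

theorem kap_gen : ∀ u ∈ Set.range qrWord ∪ {1},
    ∑ p, u p • emod (kap p) = 0 ∨ ∑ p, u p • emod (kap p) = (1, 0, 1) := by
  rintro _ (⟨t, rfl⟩ | rfl)
  · revert t; decide +kernel
  · decide +kernel

theorem sgA : ∀ i j, i ≠ j → ¬ sg3 i j (0, 1) ∧ sg3 i j (hcv j, 1) ∧ sg3 i j 0 ∧ Hy (hcv j) := by
  decide +kernel

theorem sgB : ∀ i j k, i ≠ j → j ≠ k → i ≠ k → ¬ sg3 i j (hcv k, 0) := by decide +kernel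

/-- the facts about the duads, written additively -/
structure AX {X : Type*} [AddCommGroup X] (D : X → Prop) (R : C3 × ZMod 2 →+ X)
    (P : X → (C3 → C3) → Prop) : Prop where
  two : ∀ a : X, a + a = 0
  inj : ∀ s, R s = 0 → s = 0
  dr : ∀ s, D (R s) ↔ Hy s.1
  p0 : ∀ a, P a 0 → a = 0 ∨ a = R (0, 1)
  padd : ∀ {a b f g}, P a f → P b g → P (a + b) (g + f)
  nq : ∀ {a i j}, P a (tm3 i j) → i ≠ j → ∀ s, a + R s ≠ 0
  ex : ∀ i j, i ≠ j → ∃ a, P a (tm3 i j) ∧ ∀ s, D (a + R s) ↔ sg3 i j s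
  all : ∀ a, (∃ s, a = R s) ∨ ∃ i j, i ≠ j ∧ ∀ b, P b (tm3 i j) → ∃ s, a = b + R s
  tet : ∀ y a b c, y ≠ 0 → ¬ D y → D a → D (a + y) → D b → D (b + y) → D (a + b) →
    D (a + b + y) ∧ (D c → D (c + y) → D (a + c) → D (b + c) ∨ b + c = 0 ∨ b + c = y)

/-- the distinguished elements -/
def DX {X : Type*} [AddCommGroup X] (D : X → Prop) (R : C3 × ZMod 2 →+ X)
    (P : X → (C3 → C3) → Prop) (a : X) (i j : Fin 6) : Prop :=
  P a (tm3 i j) ∧ ∀ s, D (a + R s) ↔ sg3 i j s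

variable {X : Type*} [AddCommGroup X] {D : X → Prop} {R : C3 × ZMod 2 →+ X}
  {P : X → (C3 → C3) → Prop} {a b c : X} {i j l : Fin 6}

theorem DX.symm (A : DX D R P a i j) : DX D R P a j i :=
  have : ∀ i j s, sg3 i j s → sg3 j i s := fun i j s ⟨c, d, e⟩ =>
    ⟨d, c, by rw [e, add_comm, add_comm (nm4 c)]⟩
  ⟨(funext fun _ => add_comm .. : tm3 i j = tm3 j i) ▸ A.1, fun s => (A.2 s).trans ⟨this _ _ _, this _ _ _⟩⟩

theorem DX.dl (A : DX D R P a i j) (hij : i ≠ j) : D a := by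
  simpa using (A.2 0).2 (sgA i j hij).2.2.1

namespace AX
variable (k : AX D R P)
include k

theorem tau (A : DX D R P a i j) (B : DX D R P b j l) (C : DX D R P c i l) (h1 : i ≠ j) (h2 : j ≠ l)
    (h3 : i ≠ l) : a + b = c := by
  have h4 := k.padd (k.padd A.1 B.1) C.1
  rw [show tm3 i l + (tm3 j l + tm3 i j) = 0 from funext fun u => by
    simp only [tm3, Pi.add_apply, Pi.zero_apply]
    linear_combination (norm := abel) c3_two (bp (hcv i) u • hcv i) + c3_two (bp (hcv j) u • hcv j) +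
      c3_two (bp (hcv l) u • hcv l)] at h4
  rcases k.p0 _ h4 with e | e
  · linear_combination (norm := abel) e - k.two c
  have h5 : b + (b + R (hcv l, 1)) = R (hcv l, 1) := by rw [← add_assoc, k.two, zero_add]
  have h6 : b + (a + R (0, 1)) = c := by
    linear_combination (norm := abel) k.two (R (0, 1)) + e - k.two c - k.two (R (0, 1)) + k.two (a + b + c) - e - e
      + k.two (R (0, 1)) - k.two (R (0, 1))
  have h7 := (k.tet (a + R (0, 1)) b (b + R (hcv l, 1)) b (k.nq A.1 h1 _) (mt (A.2 _).1 (sgA i j h1).1)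
    (B.dl h2) (h6 ▸ C.dl h3) ((B.2 _).2 (sgA j l h2).2.1) (by
      rw [add_right_comm, h6]; exact (C.2 _).2 (sgA i l h3).2.1)
    (h5.symm ▸ (k.dr _).2 (sgA j l h2).2.2.2)).1
  rw [h5, add_left_comm, ← map_add, A.2, Prod.mk_add_mk, add_zero] at h7
  exact absurd h7 (sgB i j l h1 h2 h3)

theorem eta (A : DX D R P a 0 1) (B : DX D R P b 2 3) (C : DX D R P c 4 5) : a + b + c = R (0, 1) := by
  have h4 := k.padd (k.padd A.1 B.1) C.1
  rw [show tm3 4 5 + (tm3 2 3 + tm3 0 1) = 0 by decide +kernel] at h4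
  refine (k.p0 _ h4).resolve_left fun e => ?_
  have h5 : a + b = c := by linear_combination (norm := abel) e - k.two c
  have := (k.tet (R ((1, 1, 0), 0)) a b (a + R (hcv 0, 1)) (mt (k.inj _) (by decide +kernel))
    (mt (k.dr _).1 (by decide +kernel)) (A.dl (by decide)) ((A.2 _).2 (by decide +kernel))
    (B.dl (by decide)) ((B.2 _).2 (by decide +kernel)) (h5 ▸ C.dl (by decide))).2
    ((A.2 _).2 (by decide +kernel)) (by
      rw [add_assoc, ← map_add]; exact (A.2 _).2 (by decide +kernel)) (by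
      rw [← add_assoc, k.two, zero_add]; exact (k.dr _).2 (by decide +kernel))
  rw [← add_assoc, add_comm b, h5] at this
  rcases this with e | e | e
  exacts [absurd ((C.2 _).1 e) (by decide +kernel), k.nq C.1 (by decide) _ e,
    k.nq C.1 (by decide) ((hcv 0, 1) - ((1, 1, 0), 0)) (by rw [map_sub, ← add_sub_assoc, e, sub_self])]

theorem eps : ∃ ε : Fin 6 → X, (∀ i j, i ≠ j → DX D R P (ε i + ε j) i j) ∧ ∑ i, ε i = R (0, 1) ∧ ε 0 = 0 := by
  choose a ha using k.ex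
  let ε : Fin 6 → X := fun i => if h : 0 = i then 0 else a 0 i h
  have h1 : ∀ j, 0 ≠ j → DX D R P (ε j) 0 j := fun j h => by
    rw [show ε j = a 0 j h from dif_neg h]; exact ha 0 j h
  have h0 : ε 0 = 0 := rfl
  have h2 : ∀ i j, i ≠ j → DX D R P (ε i + ε j) i j := fun i j h => by
    by_cases hi : 0 = i
    · subst hi; rw [h0, zero_add]; exact h1 j h
    by_cases hj : 0 = j
    · subst hj; rw [h0, add_zero]; exact (h1 i hi).symm
    rw [k.tau (h1 i hi).symm (h1 j hj) (ha i j h) (Ne.symm hi) hj h]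
    exact ha i j h
  refine ⟨ε, h2, ?_, h0⟩
  rw [← k.eta (h2 0 1 (by decide)) (h2 2 3 (by decide)) (h2 4 5 (by decide)), Fin.sum_univ_six]
  abel

theorem golay (hc : Nat.card X = 2 ^ 11) : ∃ E : (GolayPt → ZMod 2) →+ X,
    (∀ u, ∑ p, u p = 0 → (E u = 0 ↔ u ∈ golayCode)) ∧ (∀ a, ∃ u, ∑ p, u p = 0 ∧ a = E u) ∧
      ∀ a, D a ↔ ∃ p q, p ≠ q ∧ a = E (dw p q) := by
  let : Module (ZMod 2) X := AddCommGroup.zmodModule fun a => (two_nsmul a).trans (k.two a)
  obtain ⟨ε, h1, h2, h3⟩ := k.eps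
  let μ := (Fintype.linearCombination (ZMod 2) ε).coprod (R.toZModLinearMap 2)
  let E := μ ∘ₗ Fintype.linearCombination (ZMod 2) fun p => emod (kap p)
  let e : Fin 6 × K4 → X := fun t => ε t.1 + R (t.2 • hcv t.1, nm4 t.2)
  have h4 : ∀ p, E (Pi.single p 1) = e (kap p) := fun p => by simp [E, μ, e, emod]
  have h5 : ∀ p q, E (dw p q) = e (kap p) + e (kap q) := fun p q => by rw [dw, map_add, h4, h4]
  have h6 : ∀ i j c d, e (i, c) + e (j, d) = ε i + ε j + R (c • hcv i + d • hcv j, nm4 c + nm4 d) :=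
    fun i j c d => (add_add_add_comm ..).trans (congrArg _ (map_add ..).symm)
  have h7 : ∀ i c d, e (i, c) + e (i, d) = R ((c + d) • hcv i, nm4 c + nm4 d) := fun i c d => by
    rw [h6, k.two, zero_add, add_smul]
  have h8 : ∀ t, e t ∈ LinearMap.range E := fun t => (kap_bij.2 t).elim fun p hp => ⟨_, hp ▸ h4 p⟩
  have h9 : ∀ i c d, R ((c + d) • hcv i, nm4 c + nm4 d) ∈ LinearMap.range E := fun i c d =>
    h7 i c d ▸ add_mem (h8 _) (h8 _)
  have h10 : ∀ s, R s ∈ LinearMap.range E := fun s => by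
    have := add_mem (add_mem (h9 0 s.1.1 0) (h9 1 s.1.2.1 0)) (h9 2 s.1.2.2 0)
    have h := add_mem this (add_mem (h9 0 1 w4) (h9 0 (1 + w4) 0))
    simp only [← map_add] at this h
    refine Or.elim ?_ (fun e : s = _ => e ▸ this) fun e : s = _ => e ▸ h
    clear this h
    revert s
    decide +kernel
  have h11 : ∀ u, ∑ p, (u + (∑ p, u p) • Pi.single (some 0) 1 : GolayPt → ZMod 2) p = 0 ∧
      E (u + (∑ p, u p) • Pi.single (some 0) 1) = E u := fun u => ⟨by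
    simp [-Fintype.sum_option, Finset.sum_add_distrib, ← Finset.mul_sum, CharTwo.add_self_eq_zero], by
    rw [map_add, map_smul, h4, show e (kap (some 0)) = ε 0 + R ((0 : K4) • hcv 0, 0) from rfl, h3, zero_smul,
      zero_add, Prod.mk_zero_zero, map_zero, smul_zero, add_zero]⟩
  have h12 : ∀ a, ∃ u, ∑ p, u p = 0 ∧ a = E u := fun a => by
    suffices a ∈ LinearMap.range E from this.elim fun u hu => ⟨_, (h11 u).1, hu.symm.trans (h11 u).2.symm⟩
    rcases k.all a with ⟨s, rfl⟩ | ⟨i, j, hij, h⟩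
    · exact h10 s
    obtain ⟨s, rfl⟩ := h _ (h1 i j hij).1
    exact add_mem ((add_mem_cancel_right (h10 _)).1 (h6 i j 0 0 ▸ add_mem (h8 _) (h8 _))) (h10 s)
  let S : (GolayPt → ZMod 2) →ₗ[ZMod 2] ZMod 2 := Fintype.linearCombination (ZMod 2) 1
  have hS : ∀ u, S u = ∑ p, u p := fun u => by simp [S, Fintype.linearCombination_apply]
  have h13 : golayCode = LinearMap.ker (E.prod S) := by
    refine Submodule.toAddSubgroup_injective (AddSubgroup.eq_of_le_of_card_ge (fun u hu => ?_) ?_)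
    · refine Prod.ext (Submodule.span_le (p := LinearMap.ker E).2 (fun u hu => ?_) hu)
        ((hS u).trans (golay_even hu))
      rcases kap_gen u hu with e | e
      · exact (congrArg μ e).trans (map_zero μ)
      · refine (congrArg μ e).trans ?_
        simp [μ, Fintype.linearCombination_apply, h2, k.two]
    · have := AddSubgroup.card_mul_index (E.prod S).toAddMonoidHom.ker
      rw [AddSubgroup.index_ker, AddMonoidHom.range_eq_top.2 fun t => ?_, AddSubgroup.card_top,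
        Nat.card_prod, hc, Nat.card_fun, Nat.card_zmod, Nat.card_eq_fintype_card (α := GolayPt),
        card_golayPt] at this
      · exact (Nat.eq_of_mul_eq_mul_right (by norm_num) (this.trans (by norm_num))).trans_le
          natCard_golayCode.ge
      · obtain ⟨u, e1, e2⟩ := h12 t.1
        refine ⟨u + t.2 • Pi.single (some 0) 1, Prod.ext ?_ ?_⟩
        · have := (h11 (t.2 • Pi.single none 1)).2
          simp only [map_add, add_eq_left] at this
          simpa [e2] using this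
        · simp [-Fintype.sum_option, hS, e1, Finset.sum_add_distrib, ← Finset.mul_sum]
  refine ⟨E.toAddMonoidHom, fun u hu => ?_, h12, fun a => ⟨fun ha => ?_, ?_⟩⟩
  · rw [h13]
    exact ⟨fun e => Prod.ext e ((hS u).trans hu), congrArg Prod.fst⟩
  · suffices ∃ t t', t ≠ t' ∧ a = e t + e t' by
      obtain ⟨t, t', e1, e2⟩ := this
      obtain ⟨p, rfl⟩ := kap_bij.2 t
      obtain ⟨q, rfl⟩ := kap_bij.2 t'
      exact ⟨p, q, mt (congrArg kap) e1, e2.trans (h5 p q).symm⟩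
    rcases k.all a with ⟨s, rfl⟩ | ⟨i, j, hij, h⟩
    · obtain ⟨e1, i, c, e2⟩ := (k.dr s).1 ha
      obtain ⟨c, d, e3, rfl, e4⟩ := (by decide +kernel : ∀ (c : K4) (e : ZMod 2), c ≠ 0 → ∃ c' d : K4,
        c' ≠ d ∧ c = c' + d ∧ e = nm4 c' + nm4 d) c s.2 fun e => e1 (by rw [e2, e, zero_smul])
      exact ⟨(i, c), (i, d), mt (congrArg Prod.snd) e3, by rw [h7, ← e2, ← e4]⟩
    · obtain ⟨s, rfl⟩ := h _ (h1 i j hij).1
      obtain ⟨c, d, rfl⟩ := ((h1 i j hij).2 s).1 ha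
      exact ⟨(i, c), (j, d), mt (congrArg Prod.fst) hij, (h6 ..).symm⟩
  · rintro ⟨p, q, e1, rfl⟩
    have e2 := kap_bij.1.ne e1
    erw [h5]
    generalize kap p = t, kap q = t' at e2 ⊢
    obtain ⟨i, c⟩ := t
    obtain ⟨j, d⟩ := t'
    by_cases hij : i = j
    · subst hij
      rw [h7, k.dr]
      exact ⟨smul_ne_zero (fun e => e2 (congrArg _ ((by decide : ∀ c d : K4, c + d = 0 → c = d) c d e))) (hcv_ne i), i, _, rfl⟩
    · rw [h6, (h1 i j hij).2]
      exact ⟨c, d, rfl⟩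

end AX

theorem RM.gi {H : Type*} [Group H] [Finite H] {Q N M L A : Subgroup H} {z x : H}
    {V : Type*} [AddCommGroup V] [Module K4 V] [FiniteDimensional K4 V]
    {B : V →ₛₗ[s4] V →ₗ[K4] K4} {χ : H → V} {φ : L →* SUG B} {w : V × V × V}
    {h : FT Q N M L z B χ φ} {R : C3 × ZMod 2 → H} {G : Type*} [Group G] {ι : H →* G}
    (r : RM h A w x R) (F : FZ h A ι) :
    ∃ E, GI (A.map ι) (fun g => g ≠ 1 ∧ ¬ IsConj (ι z) g) E := by
  let : CommGroup A := { (inferInstance : Group A) with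
    mul_comm := fun a b => Subtype.ext (r.com a.2 b.2) }
  have k : AX (fun a : Additive A => Dl ι z a.toMul.1)
      (AddMonoidHom.mk' (fun s => Additive.ofMul (⟨R s, r.mA s⟩ : A)) fun s t => Subtype.ext (r.add s t))
      (fun a f => Commute a.toMul.1 x ∧ Ac h w a.toMul.1 f) :=
    ⟨fun a => Subtype.ext (r.sq _ a.2), fun s e => r.eq_zero (congrArg Subtype.val e), fun s => r.dr F s,
      fun a e => (r.toXS.fix e.2.memQ e.1).imp Subtype.ext fun e => Subtype.ext (e.trans r.rz.symm),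
      fun e e' => ⟨e.1.mul_left e'.1, r.ac_mul e.2 e'.2⟩,
      fun e hij s e' => r.notQ e.2 hij ((mul_mem_cancel_right (r.mQ s)).1
        ((congrArg (· ∈ Q) (congrArg Subtype.val e')).mpr (one_mem _))),
      fun i j hij => (r.exists_dd F hij).elim fun a D => ⟨Additive.ofMul ⟨a, D.m⟩, ⟨D.c, D.o⟩, D.d⟩,
      fun a => (em (a.toMul.1 ∈ Q)).imp (fun e => (r.sur a.2 e).imp fun _ => Subtype.ext) fun e =>
        (r.ex_ov a.2 e).imp fun i => Exists.imp fun j e => ⟨e.1, fun b e' =>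
          (r.ovr b.2 a.2 e'.2 e.2).imp fun _ => Subtype.ext⟩,
      fun y a b c h1 h2 a1 a2 b1 b2 e => (r.tet F y.2 (fun e => h1 (Subtype.ext e)) h2 a.2 b.2 c.2 a1 a2 b1 b2 e).imp
        id fun e c1 c2 c3 => (e c1 c2 c3).imp id (Or.imp Subtype.ext Subtype.ext)⟩
  obtain ⟨E, h1, h2, h3⟩ := k.golay r.card
  refine ⟨fun u => ι (E u).toMul.1, fun u v => by rw [map_add]; exact map_mul .., fun u => ⟨_, (E u).2, rfl⟩,
    fun u hu => ((map_eq_one_iff ι F.inj).trans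
      ⟨fun e => Subtype.ext e, fun e => congrArg Subtype.val e⟩).trans (h1 u hu), ?_, ?_⟩ <;>
    rintro _ ⟨a, ha, rfl⟩
  · exact (h2 (Additive.ofMul ⟨a, ha⟩)).imp fun u e => ⟨e.1, congrArg (fun a => ι a.toMul.1) e.2⟩
  · exact (and_congr_left' (not_congr (map_eq_one_iff ι F.inj))).trans ((h3 (Additive.ofMul ⟨a, ha⟩)).trans
      (exists₂_congr fun p q => and_congr_right' (Iff.trans
        ⟨fun e => congrArg Subtype.val e, fun e => Subtype.ext e⟩ F.inj.eq_iff.symm)))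

theorem exists_m24 {G : Type*} [Group G] [Finite G] {z : G} {Q : Subgroup (centralizer ({z} : Set G))}
    [Q.Normal] (hF : IsOfLargeFischerTypeAt z Q) (T : Sylow 2 G) {J : Subgroup G}
    (hJ : J = thompsonSubgroupOf 2 (T : Subgroup G)) :
    (∀ a ∈ J, a * a = 1) ∧ Nat.card J = 2 ^ 11 ∧ ∃ E, GI J (fun g => g ≠ 1 ∧ ¬ IsConj z g) E ∧
      ∃ Θ : normalizer (J : Set G) →* Equiv.Perm GolayPt, Θ.range = M24 ∧
      (∀ g p q, g.1 * E (dw p q) * g.1⁻¹ = E (dw (Θ g p) (Θ g q))) ∧ ∀ g, Θ g = 1 ↔ g.1 ∈ J := by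
  obtain ⟨N, M', L, V, _, _, _, B, χ, φ, h, A, w, x, R, ι, r, F, e, h1, h2⟩ := exists_setup hF T
  obtain ⟨E, k⟩ := r.gi F
  have h3 := (card_map_of_injective F.inj).trans r.card
  obtain rfl := hJ.trans e
  rw [show (fun g => g ≠ 1 ∧ ¬ IsConj z g) = fun g => g ≠ 1 ∧ ¬ IsConj (ι (zz z)) g from
    funext fun g => by rw [propext (⟨h1.symm.trans, h1.trans⟩ : IsConj z g ↔ _)]]
  refine ⟨?_, h3, E, k, k.main (y := ι (zz z)) (fun g a e => ⟨mt conj_eq_one_iff.1 e.1, fun e' => e.2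
    (e'.trans (isConj_iff.2 ⟨g, rfl⟩).symm)⟩) (fun g hg => ?_) h3 (fun a ha a1 a2 => ?_)
    (r.nc.trans ((card_map_of_injective F.inj).ge.trans (card_le_of_le (le_inf ?_ (le_normalizer_map ι)))))⟩
  · rintro _ ⟨a, ha, rfl⟩
    rw [← map_mul, r.sq a ha, map_one]
  · obtain ⟨g, rfl⟩ := h2 g (hg _ ⟨_, r.zA, rfl⟩).symm
    exact ⟨g, r.cen fun a ha => F.inj (by simpa using hg _ ⟨a, ha, rfl⟩), rfl⟩
  · obtain ⟨g, rfl⟩ := isConj_iff.1 (not_not.1 (not_and.1 a2 a1))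
    exact j_fus T e (by
      rintro _ ⟨a, ha, rfl⟩ _ ⟨b, hb, rfl⟩
      exact (r.com ha hb).map ι) ⟨_, r.zA, rfl⟩ g ha
  · rintro _ ⟨a, -, rfl⟩
    exact mem_centralizer_singleton_iff.2 ((h.c a).map ι)

end Cfsg.Agent.LF
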