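import Cfsg.Agent.Fischer.LR

/-!
Coordinates for the unitary spaces of dimension four and six over the field with four elements.
-/

set_option autoImplicit false

namespace Cfsg.Agent.LF

open Subgroup Module Cfsg.Agent.Comp Cfsg.Agent.Herm Cfsg.Agent.Fischer.U6 Cfsg.Agent.Fischer

/-- the space of dimension four -/
abbrev C4 : Type := K4 × K4 × K4 × K4

/-- the form -/
def b4 (v w : C4) : K4 :=
  cj4 v.1 * w.2.2.1 + cj4 v.2.1 * w.2.2.2 + cj4 v.2.2.1 * w.1 + cj4 v.2.2.2 * w.2.1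

theorem k2 : ∀ a : K4, a + a = 0 := by decide
theorem k2' : (2 : K4) = 0 := by decide
theorem cj_add : ∀ a b : K4, cj4 (a + b) = cj4 a + cj4 b := by decide
theorem cj_mul : ∀ a b : K4, cj4 (a * b) = cj4 a * cj4 b := by decide
theorem cj_cj : ∀ a : K4, cj4 (cj4 a) = a := by decide
theorem cj_zero : cj4 0 = 0 := by decide
theorem cj_one : cj4 1 = 1 := by decide
theorem cj_nm : ∀ a : K4, a ≠ 0 → cj4 a * a = 1 := by decide
theorem cj_ne : ∀ a : K4, a ≠ 0 → cj4 a ≠ 0 := by decide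

theorem b4_addl (u v w : C4) : b4 (u + v) w = b4 u w + b4 v w := by simp only [b4, Prod.fst_add, Prod.snd_add, cj_add]; ring
theorem b4_addr (u v w : C4) : b4 u (v + w) = b4 u v + b4 u w := by simp only [b4, Prod.fst_add, Prod.snd_add]; ring
theorem b4_sml (c : K4) (v w : C4) : b4 (c • v) w = cj4 c * b4 v w := by
  simp only [b4, Prod.smul_fst, Prod.smul_snd, smul_eq_mul, cj_mul]; ring
theorem b4_smr (c : K4) (v w : C4) : b4 v (c • w) = c * b4 v w := by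
  simp only [b4, Prod.smul_fst, Prod.smul_snd, smul_eq_mul]; ring
theorem b4_cj (v w : C4) : cj4 (b4 v w) = b4 w v := by simp only [b4, cj_add, cj_mul, cj_cj]; ring
theorem b4_zl (v : C4) : b4 0 v = 0 := by simp [b4, cj_zero]
theorem b4_zr (v : C4) : b4 v 0 = 0 := by simp [b4]
theorem b4_symm {v w : C4} (h : b4 v w = 0) : b4 w v = 0 := by rw [← b4_cj, h, cj_zero]
theorem c4_two (v : C4) : v + v = 0 := by ext <;> simp [k2]

/-- non-zero isotropic vectors -/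
def I4 (v : C4) : Prop := v ≠ 0 ∧ b4 v v = 0

instance : DecidablePred I4 := fun _ => by unfold I4; infer_instance

/-- transvections -/
def t4 (v w : C4) : C4 := w + b4 v w • v

/-- the cocycle -/
def kp (v w : C4) : ZMod 2 := (b4 v w).re + (b4 v w).im

theorem t4_b {p : C4} (h : b4 p p = 0) (v w : C4) : b4 (t4 p v) (t4 p w) = b4 v w := by
  simp only [t4, b4_addl, b4_addr, b4_sml, b4_smr, h, b4_cj]
  linear_combination (b4 v p * b4 p w) * k2'

theorem t4_t4 {p : C4} (h : b4 p p = 0) (v : C4) : t4 p (t4 p v) = v := by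
  rw [t4, t4, b4_addr, b4_smr, h, mul_zero, add_zero, add_assoc, c4_two, add_zero]

theorem t4_add (p v w : C4) : t4 p (v + w) = t4 p v + t4 p w := by
  simp only [t4, b4_addr, add_smul]; abel

theorem t4_smul (p v : C4) (c : K4) : t4 p (c • v) = c • t4 p v := by
  simp only [t4, b4_smr, smul_add, mul_smul]

theorem t4_zero (p : C4) : t4 p 0 = 0 := by simp [t4, b4_zr]

theorem t4_of {p v : C4} (h : b4 p v = 0) : t4 p v = v := by simp [t4, h]

theorem t4_sm {c : K4} (h : c ≠ 0) (p v : C4) : t4 (c • p) v = t4 p v := by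
  rw [t4, t4, b4_sml, smul_smul, mul_right_comm, cj_nm c h, one_mul]

theorem I4.t {p v : C4} (hv : I4 v) (h : b4 p p = 0) : I4 (t4 p v) :=
  ⟨fun e => hv.1 (by rw [← t4_t4 h v, e, t4_zero]), by rw [t4_b h, hv.2]⟩

theorem I4.smul {v : C4} (hv : I4 v) {c : K4} (h : c ≠ 0) : I4 (c • v) :=
  ⟨smul_ne_zero h hv.1, by rw [b4_sml, b4_smr, hv.2, mul_zero, mul_zero]⟩

theorem ex_b4 : ∀ v : C4, v ≠ 0 → ∃ q, I4 q ∧ b4 q v = 1 := by decide +kernel

theorem l1 : ∀ v, I4 v → ∃ p, b4 p p = 0 ∧ (t4 p v).2.2 = 0 := by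
  decide +kernel

theorem l2 : ∀ a b : K4, ∀ v, I4 v → b4 (a, b, 0, 0) v = 0 → (a, b) = 0 ∨
    ∃ p, b4 p p = 0 ∧ b4 p (a, b, 0, 0) = 0 ∧ (t4 p v).2.2 = 0 := by
  decide +kernel

theorem l3 : ∀ a b a' b' c e : K4, cj4 a * c + cj4 b * e = 0 → cj4 a' * c + cj4 b' * e = 0 →
    (a, b) = 0 ∨ (∃ k : K4, (a', b') = k • (a, b)) ∨ (c, e) = 0 := by
  decide +kernel

theorem e4' : ∀ a b : K4, ∀ a', I4 a' → (a, b) = 0 ∨ (∃ c : K4, a' = c • (a, b, 0, 0)) ∨
    ∃ s, b4 (a, b, 0, 0) s = 0 ∧ b4 a' s ≠ 0 ∧ I4 s := by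
  decide +kernel

theorem e4 {a a' : C4} (h : I4 a) (h' : I4 a') :
    (∃ c : K4, a' = c • a) ∨ ∃ s, I4 s ∧ b4 a s = 0 ∧ b4 a' s ≠ 0 := by
  obtain ⟨p, hp, e⟩ := l1 a h
  have e' : t4 p a = ((t4 p a).1, (t4 p a).2.1, 0, 0) := Prod.ext rfl (Prod.ext rfl e)
  rcases e4' (t4 p a).1 (t4 p a).2.1 _ (h'.t hp) with k | ⟨c, k⟩ | ⟨s, k1, k2, k3⟩
  · rw [Prod.mk_eq_zero] at k
    exact absurd (by rw [e', k.1, k.2]; rfl) (h.t hp).1
  · exact Or.inl ⟨c, by rw [← t4_t4 hp a', k, ← e', t4_smul, t4_t4 hp]⟩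
  · refine Or.inr ⟨_, k3.t hp, ?_, ?_⟩
    · rw [← t4_b hp, t4_t4 hp, e', k1]
    · rwa [← t4_b hp, t4_t4 hp]

theorem e3 : ∀ v : C4, b4 v v = 1 → ∃ a b, b = w4 • (v + a) ∧ I4 a ∧ I4 b ∧ b4 a b = w4 + 1 ∧ b + t4 b a = v ∧
    kp b (t4 b a) = 1 ∧ a + t4 a b = w4 • v ∧ kp a (t4 a b) = 0 := by
  simp only [exists_eq_left]
  decide +kernel

theorem addv : ∀ c l0 l1 l2 l3 : K4, cj4 l0 + cj4 l1 + cj4 l2 + cj4 l3 = 0 →
    cj4 c + cj4 l1 + cj4 l2 * w4 + cj4 l3 * (w4 + 1) = 0 → nm4 c + (nm4 l0 + nm4 l1 + nm4 l2 + nm4 l3) = 0 →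
    l1 = l0 + c ∧ l2 = l0 + w4 * c ∧ l3 = l0 + (w4 + 1) * c := by
  decide +kernel

/-- closing a list under transvections -/
def grow4 : List (ℕ × ℕ) → List C4 → List C4
  | [], L => L
  | a :: r, L => grow4 r (t4 (L.getD a.1 0) (L.getD a.2 0) :: L)

/-- the start -/
def zb : List C4 := [(0, 0, 0, 1), (0, 0, 0, w4), (0, 0, 0, w4 + 1), (0, 0, 1, 0), (0, 0, w4, 0), (0, 0, w4 + 1, 0), (0,
    1, 0, 0), (0, w4, 0, 0), (0, w4 + 1, 0, 0), (1, 0, 0, 0), (1, 1, 0, 0), (1, w4, 0, 0), (1, w4 + 1,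
    0, 0), (w4, 0, 0, 0), (w4, 1, 0, 0), (w4, w4, 0, 0), (w4, w4 + 1, 0, 0), (w4 + 1, 0, 0, 0), (w4 + 1,
    1, 0, 0), (w4 + 1, w4, 0, 0), (w4 + 1, w4 + 1, 0, 0)]

/-- the steps -/
def zs : List (ℕ × ℕ) := [(0, 6), (1, 8), (2, 10), (3, 13), (4, 15), (5, 17), (6, 20), (7, 22), (8, 24), (9, 27), (10, 29),
    (11, 31), (15, 21), (16, 23), (17, 25), (18, 27), (19, 29), (20, 31), (21, 33), (22, 35), (23, 37),
    (24, 39), (25, 41), (26, 43), (0, 13), (1, 15), (2, 17), (3, 20), (4, 22), (5, 24), (6, 27), (7,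
    29), (8, 31), (9, 33), (10, 35), (11, 37), (12, 45), (13, 48), (14, 50), (15, 52), (16, 54), (17,
    57), (18, 59), (19, 61), (20, 63), (22, 33), (23, 36), (24, 38), (25, 40), (26, 44), (27, 46), (28,
    48), (29, 50), (30, 52), (31, 54), (32, 56), (33, 58), (35, 45), (36, 47), (37, 51), (38, 53), (39,
    55), (40, 58), (41, 60), (42, 62), (43, 64), (44, 66), (45, 68), (46, 70), (48, 57), (49, 59), (50,
    61), (51, 63), (52, 65), (53, 67), (54, 69), (55, 71), (56, 73), (66, 84), (67, 86), (68, 88), (69,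
    92), (70, 94), (71, 97), (72, 100), (73, 103), (74, 105), (0, 9), (1, 12), (2, 14), (3, 16), (4,
    20), (5, 22), (6, 39), (7, 41), (8, 43), (9, 63), (10, 65), (11, 67), (12, 75), (13, 77), (14, 80),
    (15, 83), (16, 85), (17, 87), (18, 89), (19, 92), (20, 94), (22, 31), (23, 36), (24, 38), (25, 89),
    (26, 92), (27, 98)]

theorem zall (Z : C4 → Prop) (h0 : Z 0) (h1 : ∀ a b : K4, Z (a, b, 0, 0)) (h2 : ∀ a : K4, Z (0, 0, a, 0))
    (h3 : ∀ a : K4, Z (0, 0, 0, a)) (ht : ∀ p w, Z p → Z w → Z (t4 p w)) : ∀ v, I4 v → Z v := by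
  have k : ∀ r L, (∀ v ∈ L, Z v) → ∀ v ∈ grow4 r L, Z v := fun r => by
    induction r with
    | nil => exact fun _ h => h
    | cons a r ih =>
      refine fun L h => ih _ (List.forall_mem_cons.2 ⟨ht _ _ ?_ ?_, h⟩) <;>
        exact (getD_mem L _ 0).elim (fun e => e.symm ▸ h0) (h _)
  refine fun v hv => k zs zb (fun v hv => ?_) v ((by decide +kernel : ∀ v, I4 v → v ∈ grow4 zs zb) v hv)
  rcases (by decide +kernel : ∀ v ∈ zb, v = (v.1, v.2.1, 0, 0) ∨ v = (0, 0, v.2.2.1, 0) ∨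
    v = (0, 0, 0, v.2.2.2)) v hv with e | e | e <;> rw [e]
  exacts [h1 _ _, h2 _, h3 _]

/-- the form as a sesquilinear map -/
def B4 : C4 →ₛₗ[s4] C4 →ₗ[K4] K4 := LinearMap.mk₂'ₛₗ s4 (RingHom.id K4) b4 b4_addl
  (fun c v w => by rw [b4_sml, cj4_eq]; rfl) b4_addr fun c v w => b4_smr c v w

theorem inv4 : Herm.Inv s4 := ⟨fun a => by rw [← cj4_eq, ← cj4_eq, cj_cj], w4, by rw [← cj4_eq]; decide⟩

theorem hf4 : HF B4 := ⟨inv4, fun v w => (cj4_eq _).symm.trans (b4_cj v w), fun v h => by_contra fun e =>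
  (ex_b4 v e).elim fun q k => one_ne_zero (k.2.symm.trans (b4_symm (h q)))⟩

theorem card_su4 : Nat.card (SUG B4) = 25920 := by
  have := hf4.card_SUG c4
  rw [hf4.card_UG c4 (n := 4) (by simp)] at this
  simp only [Finset.prod_range_succ, Finset.prod_range_zero] at this
  norm_num at this
  omega

/-- the space of dimension six -/
abbrev C6 : Type := K4 × C4 × K4

/-- the form -/
def b6 (v w : C6) : K4 := cj4 v.1 * w.2.2 + b4 v.2.1 w.2.1 + cj4 v.2.2 * w.1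

/-- the form as a sesquilinear map -/
def B6 : C6 →ₛₗ[s4] C6 →ₗ[K4] K4 := LinearMap.mk₂'ₛₗ s4 (RingHom.id K4) b6
  (fun u v w => by simp only [b6, Prod.fst_add, Prod.snd_add, cj_add, b4_addl]; ring)
  (fun c v w => by
    simp only [b6, Prod.smul_fst, Prod.smul_snd, smul_eq_mul, cj_mul, b4_sml, ← cj4_eq]; ring)
  (fun u v w => by simp only [b6, Prod.fst_add, Prod.snd_add, b4_addr]; ring)
  fun c v w => by simp only [b6, Prod.smul_fst, Prod.smul_snd, smul_eq_mul, b4_smr, RingHom.id_apply]; ring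

theorem B6_eq (v w : C6) : B6 v w = cj4 v.1 * w.2.2 + b4 v.2.1 w.2.1 + cj4 v.2.2 * w.1 := rfl

theorem sp6 : Sp B6 := by
  refine ⟨⟨inv4, fun v w => ?_, fun v h => ?_⟩, c4, by simp⟩
  · simp only [B6_eq, ← cj4_eq, cj_add, cj_mul, cj_cj, b4_cj]; ring
  · have h1 := h (0, 0, 1)
    have h2 := h (1, 0, 0)
    have h3 := hf4.nd v.2.1 fun q => show b4 _ _ = 0 by simpa [B6_eq] using h (0, q, 0)
    simp only [B6_eq, b4_zr, mul_one, mul_zero, add_zero, zero_add] at h1 h2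
    exact Prod.ext (by_contra fun e => cj_ne _ e h1) (Prod.ext h3 (by_contra fun e => cj_ne _ e h2))

end Cfsg.Agent.LF
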