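import Cfsg.Agent.Fischer.LV

/-!
Classes of involutions that look locally like the transvections of `U₆(2)`.
-/

set_option autoImplicit false

namespace Cfsg.Agent.LF

open Subgroup Module Cfsg.Agent.Comp Cfsg.Agent.Herm Cfsg.Agent.Fischer.U6 Cfsg.Agent.Fischer

variable {G : Type*} [Group G]

/-- the neighbours -/
def PT (S : C4 → ZMod 2 → G) (γ : C4 → G) (v : C4) (k : K4) : G := S (cj4 k • v) (nm4 k) * γ v

/-- the local structure at `d` -/
structure HS (X : Set G) (d : G) (S : C4 → ZMod 2 → G) (γ : C4 → G) : Prop where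
  d1 : d ≠ 1
  s0 : S 0 1 = d
  mul : ∀ a e b f, S a e * S b f = S (a + b) (e + f + kp a b)
  g2 : ∀ v, I4 v → γ v * γ v = 1
  gsm : ∀ v, I4 v → ∀ c : K4, c ≠ 0 → γ (c • v) = γ v
  gs : ∀ v, I4 v → ∀ a e, γ v * S a e * γ v = S (t4 v a) e
  gg : ∀ v, I4 v → ∀ w, I4 w → γ v * γ w * γ v = γ (t4 v w)
  line : γ (0, 1, 0, 0) * γ (1, 1, 0, 0) * γ (w4, 1, 0, 0) * γ (w4 + 1, 1, 0, 0) = γ (1, 0, 0, 0)
  loc : ∀ y, y ∈ loc X d ↔ ∃ v k, I4 v ∧ y = PT S γ v k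

theorem kp_of {a b : C4} (h : b4 a b = 0) : kp a b = 0 := by rw [kp, h]; rfl

theorem prod4 {F : K4 → G} (h : ∀ a b, Commute (F a) (F b)) {σ : K4 → K4} (hσ : Function.Injective σ) :
    F (σ 0) * F (σ 1) * F (σ w4) * F (σ (w4 + 1)) = F 0 * F 1 * F w4 * F (w4 + 1) := by
  have n : ([0, 1, w4, w4 + 1] : List K4).Nodup := by decide
  have := (((List.subperm_of_subset (n.map hσ) fun a _ =>
    (by decide : ∀ a : K4, a ∈ [0, 1, w4, w4 + 1]) a).perm_of_length_le (by simp)).map F).prod_eq'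
    (List.pairwise_map.2 (List.pairwise_of_forall fun a b => h a b))
  simpa [mul_assoc] using this

theorem mul4 {a b c d e f g h : G} (h1 : Commute b c) (h2 : Commute b e) (h3 : Commute b g)
    (h4 : Commute d e) (h5 : Commute d g) (h6 : Commute f g) :
    a * b * (c * d) * (e * f) * (g * h) = a * c * e * g * (b * d * f * h) := by
  rw [h1.mul_mul_mul_comm, (h2.mul_left h4).mul_mul_mul_comm,
    ((h3.mul_left h5).mul_left h6).mul_mul_mul_comm]

namespace HS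
variable {X : Set G} {d y : G} {S : C4 → ZMod 2 → G} {γ : C4 → G} (h : HS X d S γ) {u v w a b : C4}
  {j k l : K4} {e f : ZMod 2}
include h

theorem s00 : S 0 0 = 1 := by
  have := h.mul 0 0 0 0
  rw [kp_of (b4_zl _)] at this
  simpa using this

theorem d2 : d * d = 1 := by
  rw [← h.s0, h.mul, kp_of (b4_zl _), ← h.s00]; rfl

theorem dS : d * S a e = S a (e + 1) := by rw [← h.s0, h.mul, kp_of (b4_zl _), zero_add, add_zero, add_comm]

theorem cS : Commute d (S a e) := by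
  rw [Commute, SemiconjBy, h.dS, ← h.s0, h.mul, kp_of (b4_zr _), add_zero, add_zero]

theorem cg (hv : I4 v) : Commute d (γ v) := by
  have := h.gs v hv 0 1
  rw [t4_zero, h.s0] at this
  refine Commute.symm ?_
  rwa [Commute, SemiconjBy, ← mul_inv_eq_iff_eq_mul, inv_of_mul_self (h.g2 v hv)]

theorem sinv : (S a e)⁻¹ = S a (e + kp a a) := inv_eq_of_mul_eq_one_right (by
  rw [h.mul, c4_two, ← h.s00]; congr 1; generalize kp a a = x; revert e x; decide)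

theorem one (e1 : S a e = 1) : a = 0 ∧ e = 0 := by
  have k : a = 0 := by_contra fun a0 => by
    obtain ⟨q, -, hq⟩ := ex_b4 a a0
    have h1 := h.mul a e (w4 • q) 0
    have h2 := h.mul (w4 • q) 0 a e
    rw [e1, one_mul, kp, b4_smr, ← b4_cj, hq] at h1
    rw [e1, mul_one, kp, b4_sml, hq, add_comm, h1, (by decide : ∀ e : ZMod 2,
      0 + e + ((cj4 w4 * 1).re + (cj4 w4 * 1).im) = (e + 0 + ((w4 * cj4 1).re + (w4 * cj4 1).im)) + 1) e,
      ← h.dS] at h2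
    exact h.d1 (by simpa using h2.symm)
  subst k
  refine ⟨rfl, by_contra fun e0 => h.d1 ?_⟩
  rw [← h.s0, ← e1, (by decide : ∀ e : ZMod 2, e ≠ 0 → e = 1) e e0]

theorem sinj (e1 : S a e = S b f) : a = b ∧ e = f := by
  have := h.one (a := a + b) (e := e + (f + kp b b) + kp a b) (by rw [← h.mul, ← h.sinv, e1, mul_inv_cancel])
  obtain rfl : a = b := by rw [← add_zero a, ← this.1, ← add_assoc, c4_two, zero_add]
  exact ⟨rfl, (by decide : ∀ e f x : ZMod 2, e + (f + x) + x = 0 → e = f) _ _ _ this.2⟩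

theorem gS (hv : I4 v) : γ v * S a e = S (t4 v a) e * γ v := by
  rw [← h.gs v hv, mul_assoc, h.g2 v hv, mul_one]

theorem cgS (hv : I4 v) (e1 : b4 v a = 0) : Commute (γ v) (S a e) := by
  rw [Commute, SemiconjBy, h.gS hv, t4_of e1]

theorem p0 : PT S γ v 0 = γ v := by rw [PT, cj_zero, zero_smul, show nm4 0 = 0 from rfl, h.s00, one_mul]

theorem mem (hv : I4 v) : PT S γ v k ∈ Fischer.loc X d := (h.loc _).2 ⟨v, k, hv, rfl⟩

theorem sP (hv : I4 v) : S a e * PT S γ v k * (S a e)⁻¹ = PT S γ v (k + b4 a v) := by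
  rw [mul_inv_eq_iff_eq_mul, PT, PT, mul_assoc _ (γ v), h.gS hv, ← mul_assoc, ← mul_assoc, h.mul, h.mul]
  congr 2
  · rw [t4, cj_add, b4_cj, add_smul]
    linear_combination (norm := abel1) -c4_two (b4 v a • v)
  · simp only [kp, t4, b4_sml, b4_smr, b4_addr, hv.2, cj_cj, ← b4_cj a v]
    generalize b4 a v = x
    revert e k x; decide

theorem gP (hu : I4 u) (hv : I4 v) : γ u * PT S γ v k * γ u = PT S γ (t4 u v) k := by
  rw [PT, PT, ← mul_assoc, h.gS hu, t4_smul, ← h.gg u hu v hv]; simp only [mul_assoc]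

theorem psm (hv : I4 v) (hj : j ≠ 0) : PT S γ (j • v) (j * k) = PT S γ v k := by
  rw [PT, PT, h.gsm v hv j hj, smul_smul, cj_mul, mul_right_comm, cj_nm j hj, one_mul,
    (by decide : ∀ j k : K4, j ≠ 0 → nm4 (j * k) = nm4 k) j k hj]

theorem p2 (hv : I4 v) : PT S γ v k * PT S γ v k = 1 := by
  have : b4 v (cj4 k • v) = 0 := by rw [b4_smr, hv.2, mul_zero]
  rw [PT, (h.cgS hv this).mul_mul_mul_comm, h.g2 v hv, h.mul, c4_two, kp_of (by rw [b4_sml, this, mul_zero]),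
    mul_one, ← h.s00]
  congr 1; generalize nm4 k = x; revert x; decide

theorem op (hu : I4 u) (hv : I4 v) :
    PT S γ u j * PT S γ v k * PT S γ u j = PT S γ (t4 u v) (k + b4 u v * j) := by
  nth_rewrite 2 [← inv_of_mul_self (h.p2 hu)]
  have := h.sP (a := cj4 j • u) (e := nm4 j) (k := k) (hv.t hu.2)
  rw [← h.gP hu hv, b4_sml, cj_cj, t4, b4_addr, b4_smr, hu.2, mul_zero, add_zero, mul_comm j, ← t4] at this
  rw [← this, PT, mul_inv_rev, inv_of_mul_self (h.g2 u hu)]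
  simp only [mul_assoc]

theorem pinj (hv : I4 v) (hw : I4 w) (e1 : PT S γ v k = PT S γ w l) :
    ∃ c : K4, c ≠ 0 ∧ w = c • v ∧ l = c * k := by
  have a1 : ∀ v k b, I4 v → ∃ e, PT S γ v k * S b 0 * (PT S γ v k)⁻¹ = S (t4 v b) e := fun v k b hv => ⟨_, by
    rw [PT, mul_inv_rev, inv_of_mul_self (h.g2 v hv), h.sinv, mul_assoc (S _ _), mul_assoc, ← mul_assoc _ (γ v),
      h.gs v hv, h.mul, h.mul, add_comm (t4 v b), ← add_assoc, c4_two, zero_add]⟩
  obtain ⟨q, -, hq⟩ := ex_b4 w hw.1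
  obtain ⟨e, k1⟩ := a1 v k q hv
  obtain ⟨f, k2⟩ := a1 w l q hw
  have := (h.sinj (k1.symm.trans (e1 ▸ k2))).1
  rw [t4, t4, ← b4_cj q w, hq, cj_one, one_smul, add_right_inj] at this
  have c0 : b4 v q ≠ 0 := fun e => hw.1 (by rw [← this, e, zero_smul])
  refine ⟨_, c0, this.symm, ?_⟩
  rw [← h.psm hv c0, this, PT, PT, mul_left_inj] at e1
  rw [← cj_cj l, ← smul_left_injective K4 hw.1 (h.sinj e1).1, cj_cj]

theorem pinj' (hv : I4 v) (e1 : PT S γ v k = PT S γ v l) : k = l := by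
  obtain ⟨c, -, k1, k2⟩ := h.pinj hv hv e1
  rw [k2, ← smul_left_injective K4 hv.1 ((one_smul K4 v).trans k1), one_mul]

theorem comm (hu : I4 u) (hv : I4 v) : Commute (PT S γ u j) (PT S γ v k) ↔ b4 u v = 0 := by
  have := h.op (j := j) (k := k) hu hv
  constructor
  · intro c
    rw [c.eq, mul_assoc, h.p2 hu, mul_one] at this
    obtain ⟨c, -, k1, -⟩ := h.pinj hv (hv.t hu.2) this
    have k2 := congrArg (b4 v) k1
    rw [t4, b4_addr, b4_smr, b4_smr, hv.2, mul_zero, zero_add, ← b4_cj u v, mul_comm] at k2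
    exact by_contra fun e => one_ne_zero ((cj_nm _ e).symm.trans k2)
  · intro c
    rw [t4_of c, c, zero_mul, add_zero] at this
    rw [Commute, SemiconjBy, ← mul_inv_eq_iff_eq_mul, inv_of_mul_self (h.p2 hu), this]

theorem braid (hu : I4 u) (hv : I4 v) (c : b4 u v ≠ 0) :
    PT S γ u j * PT S γ v k * PT S γ u j = PT S γ v k * PT S γ u j * PT S γ v k := by
  rw [h.op hu hv, h.op hv hu, ← h.psm (hv.t hu.2) (cj_ne _ c), t4, t4, smul_add, smul_smul, mul_add,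
    ← mul_assoc, cj_nm _ c, one_smul, one_mul, b4_cj, add_comm, add_comm j]

theorem braid' {x : G} (hx : x ∈ Fischer.loc X d) (hy : y ∈ Fischer.loc X d) (c : ¬ Commute x y) :
    x * y * x = y * x * y := by
  obtain ⟨u, j, hu, rfl⟩ := (h.loc _).1 hx
  obtain ⟨v, k, hv, rfl⟩ := (h.loc _).1 hy
  exact h.braid hu hv (mt (h.comm hu hv).2 c)

theorem fb (hv : I4 v) : PT S γ v 0 * PT S γ v 1 * PT S γ v w4 * PT S γ v (w4 + 1) = d := by
  have c : ∀ k : K4, Commute (γ v) (S (cj4 k • v) (nm4 k)) := fun k =>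
    h.cgS hv (by rw [b4_smr, hv.2, mul_zero])
  simp only [PT]
  rw [mul4 (c _) (c _) (c _) (c _) (c _) (c _), h.g2 v hv, one_mul, h.g2 v hv, mul_one]
  simp only [h.mul, ← add_smul, kp, b4_sml, b4_smr, hv.2, mul_zero]
  rw [← h.s0, show cj4 0 + cj4 1 + cj4 w4 + cj4 (w4 + 1) = 0 by decide, zero_smul]
  rfl

theorem conj (hX : ∀ g : G, ∀ x ∈ X, g * x * g⁻¹ ∈ X) (g : G) :
    HS X (g * d * g⁻¹) (fun a e => g * S a e * g⁻¹) fun v => g * γ v * g⁻¹ := by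
  refine ⟨by simpa using h.d1, by rw [h.s0], fun a e b f => by rw [conj_mul, h.mul],
    fun v hv => by rw [conj_mul, h.g2 v hv]; simp, fun v hv c hc => by rw [h.gsm v hv c hc],
    fun v hv a e => by rw [conj_mul, conj_mul, h.gs v hv],
    fun v hv w hw => by rw [conj_mul, conj_mul, h.gg v hv w hw], by simp only [conj_mul, h.line],
    fun y => ⟨fun hy => ?_, ?_⟩⟩
  · obtain ⟨v, k, hv, e⟩ := (h.loc (g⁻¹ * y * g⁻¹⁻¹)).1 ⟨hX _ y hy.1, fun e => hy.2.1 (by simp [← e, mul_assoc]),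
      by simpa using (commute_conj_left_iff _ _ _).1 hy.2.2⟩
    exact ⟨v, k, hv, by rw [PT, conj_mul, ← PT, ← e]; group⟩
  · rintro ⟨v, k, hv, rfl⟩
    have := h.mem (k := k) hv
    rw [PT, conj_mul, ← PT]
    exact ⟨hX g _ this.1, by simpa using this.2.1, (commute_conj_iff ..).2 this.2.2⟩

variable (hX : ∀ x ∈ X, ∃ S γ, HS X x S γ) (hd : d ∈ X) (hy : y ∈ X) (hn : ¬ Commute d y)
include hX hd hy hn

theorem uniq (hv : I4 v) (c1 : Commute y (PT S γ v k)) (c2 : Commute y (PT S γ v l)) : k = l := by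
  by_contra ne
  have m := h.mem (k := k) hv
  have m' := h.mem (k := l) hv
  obtain ⟨S', γ', h'⟩ := hX _ m.1
  obtain ⟨a, i, ha, e1⟩ := (h'.loc d).1 (loc_symm hd m)
  obtain ⟨a', i', ha', e2⟩ := (h'.loc _).1 ⟨m'.1, fun e => ne (h.pinj' hv e.symm), (h.comm hv hv).2 hv.2⟩
  obtain ⟨b, i'', hb, e3⟩ := (h'.loc y).1 ⟨hy, fun e => hn (e ▸ m.2.2), c1.symm⟩
  rcases e4 ha' ha with ⟨c, e⟩ | ⟨s, hs, k1, k2⟩
  · refine hn ?_
    rw [e1, e3, h'.comm ha hb, e, b4_sml, (h'.comm ha' hb).1 (e2 ▸ e3 ▸ c2.symm), mul_zero]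
  · rcases e4 ha ha' with ⟨c, e⟩ | ⟨s, hs, k1, k2⟩
    · have : c ≠ 0 := by rintro rfl; exact ha'.1 (by rw [e, zero_smul])
      rw [e, b4_sml, mul_eq_zero] at k1
      exact k1.elim (cj_ne c this) k2
    have m2 := h'.mem (k := 0) hs
    have k3 := mt (h'.comm (j := i') (k := 0) ha' hs).1 k2
    rw [← e2] at k3
    obtain ⟨w, n, hw, e4⟩ := (h.loc _).1 ⟨m2.1, fun e => k3 (e ▸ m'.2.2.symm), e1 ▸ (h'.comm ha hs).2 k1⟩
    exact k3 (e4 ▸ (h.comm hv hw).2 ((h.comm hv hw).1 (e4 ▸ m2.2.2)))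

theorem ext (hv : I4 v) (hw : I4 w) (c0 : b4 v w = 0) (c1 : Commute y (PT S γ v k))
    (h1 : ∃ u, I4 u ∧ b4 v u = 0 ∧ b4 w u ≠ 0)
    (h2 : ∀ s, b4 v s = 0 → b4 w s = 0 → ∃ α β : K4, s = β • w + α • v) :
    ∃ l : K4 → K4, (∀ α, Commute y (PT S γ (w + α • v) (l α))) ∧ PT S γ (w + (0 : K4) • v) (l 0) *
      PT S γ (w + (1 : K4) • v) (l 1) * PT S γ (w + w4 • v) (l w4) *
        PT S γ (w + (w4 + 1) • v) (l (w4 + 1)) = PT S γ v k := by
  obtain ⟨u, hu, u1, u2⟩ := h1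
  have i4 : ∀ α : K4, I4 (w + α • v) := fun α => ⟨fun e => u2 (by
    simpa only [b4_addl, b4_sml, u1, mul_zero, add_zero, b4_zl] using congrArg (b4 · u) e), by
      simp only [b4_addl, b4_addr, b4_sml, b4_smr, hv.2, hw.2, c0, b4_symm c0, mul_zero, add_zero]⟩
  have m := h.mem (k := k) hv
  have m' := h.mem (k := 0) hw
  have m'' := h.mem (k := 0) hu
  have n1 := mt (h.comm (j := 0) (k := 0) hw hu).1 u2
  obtain ⟨S', γ', h'⟩ := hX _ m.1
  obtain ⟨a, i, ha, e1⟩ := (h'.loc d).1 (loc_symm hd m)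
  obtain ⟨a', i', ha', e2⟩ := (h'.loc _).1 ⟨m'.1, fun e => n1 (e ▸ (h.comm hv hu).2 u1), (h.comm hv hw).2 c0⟩
  obtain ⟨b, i'', hb, e3⟩ := (h'.loc y).1 ⟨hy, fun e => hn (e ▸ m.2.2), c1.symm⟩
  obtain ⟨s, j, hs, e4⟩ := (h'.loc _).1 ⟨m''.1, fun e => n1 (e ▸ (h.comm hw hv).2 (b4_symm c0)),
    (h.comm hv hu).2 u1⟩
  have k1 : b4 a a' = 0 := (h'.comm ha ha').1 (e1 ▸ e2 ▸ m'.2.2)
  have k2 : b4 b a ≠ 0 := fun e => hn (e1 ▸ e3 ▸ ((h'.comm hb ha).2 e).symm)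
  have k3 : b4 a s = 0 := (h'.comm ha hs).1 (e1 ▸ e4 ▸ m''.2.2)
  have k4 : b4 a' s ≠ 0 := fun e => n1 (e2 ▸ e4 ▸ (h'.comm ha' hs).2 e)
  set n := a' + (b4 b a' / b4 b a) • a with hn'
  have hm : I4 n := ⟨fun e => k4 (by
    simpa only [hn', b4_addl, b4_sml, k3, mul_zero, add_zero, b4_zl] using congrArg (b4 · s) e), by
      simp only [hn', b4_addl, b4_addr, b4_sml, b4_smr, ha.2, ha'.2, k1, b4_symm k1, mul_zero, add_zero]⟩
  have cy : ∀ i, Commute y (PT S' γ' n i) := fun i => e3 ▸ (h'.comm hb hm).2 (by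
    rw [hn', b4_addr, b4_smr, div_mul_cancel₀ _ k2, LF.k2])
  have key : ∀ i, ∃ α l, PT S' γ' n i = PT S γ (w + α • v) l := fun i => by
    have m3 := h'.mem (k := i) hm
    obtain ⟨x, l, hx, e5⟩ := (h.loc _).1 ⟨m3.1, fun e => hn (e ▸ (cy i).symm), e1 ▸ (h'.comm ha hm).2 (by
      rw [hn', b4_addr, b4_smr, ha.2, k1, mul_zero, add_zero])⟩
    obtain ⟨α, β, rfl⟩ := h2 x ((h.comm hv hx).1 (e5 ▸ m3.2.2)) ((h.comm (j := 0) hw hx).1 (e5 ▸ e2 ▸
      (h'.comm ha' hm).2 (by rw [hn', b4_addr, b4_smr, ha'.2, b4_symm k1, mul_zero, add_zero])))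
    by_cases b0 : β = 0
    · rw [b0, zero_smul, zero_add] at hx e5
      have a0 : α ≠ 0 := by rintro rfl; exact hx.1 (zero_smul _ _)
      rw [← mul_inv_cancel_left₀ a0 l, h.psm hv a0] at e5
      exact absurd (e5.trans (congrArg _ (h.uniq hX hd hy hn hv (e5 ▸ cy i) c1))) m3.2.1
    · exact ⟨β⁻¹ * α, β⁻¹ * l, by
        rw [e5, ← h.psm hx (inv_ne_zero b0), smul_add, smul_smul, smul_smul, inv_mul_cancel₀ b0, one_smul]⟩
  choose σ ν hσ using key
  have inj : Function.Injective σ := fun i j e => h'.pinj' hm (by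
    have := h.uniq hX hd hy hn (i4 (σ i)) (k := ν i) (l := ν j) (hσ i ▸ cy i) (by rw [e, ← hσ]; exact cy j)
    rw [hσ, hσ, this, e])
  obtain ⟨τ, hτ⟩ := (Finite.injective_iff_surjective.1 inj).hasRightInverse
  have e6 : ∀ α, PT S γ (w + α • v) (ν (τ α)) = PT S' γ' n (τ α) := fun α => by rw [hσ, hτ]
  refine ⟨fun α => ν (τ α), fun α => e6 α ▸ cy _, ?_⟩
  simp only [e6]
  rw [prod4 (F := PT S' γ' n) (fun _ _ => (h'.comm hm hm).2 hm.2) hτ.injective, h'.fb hm]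

end HS

end Cfsg.Agent.LF
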