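import Cfsg.Agent.Fischer.LW

/-!
Unitary coordinates for a class of involutions with the local structure of `U₆(2)`.
-/

set_option autoImplicit false
set_option synthInstance.maxSize 2048
set_option maxRecDepth 100000

namespace Cfsg.Agent.LF

open Subgroup Module Cfsg.Agent.Comp Cfsg.Agent.Herm Cfsg.Agent.Fischer.U6 Cfsg.Agent.Fischer

variable {G : Type*} [Group G] {X : Set G} {d y : G} {S : C4 → ZMod 2 → G} {γ : C4 → G}

theorem sp_pair : ∀ r ∈ ([((1, 0, 0, 0), (0, 1, 0, 0)), ((1, 0, 0, 0), (0, 0, 0, 1)),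
    ((0, 1, 0, 0), (0, 0, 1, 0))] : List (C4 × C4)), I4 r.1 ∧ I4 r.2 ∧ b4 r.1 r.2 = 0 ∧
    (∃ u, I4 u ∧ b4 r.1 u = 0 ∧ b4 r.2 u ≠ 0) ∧
      ∀ s, b4 r.1 s = 0 → b4 r.2 s = 0 → ∃ α β : K4, s = β • r.2 + α • r.1 := by
  decide +kernel

theorem HS.exy (h : HS X d S γ) (hX : ∀ x ∈ X, ∃ S γ, HS X x S γ)
    (hc : ∀ g : G, ∀ x ∈ X, g * x * g⁻¹ ∈ X) (hd : d ∈ X) :
    ∃ y ∈ X, ¬ Commute d y ∧ d * y * d = y * d * y ∧ ∀ v, I4 v → Commute y (γ v) := by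
  obtain ⟨⟨i1, i2, p1⟩, ⟨-, i4, p2⟩, ⟨-, i3, p3⟩⟩ : _ ∧ _ ∧ _ := by
    simpa only [List.forall_mem_cons, List.not_mem_nil, false_imp_iff, implies_true, and_true] using sp_pair
  have m := h.mem (k := 0) i1
  obtain ⟨S', γ', h'⟩ := hX _ m.1
  obtain ⟨a, i, ha, e1⟩ := (h'.loc d).1 (loc_symm hd m)
  obtain ⟨b, hb, e2⟩ := ex_b4 a ha.1
  have m' := h'.mem (k := 0) hb
  have n : ¬ Commute d (PT S' γ' b 0) := fun c => one_ne_zero
    (e2.symm.trans ((h'.comm hb ha).1 (e1 ▸ c.symm)))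
  have br := h'.braid' (loc_symm hd m) m' n
  generalize PT S' γ' b 0 = y at m' n br
  obtain ⟨l2, k2, -⟩ := h.ext hX hd m'.1 n i1 i2 p1.1 m'.2.2.symm p1.2.1 p1.2.2
  obtain ⟨l4, k4, -⟩ := h.ext hX hd m'.1 n i1 i4 p2.1 m'.2.2.symm p2.2.1 p2.2.2
  replace k2 := k2 0
  replace k4 := k4 0
  rw [zero_smul, add_zero] at k2 k4
  obtain ⟨l3, k3, -⟩ := h.ext hX hd m'.1 n i2 i3 p3.1 k2 p3.2.1 p3.2.2
  replace k3 := k3 0
  rw [zero_smul, add_zero] at k3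
  let q : C4 := (cj4 (l3 0), cj4 (l4 0), 0, cj4 (l2 0))
  have c : ∀ v, I4 v → Commute y (PT S γ v (b4 q v)) → Commute ((S q 0)⁻¹ * y * (S q 0)⁻¹⁻¹) (γ v) :=
    fun v hv e => by
    rw [← zero_add (b4 q v), ← h.sP (e := 0) hv, h.p0] at e
    simpa [mul_assoc] using e.conj (S q 0)⁻¹
  have cd : (S q 0)⁻¹ * d * (S q 0)⁻¹⁻¹ = d := by rw [← h.cS.inv_right.eq]; group
  have c1 := c _ i1 (by simpa [b4, q, cj_zero] using m'.2.2.symm)
  have c2 := c _ i2 (by simpa [b4, q, cj_cj] using k2)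
  have c3 := c _ i3 (by simpa [b4, q, cj_cj] using k3)
  have c4 := c _ i4 (by simpa [b4, q, cj_cj] using k4)
  have y1 := hc (S q 0)⁻¹ y m'.1
  have y2 : ¬ Commute d ((S q 0)⁻¹ * y * (S q 0)⁻¹⁻¹) := by rwa [← cd, commute_conj_iff]
  refine ⟨_, y1, y2, by rw [← cd]; simp only [conj_mul, br], ?_⟩
  generalize (S q 0)⁻¹ * y * (S q 0)⁻¹⁻¹ = y at *
  obtain ⟨l, k5, k6⟩ := h.ext (k := 0) hX hd y1 y2 i1 i2 p1.1 (h.p0 ▸ c1) p1.2.1 p1.2.2
  have e3 : ∀ α : K4, ((0, 1, 0, 0) : C4) + α • (1, 0, 0, 0) = (α, 1, 0, 0) := fun α => by simp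
  have i5 : ∀ α : K4, I4 (α, 1, 0, 0) := by decide
  simp only [e3] at k5 k6
  have l0 : l 0 = 0 := h.uniq hX hd y1 y2 i2 (k5 0) (h.p0 ▸ c2)
  have cm : ∀ α β k : K4, ∀ e, Commute (γ (α, 1, 0, 0)) (S (k • (β, 1, 0, 0)) e) := fun α β k e =>
    h.cgS (i5 α) (by simp [b4, cj_zero])
  simp only [PT] at k6
  rw [mul4 (cm ..) (cm ..) (cm ..) (cm ..) (cm ..) (cm ..), h.line, mul_left_inj, h.mul, h.mul, h.mul] at k6
  obtain ⟨k7, k8⟩ := h.sinj k6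
  simp only [Prod.smul_mk, Prod.mk_add_mk, Prod.mk.injEq, smul_eq_mul, mul_one, mul_zero, zero_add] at k7
  obtain ⟨a1, a2, a3⟩ := addv 0 (l 0) (l 1) (l w4) (l (w4 + 1)) k7.2.1 (by
    rw [add_assoc, add_assoc, ← add_assoc (cj4 (l 1)), k7.1, LF.k2]) (by
      simpa [kp, b4, cj_zero, show nm4 0 = 0 from rfl] using k8)
  have a4 : ∀ α, Commute y (γ (α, 1, 0, 0)) := fun α => by
    have := k5 α
    rwa [show l α = 0 by
      rcases (by decide : ∀ α : K4, α = 0 ∨ α = 1 ∨ α = w4 ∨ α = w4 + 1) α with rfl | rfl | rfl | rfl <;>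
        simp [*], h.p0] at this
  have sm : ∀ v, I4 v → Commute y (γ v) → ∀ k : K4, k • v = 0 ∨ I4 (k • v) ∧ Commute y (γ (k • v)) :=
    fun v hv e k => (em (k = 0)).imp (fun e => by rw [e, zero_smul]) fun k0 => ⟨hv.smul k0, h.gsm v hv k k0 ▸ e⟩
  intro v hv
  refine ((zall (fun v => v = 0 ∨ I4 v ∧ Commute y (γ v)) (Or.inl rfl) (fun a b => ?_)
    (fun a => by simpa using sm _ i3 c3 a) (fun a => by simpa using sm _ i4 c4 a) ?_ v hv).resolve_left hv.1).2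
  · by_cases b0 : b = 0
    · simpa [b0] using sm _ i1 c1 a
    · simpa [mul_inv_cancel_left₀ b0] using sm _ (i5 (b⁻¹ * a)) (a4 _) b
  · rintro p w (rfl | hp) (rfl | hw)
    · exact Or.inl (t4_zero _)
    · rw [t4_of (b4_zl _)]; exact Or.inr hw
    · exact Or.inl (t4_zero _)
    · exact Or.inr ⟨hw.1.t hp.1.2, h.gg p hp.1 w hw.1 ▸ (hp.2.mul_right hw.2).mul_right hp.2⟩

/-- the non-neighbours -/
def YT (S : C4 → ZMod 2 → G) (y : G) (v : C4) (e : ZMod 2) : G := S v e * y * (S v e)⁻¹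

/-- the constant -/
def c0 (v : C4) : K4 := (w4 + 1) * b4 v v

/-- the coordinates -/
def pt6 (d y : G) (S : C4 → ZMod 2 → G) (γ : C4 → G) (w : C6) : G :=
  if w.2.2 = 0 then (if w.2.1 = 0 then d else PT S γ w.2.1 w.1)
  else YT S y (w.2.2⁻¹ • w.2.1) (w.2.2⁻¹ * w.1 + c0 (w.2.2⁻¹ • w.2.1)).re

/-- the Siegel transformations -/
def hz (a : C4) (e : ZMod 2) : C6 →ₗ[K4] C6 where
  toFun w := (w.1 + b4 a w.2.1 + w.2.2 * (c0 a + ⟨e, 0⟩), w.2.1 + w.2.2 • a, w.2.2)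
  map_add' u v := by simp only [Prod.fst_add, Prod.snd_add, b4_addr, Prod.mk_add_mk, add_smul]; congr 1; ring; congr 1; abel
  map_smul' c v := by
    simp only [Prod.smul_fst, Prod.smul_snd, b4_smr, Prod.smul_mk, smul_eq_mul, RingHom.id_apply, smul_add, mul_smul]
    congr 1; ring

/-- the opposite transvection -/
def tf : C6 →ₗ[K4] C6 where
  toFun w := (w.1, w.2.1, w.2.2 + w.1)
  map_add' u v := by simp only [Prod.fst_add, Prod.snd_add, Prod.mk_add_mk]; congr 2; ring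
  map_smul' c v := by
    simp only [Prod.smul_fst, Prod.smul_snd, Prod.smul_mk, smul_eq_mul, RingHom.id_apply, mul_add]

/-- an isometry that is induced by a conjugation -/
def Mv (p : C6 → G) (g : G) (τ : C6 →ₗ[K4] C6) : Prop :=
  (∀ u w, B6 (τ u) (τ w) = B6 u w) ∧ ∀ w, Is B6 w → g * p w * g⁻¹ = p (τ w)

/-- the properties of a point -/
structure Gd (X : Set G) (p : C6 → G) (u : C6) : Prop where
  is : Is B6 u
  op : ∀ w, Is B6 w → p u * p w * p u = p (w + B6 u w • u)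
  inj : ∀ w, Is B6 w → p u = p w → ∃ c : K4, w = c • u
  m : p u ∈ X
  o : orderOf (p u) = 2
  l : loc X (p u) ⊆ p '' {w | Is B6 w}

theorem Gd.mv {p : C6 → G} {u : C6} (h : Gd X p u) (hc : ∀ g : G, ∀ x ∈ X, g * x * g⁻¹ ∈ X) {g : G}
    {τ : C6 →ₗ[K4] C6} (m : Mv p g τ) : Gd X p (τ u) := by
  have inj : Function.Injective τ := (injective_iff_map_eq_zero τ).2 fun w e => sp6.hB.nd w fun u => by
    rw [← m.1, e, map_zero, LinearMap.zero_apply]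
  have is : ∀ w, Is B6 (τ w) ↔ Is B6 w := fun w => by rw [Is, Is, m.1, Ne, map_eq_zero_iff τ inj]
  have sur := Finite.injective_iff_surjective.1 inj
  have e := m.2 u h.is
  refine ⟨(is u).2 h.is, fun w hw => ?_, fun w hw k => ?_, e ▸ hc g _ h.m,
    e ▸ ((MulAut.conj g).orderOf_eq _).trans h.o, fun y hy => ?_⟩
  · obtain ⟨w, rfl⟩ := sur w
    rw [is] at hw
    rw [← e, ← m.2 w hw, conj_mul, conj_mul, h.op w hw, m.2 _ (h.is.op sp6 hw), map_add, map_smul, m.1]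
  · obtain ⟨w, rfl⟩ := sur w
    rw [is] at hw
    rw [← e, ← m.2 w hw, mul_left_inj, mul_right_inj] at k
    exact (h.inj w hw k).imp fun c e => by rw [e, map_smul]
  · rw [← e] at hy
    obtain ⟨w, hw, k⟩ := h.l (a := g⁻¹ * y * g⁻¹⁻¹) ⟨hc _ y hy.1, fun e => hy.2.1 (by simp [← e, mul_assoc]),
      by simpa using (commute_conj_left_iff _ _ _).1 hy.2.2⟩
    exact ⟨τ w, (is w).2 hw, by rw [← m.2 w hw, k]; group⟩

theorem is6 {c α : K4} {v : C4} : Is B6 (c, v, α) ↔ (c, v, α) ≠ 0 ∧ cj4 c * α + b4 v v + cj4 α * c = 0 := Iff.rfl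

/-- the normal forms of the isotropic vectors -/
theorem nf6 {w : C6} (hw : Is B6 w) : ∃ k : K4, k ≠ 0 ∧ ∃ u, Is B6 u ∧ w = k • u ∧ (u = (1, 0, 0) ∨
    (∃ v, I4 v ∧ (u = (0, v, 0) ∨ u = (1, v, 0))) ∨ ∃ c v, u = (c, v, 1)) := by
  obtain ⟨c, v, α⟩ := w
  have key : ∀ k : K4, k ≠ 0 → Is B6 (k⁻¹ • (c, v, α)) ∧ (c, v, α) = k • k⁻¹ • ((c, v, α) : C6) := fun k h =>
    ⟨hw.smul (inv_ne_zero h), (smul_inv_smul₀ h _).symm⟩
  by_cases a0 : α = 0
  · subst a0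
    have hv : b4 v v = 0 := by simpa [cj_zero] using (is6.1 hw).2
    by_cases c0 : c = 0
    · subst c0
      exact ⟨1, one_ne_zero, _, hw, (one_smul _ _).symm, .inr (.inl ⟨v, ⟨fun e => hw.1 (by rw [e]; rfl), hv⟩, .inl rfl⟩)⟩
    refine ⟨c, c0, _, (key c c0).1, (key c c0).2, ?_⟩
    by_cases v0 : v = 0
    · left; simp [v0, c0]
    · exact .inr (.inl ⟨_, I4.smul ⟨v0, hv⟩ (inv_ne_zero c0), .inr (by simp [c0])⟩)
  · exact ⟨α, a0, _, (key α a0).1, (key α a0).2, .inr (.inr ⟨α⁻¹ * c, α⁻¹ • v, by simp [a0]⟩)⟩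

theorem r3l {y a b : G} (hb : b * b = 1) (h1 : a * y * a = y * a * y)
    (h2 : b * y * b = y * b * y) (h3 : a * b * a = b * a * b)
    (h4 : a * b * a * y * (a * b * a) = y * (a * b * a) * y) :
    y * (b * (a * y * a) * b) * y = a * (b * y * b) * a := by
  calc _ = y * b * y * a * (y * b * y) := by rw [h1]; simp only [mul_assoc]
    _ = b * (y * (b * a * b) * y) * b := by rw [← h2]; simp only [mul_assoc]
    _ = b * (b * a * b * y * (b * a * b)) * b := by rw [← h3, ← h4]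
    _ = _ := by simp only [mul_assoc, cancel_of_mul_self hb, hb, mul_one]

theorem s4l {y a b : G} (ha : a * a = 1) (h1 : a * y * a = y * a * y)
    (h2 : b * y * b = y * b * y) (h3 : Commute a b) :
    y * (a * (b * y * b) * a) * y = a * (b * y * b) * a := by
  calc _ = y * a * y * b * (y * a * y) := by rw [h2]; simp only [mul_assoc]
    _ = a * (y * (a * b * a) * y) * a := by rw [← h1]; simp only [mul_assoc]
    _ = _ := by rw [h3.eq, mul_assoc b, ha, mul_one, h2]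

namespace HS
variable (h : HS X d S γ) {v a : C4} {c : K4} {e f : ZMod 2}
include h

omit h in
theorem pe : pt6 d y S γ (c, 0, 0) = d := by simp [pt6]

omit h in
theorem pv (hv : I4 v) : pt6 d y S γ (c, v, 0) = PT S γ v c := by simp [pt6, hv.1]

omit h in
theorem pf : pt6 d y S γ (c, v, 1) = YT S y v (c + c0 v).re := by simp [pt6]

theorem psm6 {w : C6} (hw : Is B6 w) (hc : c ≠ 0) : pt6 d y S γ (c • w) = pt6 d y S γ w := by
  obtain ⟨k, v, α⟩ := w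
  by_cases a0 : α = 0
  · subst a0
    by_cases v0 : v = 0
    · simp [pt6, v0]
    · have hv : I4 v := ⟨v0, by simpa [cj_zero] using (is6.1 hw).2⟩
      rw [Prod.smul_mk, Prod.smul_mk, smul_zero, pv hv, pv (hv.smul hc), smul_eq_mul, h.psm hv hc]
  · have e1 : (c * α)⁻¹ * c = α⁻¹ := by field_simp
    simp only [pt6, Prod.smul_mk, smul_eq_mul, mul_eq_zero, a0, hc, or_self, if_false, smul_smul, ← mul_assoc, e1]

theorem mv_of {g : G} {τ : C6 →ₗ[K4] C6} (h1 : ∀ u w, B6 (τ u) (τ w) = B6 u w)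
    (h2 : g * d * g⁻¹ = pt6 d y S γ (τ (1, 0, 0)))
    (h3 : ∀ v c, I4 v → c = 0 ∨ c = 1 → g * PT S γ v c * g⁻¹ = pt6 d y S γ (τ (c, v, 0)))
    (h4 : ∀ c v, cj4 c + b4 v v + c = 0 → g * YT S y v (c + c0 v).re * g⁻¹ = pt6 d y S γ (τ (c, v, 1))) :
    Mv (pt6 d y S γ) g τ := by
  refine ⟨h1, fun w hw => ?_⟩
  obtain ⟨k, k0, u, hu, rfl, e⟩ := nf6 hw
  rw [map_smul, h.psm6 hu k0, h.psm6 ⟨fun e => hu.1 (sp6.hB.nd u fun x => by
    rw [← h1, e, map_zero, LinearMap.zero_apply]), (h1 ..).trans hu.2⟩ k0]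
  rcases e with rfl | ⟨v, hv, rfl | rfl⟩ | ⟨c, v, rfl⟩
  · rwa [pe]
  · rw [pv hv, h3 v 0 hv (.inl rfl)]
  · rw [pv hv, h3 v 1 hv (.inr rfl)]
  · rw [pf, h4 c v (by simpa [cj_one] using (is6.1 hu).2)]

theorem sY : S a e * YT S y v f * (S a e)⁻¹ = YT S y (a + v) (e + f + kp a v) := by
  rw [YT, YT, ← h.mul]; group

theorem mvS (a : C4) (e : ZMod 2) : Mv (pt6 d y S γ) (S a e) (hz a e) := by
  refine h.mv_of (fun u w => ?_) ?_ (fun v c hv _ => ?_) fun c v _ => ?_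
  · have e1 : cj4 (c0 a + ⟨e, 0⟩) + (c0 a + ⟨e, 0⟩) = b4 a a := by
      exact (by decide : ∀ (x : K4) (e : ZMod 2), cj4 x = x →
        cj4 ((w4 + 1) * x + ⟨e, 0⟩) + ((w4 + 1) * x + ⟨e, 0⟩) = x) _ e (b4_cj a a)
    simp only [hz, LinearMap.coe_mk, AddHom.coe_mk, B6_eq, b4_addl, b4_addr, b4_sml, b4_smr, cj_add _ (_ * _),
      cj_add u.1, cj_mul u.2.2, b4_cj]
    linear_combination (cj4 u.2.2 * w.2.2) * e1 + (b4 u.2.1 a * w.2.2 + cj4 u.2.2 * b4 a w.2.1 +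
      cj4 u.2.2 * w.2.2 * b4 a a) * k2'
  · simp [hz, pe, ← h.cS.eq]
  · simp [hz, pv hv, h.sP hv]
  · simp only [hz, LinearMap.coe_mk, AddHom.coe_mk, one_smul, one_mul, pf, h.sY, add_comm a v]
    congr 1
    simp only [c0, kp, b4_addl, b4_addr, ← b4_cj a v]
    exact (by decide +kernel : ∀ (e : ZMod 2) (c x r s : K4), e + (c + (w4 + 1) * s).re + (x.re + x.im) =
      (c + x + ((w4 + 1) * r + ⟨e, 0⟩) + (w4 + 1) * (s + x + (cj4 x + r))).re) _ _ _ _ _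

variable (hX : ∀ x ∈ X, ∃ S γ, HS X x S γ) (hd : d ∈ X) (hy : y ∈ X) (hn : ¬ Commute d y)
  (hb : d * y * d = y * d * y) (hg : ∀ v, I4 v → Commute y (γ v))
include hX hd hy hn hb hg

theorem mvY : Mv (pt6 d y S γ) y tf := by
  obtain ⟨S', γ', h'⟩ := hX y hy
  have y2 := h'.d2
  have br : ∀ v c, I4 v → c ≠ 0 → PT S γ v c * y * PT S γ v c = y * PT S γ v c * y := fun v c hv c0 => by
    have m := h.mem (k := 0) hv
    have m' := h.mem (k := c) hv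
    obtain ⟨S', γ', h'⟩ := hX _ m.1
    exact h'.braid' ⟨m'.1, fun e => c0 (h.pinj' hv e), (h.comm hv hv).2 hv.2⟩
      ⟨hy, fun e => hn (e ▸ m.2.2), h.p0 ▸ (hg v hv).symm⟩
      fun e => c0 (h.uniq hX hd hy hn hv e.symm (h.p0 ▸ hg v hv))
  have py : ∀ u, I4 u → ∀ v e, PT S γ u 1 * YT S y v e * PT S γ u 1 =
      YT S y (u + t4 u v) (1 + e + kp u (t4 u v)) := fun u hu v e => by
    nth_rewrite 2 [← inv_of_mul_self (h.p2 hu)]
    rw [← h.sY, PT, cj_one, one_smul, YT, YT, ← h.gs u hu, mul_inv_rev, mul_inv_rev, mul_inv_rev,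
      inv_of_mul_self (h.g2 u hu)]
    simp only [mul_assoc]
    rw [← mul_assoc (γ u) y, ← (hg u hu).eq, mul_assoc y, cancel_of_mul_self (h.g2 u hu)]
    rfl
  have y0 : YT S y 0 0 = y := by simp [YT, h.s00]
  have p1 : ∀ u, I4 u → PT S γ u 1 * y * PT S γ u 1 = YT S y u 1 := fun u hu => by
    simpa [y0, t4_zero, kp_of (b4_zr _)] using py u hu 0 0
  have dy : ∀ v e, d * YT S y v e * d = YT S y v (1 + e) := fun v e => by
    simpa [h.s0, inv_of_mul_self h.d2, kp_of (b4_zl _)] using h.sY (y := y) (a := 0) (e := 1) (v := v) (f := e)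
  have r3 : ∀ v, b4 v v = 1 → y * YT S y v 1 * y = YT S y (w4 • v) 0 := fun v hv => by
    obtain ⟨a, b, -, ha, hb, e1, e2, e3, e4, e5⟩ := e3 v hv
    have := r3l (h.p2 hb) (br a 1 ha one_ne_zero) (br b 1 hb one_ne_zero)
      (h.braid ha hb (by rw [e1]; decide)) (by
        rw [h.op ha hb]; exact br _ _ (hb.t ha.2) (by rw [e1]; decide))
    rwa [p1 a ha, p1 b hb, py b hb, py a ha, e2, e3, e4, e5] at this
  refine h.mv_of (fun u w => ?_) ?_ (fun v c hv e => ?_) fun c v e => ?_ <;>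
    simp only [tf, LinearMap.coe_mk, AddHom.coe_mk, inv_of_mul_self y2, zero_add]
  · simp only [B6_eq, cj_add]
    linear_combination (cj4 u.1 * w.1) * k2'
  · rw [pf, ← hb, ← y0, dy, y0, c0, b4_zl]; rfl
  · rcases e with rfl | rfl
    · rw [pv hv, h.p0, (hg v hv).eq, mul_assoc, y2, mul_one]
    · rw [pf, ← br v 1 hv one_ne_zero, p1 v hv, c0, hv.2]; rfl
  have i1 : ∀ c v, cj4 c + b4 v v + c = 0 → Is B6 (c, v, 1) := fun c v e =>
    is6.2 ⟨by simp, by simpa [cj_one] using e⟩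
  rcases (by decide : ∀ c n : K4, cj4 c + n + c = 0 → n = 0 ∧ c = 0 ∨ n = 0 ∧ c = 1 ∨ n = 1 ∧ c = w4 ∨
    n = 1 ∧ c = w4 + 1) _ _ e with ⟨n, rfl⟩ | ⟨n, rfl⟩ | ⟨n, rfl⟩ | ⟨n, rfl⟩
  · rw [add_zero, pf, c0, n, show (0 + (w4 + 1) * 0).re = 1 + 1 from rfl, ← dy]
    by_cases v0 : v = 0
    · rw [v0, dy, show (1 + 1 : ZMod 2) = 0 from rfl, y0, y2, one_mul]
    · rw [← p1 v ⟨v0, n⟩]
      exact s4l h.d2 hb (br v 1 ⟨v0, n⟩ one_ne_zero) (h.mem ⟨v0, n⟩).2.2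
  · rw [k2, c0, n, show (1 + (w4 + 1) * 0).re = 1 from rfl]
    by_cases v0 : v = 0
    · rw [v0, pe, show YT S y 0 1 = d * y * d by rw [← y0, dy, y0]; rfl, hb]
      simp only [mul_assoc, cancel_of_mul_self y2, y2, mul_one]
    · rw [pv ⟨v0, n⟩, ← p1 v ⟨v0, n⟩, br v 1 ⟨v0, n⟩ one_ne_zero]
      simp only [mul_assoc, cancel_of_mul_self y2, y2, mul_one]
  · have n' : b4 (w4 • v) (w4 • v) = 1 := by rw [b4_sml, b4_smr, n]; decide
    rw [show ((w4, v, 1 + w4) : C6) = (w4 + 1) • (w4 + 1, w4 • v, 1) by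
      rw [Prod.smul_mk, Prod.smul_mk, smul_smul, show (w4 + 1) * w4 = 1 by decide, one_smul]; congr 1,
      h.psm6 (i1 _ _ (by rw [n']; decide)) (by decide), pf, c0, c0, n, n']
    exact r3 v n
  · have n' : b4 ((w4 + 1) • v) ((w4 + 1) • v) = 1 := by rw [b4_sml, b4_smr, n]; decide
    have := r3 _ n'
    rw [smul_smul, show w4 * (w4 + 1) = 1 by decide, one_smul] at this
    rw [show ((w4 + 1, v, 1 + (w4 + 1)) : C6) = w4 • (w4, (w4 + 1) • v, 1) by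
      rw [Prod.smul_mk, Prod.smul_mk, smul_smul, show w4 * (w4 + 1) = 1 by decide, one_smul]; congr 1,
      h.psm6 (i1 _ _ (by rw [n']; decide)) (by decide), pf, c0, c0, n, n']
    change y * YT S y v 0 * y = YT S y _ 1
    rw [← this]
    simp only [mul_assoc, cancel_of_mul_self y2, y2, mul_one]

theorem gd (hc : ∀ g : G, ∀ x ∈ X, g * x * g⁻¹ ∈ X) {w : C6} (hw : Is B6 w) : Gd X (pt6 d y S γ) w := by
  have i0 : Is B6 (1, 0, 0) := is6.2 ⟨by simp, by simp [b4_zl, cj_zero]⟩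
  have g0 : Gd X (pt6 d y S γ) (1, 0, 0) := by
    refine ⟨i0, fun w hw => ?_, fun w hw e => ?_, by rwa [pe], by rw [pe]; exact orderOf_two_of h.d2 h.d1, fun x hx => ?_⟩
    · have := (h.mvS (y := y) 0 1).2 w hw
      rw [h.s0, inv_of_mul_self h.d2] at this
      rw [pe, this]
      congr 1
      simp [hz, B6_eq, b4_zl, c0, cj_one, cj_zero, Prod.ext_iff]
      exact mul_one _
    · obtain ⟨k, k0, u, hu, rfl, e'⟩ := nf6 hw
      rw [h.psm6 hu k0, pe] at e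
      rcases e' with rfl | ⟨v, hv, rfl | rfl⟩ | ⟨c, v, rfl⟩
      · exact ⟨k, rfl⟩
      · exact absurd (e.trans (pv hv)).symm (h.mem hv).2.1
      · exact absurd (e.trans (pv hv)).symm (h.mem hv).2.1
      · rw [pf, YT, eq_comm, mul_inv_eq_iff_eq_mul, h.cS.eq, mul_right_inj] at e
        exact absurd (e ▸ Commute.refl y) hn
    · obtain ⟨v, k, hv, rfl⟩ := (h.loc x).1 (by rwa [pe] at hx)
      exact ⟨(k, v, 0), is6.2 ⟨by simp [hv.1], by simp [hv.2, cj_zero]⟩, pv hv⟩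
  have my := h.mvY hX hd hy hn hb hg
  have g1 : ∀ c v, cj4 c + b4 v v + c = 0 → Gd X (pt6 d y S γ) (c, v, 1) := fun c v e => by
    have := (g0.mv hc my).mv hc (h.mvS v (1 + c + c0 v).re)
    simp only [hz, tf, LinearMap.coe_mk, AddHom.coe_mk, zero_add, one_smul, b4_zr, add_zero, one_mul] at this
    convert this using 2
    exact (by decide : ∀ c x : K4, cj4 c + x + c = 0 →
      c = 1 + ((w4 + 1) * x + ⟨(1 + c + (w4 + 1) * x).re, 0⟩)) c _ e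
  obtain ⟨k, k0, u, hu, rfl, e⟩ := nf6 hw
  refine Gd.mv (p := pt6 d y S γ) (τ := k • LinearMap.id) (u := u) (g := 1) ?_ hc ⟨fun u w => ?_, fun w hw => by
    rw [one_mul, inv_one, mul_one]; exact (h.psm6 (y := y) hw k0).symm⟩
  · rcases e with rfl | ⟨v, hv, e⟩ | ⟨c, v, rfl⟩
    · exact g0
    · have g2 : Gd X (pt6 d y S γ) (1, v, 0) := by
        simpa [tf, k2] using (g1 1 v (by rw [hv.2]; decide)).mv hc my
      rcases e with rfl | rfl
      · obtain ⟨q, -, hq⟩ := ex_b4 v hv.1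
        simpa [hz, hq, k2] using g2.mv hc (h.mvS q 0)
      · exact g2
    · exact g1 c v (by simpa [cj_one] using (is6.1 hu).2)
  · simp [← cj4_eq, mul_comm k, mul_right_comm _ _ k, cj_nm k k0]

end HS

theorem HS.uc (h : HS X d S γ) (hX : ∀ x ∈ X, ∃ S γ, HS X x S γ)
    (hc : ∀ g : G, ∀ x ∈ X, g * x * g⁻¹ ∈ X) (hd : d ∈ X) :
    ∃ Δ p, UC B6 Δ p ∧ Δ ⊆ X ∧ d ∈ Δ ∧ ∀ v ∈ Δ, Fischer.loc X v ⊆ Δ := by
  obtain ⟨y, hy, hn, hb, hg⟩ := h.exy hX hc hd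
  have g := fun w => h.gd hX hd hy hn hb hg hc (w := w)
  refine ⟨_ '' {w | Is B6 w}, pt6 d y S γ, ⟨⟨⟨?_, ?_⟩, ?_⟩, fun u hu => ⟨u, hu, rfl⟩, fun y hy => hy,
    fun u c hu hc => h.psm6 hu hc, fun u v hu => (g u hu).inj v, fun u v hu => (g u hu).op v⟩, ?_,
    ⟨(1, 0, 0), is6.2 ⟨by simp, by simp [b4_zl, cj_zero]⟩, HS.pe⟩, ?_⟩
  · rintro _ ⟨u, hu, rfl⟩; exact (g u hu).o
  · rintro _ ⟨u, hu, rfl⟩ _ ⟨v, hv, rfl⟩
    have s1 := mul_self_of_orderOf_two (g u hu).o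
    have s2 := mul_self_of_orderOf_two (g v hv).o
    have h1 := (g u hu).op v hv
    by_cases e : B6 u v = 0
    · rw [e, zero_smul, add_zero] at h1
      exact Or.inl (sq_of_commute s1 s2 (by
        rw [Commute, SemiconjBy, ← mul_inv_eq_iff_eq_mul, inv_of_mul_self s1, h1]))
    · refine Or.inr (cube_of_braid s1 s2 ?_)
      have h' : B6 v u ≠ 0 := fun e' => e (sp6.hB.zero_symm e')
      rw [h1, (g v hv).op u hu, ← h.psm6 (hu.op sp6 hv) h', smul_add, smul_smul, ← sp6.hB.symm u v,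
        norm_eq_one c4 inv4 e, one_smul, add_comm]
  · rintro _ ⟨u, hu, rfl⟩ _ ⟨v, hv, rfl⟩
    exact ⟨_, hu.op sp6 hv, ((g u hu).op v hv).symm⟩
  · rintro _ ⟨u, hu, rfl⟩; exact (g u hu).m
  · rintro _ ⟨u, hu, rfl⟩; exact (g u hu).l

end Cfsg.Agent.LF
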