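import Mathlib

namespace Cfsg.Agent.LF
open Subgroup
open scoped commutatorElement

theorem outer_cent {X : Type*} [Group X] [Finite X] {G0 C : Subgroup X} {t y : X}
    (hi : G0.index = 2) (h1 : C ≤ G0 ⊓ centralizer {t})
    (h2 : C.relIndex (G0 ⊓ centralizer {t}) = 2) (ht : orderOf t = 2) (htC : t ∈ C)
    (hp : Group.IsPerfect C) (hc : G0 ⊓ centralizer (C : Set X) ≤ C)
    {S : Type*} [Group S] [Finite S] (hz : center S = ⊥) (π : C →* S)
    (hπ : Function.Surjective π) (hk : ∀ g, π g = 1 ↔ g.1 ∈ zpowers t)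
    (hA : Nat.card (MulAut S) ≤ 2 * Nat.card S) (hy : y ∉ G0) (hy' : Commute y t) :
    ∃ d, d ∉ G0 ∧ d ∈ centralizer (C : Set X) := by
  classical
  haveI hG0n : G0.Normal := Subgroup.normal_of_index_eq_two hi
  set Z : Subgroup X := centralizer {t} with hZ
  set D : Subgroup X := G0 ⊓ Z with hD
  -- C = ⁅D, D⁆
  have hCC : ⁅C, C⁆ = C := by
    have h := hp.commutator_eq_top
    have h' := congrArg (Subgroup.map C.subtype) h
    rw [commutator_def, Subgroup.map_commutator, ← MonoidHom.range_eq_map, Subgroup.range_subtype] at h'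
    exact h'
  have hDC : ⁅D, D⁆ = C := by
    apply le_antisymm
    · rw [Subgroup.commutator_le]
      intro a ha b hb
      have hi2 : (C.subgroupOf D).index = 2 := h2
      haveI : (C.subgroupOf D).Normal := Subgroup.normal_of_index_eq_two hi2
      have hcard : Nat.card (D ⧸ C.subgroupOf D) = 2 := hi2
      haveI : Fact (Nat.Prime 2) := ⟨Nat.prime_two⟩
      haveI : IsCyclic (D ⧸ C.subgroupOf D) := isCyclic_of_prime_card hcard
      have hcomm : ∀ u v : D ⧸ C.subgroupOf D, u * v = v * u := fun u v =>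
        (IsCyclic.commGroup (α := D ⧸ C.subgroupOf D)).mul_comm u v
      have : (QuotientGroup.mk (⁅(⟨a, ha⟩ : D), (⟨b, hb⟩ : D)⁆) : D ⧸ C.subgroupOf D) = 1 := by
        have e : (QuotientGroup.mk (⁅(⟨a, ha⟩ : D), (⟨b, hb⟩ : D)⁆) : D ⧸ C.subgroupOf D)
            = ⁅(QuotientGroup.mk (⟨a, ha⟩ : D) : D ⧸ C.subgroupOf D), QuotientGroup.mk (⟨b, hb⟩ : D)⁆ :=
          map_commutatorElement (QuotientGroup.mk' (C.subgroupOf D)) _ _
        rw [e, commutatorElement_eq_one_iff_mul_comm]
        exact hcomm _ _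
      rw [QuotientGroup.eq_one_iff, Subgroup.mem_subgroupOf] at this
      simpa [commutatorElement_def] using this
    · calc C = ⁅C, C⁆ := hCC.symm
        _ ≤ ⁅D, D⁆ := Subgroup.commutator_mono h1 h1
  have hZt : ∀ z ∈ Z, z * t = t * z := fun z hz => by
    have := (Subgroup.mem_centralizer_iff.1 hz) t (Set.mem_singleton t)
    exact this.symm
  have hDn : ∀ z ∈ Z, ∀ d ∈ D, z * d * z⁻¹ ∈ D := fun z hz d hd =>
    ⟨hG0n.conj_mem d hd.1 z, Z.mul_mem (Z.mul_mem hz hd.2) (Z.inv_mem hz)⟩
  have hCn : ∀ z ∈ Z, ∀ c ∈ C, z * c * z⁻¹ ∈ C := by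
    intro z hz c hc'
    have hle : (⁅D, D⁆ : Subgroup X).map (MulAut.conj z).toMonoidHom ≤ ⁅D, D⁆ := by
      rw [Subgroup.map_commutator]
      have : D.map (MulAut.conj z).toMonoidHom ≤ D := by
        rintro _ ⟨d, hd, rfl⟩
        exact hDn z hz d hd
      exact Subgroup.commutator_mono this this
    rw [hDC] at hle
    exact hle ⟨c, hc', rfl⟩
  -- conj preserves zpowers t
  have hconjt : ∀ z ∈ Z, ∀ g ∈ zpowers t, z * g * z⁻¹ = g := by
    intro z hz g hg
    obtain ⟨k, rfl⟩ := hg
    have : Commute z t := hZt z hz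
    have := (this.zpow_right k).eq
    simp only at this ⊢
    rw [this]; group
  -- the action on S
  let cj : Z → C →* C := fun z =>
    { toFun := fun c => ⟨z.1 * c.1 * z.1⁻¹, hCn z.1 z.2 c.1 c.2⟩
      map_one' := by ext; simp
      map_mul' := fun a b => by ext; simp only [Subgroup.coe_mul]; group }
  have hcj : ∀ z c, ((cj z c : C) : X) = z.1 * c.1 * z.1⁻¹ := fun _ _ => rfl
  have hker : ∀ z : Z, π.ker ≤ (π.comp (cj z)).ker := by
    intro z g hg
    rw [MonoidHom.mem_ker] at hg ⊢
    rw [MonoidHom.comp_apply, hk, hcj, hconjt z.1 z.2 _ ((hk g).1 hg)]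
    exact (hk g).1 hg
  let f : Z → S →* S := fun z => π.liftOfSurjective hπ ⟨π.comp (cj z), hker z⟩
  have hf : ∀ z c, f z (π c) = π (cj z c) := fun z c =>
    MonoidHom.liftOfRightInverse_comp_apply _ _ _ _ _
  have hf1 : ∀ s, f 1 s = s := by
    intro s
    obtain ⟨c, rfl⟩ := hπ s
    rw [hf]; congr 1; ext; rw [hcj]; simp
  have hfm : ∀ a b s, f (a * b) s = f a (f b s) := by
    intro a b s
    obtain ⟨c, rfl⟩ := hπ s
    rw [hf, hf, hf]; congr 1; ext; rw [hcj, hcj, hcj]; simp only [Subgroup.coe_mul]; group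
  let φ : Z →* MulAut S :=
    { toFun := fun z =>
        { toFun := f z
          invFun := f z⁻¹
          left_inv := fun s => by rw [← hfm, inv_mul_cancel, hf1]
          right_inv := fun s => by rw [← hfm, mul_inv_cancel, hf1]
          map_mul' := fun a b => map_mul _ a b }
      map_one' := by ext s; exact hf1 s
      map_mul' := fun a b => by ext s; exact hfm a b s }
  have hφ : ∀ z c, φ z (π c) = π (cj z c) := fun z c => hf z c
  -- kernel centralises C
  have hkc : ∀ z : Z, φ z = 1 → z.1 ∈ centralizer (C : Set X) := by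
    intro z hz1
    have hA1 : ∀ c : C, z.1 * c.1 * z.1⁻¹ * c.1⁻¹ ∈ zpowers t := by
      intro c
      have h3 := hφ z c
      rw [hz1, MulAut.one_apply] at h3
      have h4 : π (cj z c * c⁻¹) = 1 := by rw [map_mul, map_inv, ← h3, mul_inv_cancel]
      have h5 := (hk _).1 h4
      simpa [hcj] using h5
    have hcent : ∀ c : C, ∀ g ∈ zpowers t, c.1 * g = g * c.1 := by
      intro c g hg
      have := hconjt c.1 (h1 c.2).2 g hg
      calc c.1 * g = c.1 * g * c.1⁻¹ * c.1 := by group
        _ = g * c.1 := by rw [this]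
    -- the subgroup of C fixed by z contains commutators
    have hle : ⁅C, C⁆ ≤ centralizer {z.1} := by
      rw [Subgroup.commutator_le]
      intro a ha b hb
      rw [Subgroup.mem_centralizer_iff]
      intro w hw
      rw [Set.mem_singleton_iff] at hw
      subst hw
      set u := z.1 * a * z.1⁻¹ * a⁻¹ with hu
      set v := z.1 * b * z.1⁻¹ * b⁻¹ with hv
      have hu' : u ∈ zpowers t := hA1 ⟨a, ha⟩
      have hv' : v ∈ zpowers t := hA1 ⟨b, hb⟩
      have ea : z.1 * a * z.1⁻¹ = u * a := by rw [hu]; group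
      have eb : z.1 * b * z.1⁻¹ = v * b := by rw [hv]; group
      have cua : Commute a u := hcent ⟨a, ha⟩ u hu'
      have cub : Commute b u := hcent ⟨b, hb⟩ u hu'
      have cva : Commute a v := hcent ⟨a, ha⟩ v hv'
      have cvb : Commute b v := hcent ⟨b, hb⟩ v hv'
      have cuv : Commute u v := by
        obtain ⟨k, hk1⟩ := hu'
        obtain ⟨l, hl1⟩ := hv'
        rw [← hk1, ← hl1]
        exact Commute.zpow_zpow_self t k l
      have key : z.1 * ⁅a, b⁆ * z.1⁻¹ = ⁅a, b⁆ := by
        have e1 : z.1 * ⁅a, b⁆ * z.1⁻¹ = ⁅z.1 * a * z.1⁻¹, z.1 * b * z.1⁻¹⁆ := by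
          simp only [commutatorElement_def]; group
        rw [e1, ea, eb]
        simp only [commutatorElement_def, mul_inv_rev]
        have c1 : Commute u (a * (v * b) * a⁻¹) :=
          (cua.symm.mul_right (cuv.mul_right cub.symm)).mul_right cua.symm.inv_right
        have c2 : Commute v (b * a⁻¹ * b⁻¹) :=
          (cvb.symm.mul_right cva.symm.inv_right).mul_right cvb.symm.inv_right
        calc u * a * (v * b) * (a⁻¹ * u⁻¹) * (b⁻¹ * v⁻¹)
            = (u * (a * (v * b) * a⁻¹)) * u⁻¹ * (b⁻¹ * v⁻¹) := by group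
          _ = ((a * (v * b) * a⁻¹) * u) * u⁻¹ * (b⁻¹ * v⁻¹) := by rw [c1.eq]
          _ = a * (v * (b * a⁻¹ * b⁻¹)) * v⁻¹ := by group
          _ = a * ((b * a⁻¹ * b⁻¹) * v) * v⁻¹ := by rw [c2.eq]
          _ = a * b * a⁻¹ * b⁻¹ := by group
      calc z.1 * ⁅a, b⁆ = z.1 * ⁅a, b⁆ * z.1⁻¹ * z.1 := by group
        _ = ⁅a, b⁆ * z.1 := by rw [key]
    rw [hCC] at hle
    rw [Subgroup.mem_centralizer_iff]
    intro c hc'
    have := (Subgroup.mem_centralizer_iff.1 (hle hc')) z.1 (Set.mem_singleton _)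
    exact this.symm
  by_contra hcon
  push Not at hcon
  -- kernel elements lie in zpowers t
  have hkt : ∀ z : Z, φ z = 1 → z.1 ∈ zpowers t := by
    intro z hz1
    have hzc := hkc z hz1
    have hzG : z.1 ∈ G0 := by
      by_contra hn
      exact hcon z.1 hn hzc
    have hzC : z.1 ∈ C := hc ⟨hzG, hzc⟩
    have : π ⟨z.1, hzC⟩ ∈ center S := by
      rw [Subgroup.mem_center_iff]
      intro s
      obtain ⟨c, rfl⟩ := hπ s
      rw [← map_mul, ← map_mul]
      congr 1
      ext
      exact (Subgroup.mem_centralizer_iff.1 hzc) c.1 c.2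
    rw [hz, Subgroup.mem_bot] at this
    exact (hk _).1 this
  have hkcard : Nat.card φ.ker ≤ 2 := by
    have : Nat.card (zpowers t) = 2 := by rw [Nat.card_zpowers, ht]
    rw [← this]
    refine Nat.card_le_card_of_injective
      (fun z : φ.ker => (⟨z.1.1, hkt z.1 z.2⟩ : zpowers t)) ?_
    intro a b hab
    have := congrArg (fun w : zpowers t => (w : X)) hab
    exact Subtype.ext (Subtype.ext this)
  have hZle : Nat.card Z ≤ 2 * (2 * Nat.card S) := by
    have e1 : Nat.card φ.ker * φ.ker.index = Nat.card Z := Subgroup.card_mul_index _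
    have e2 : φ.ker.index = Nat.card φ.range := Subgroup.index_ker φ
    have e3 : Nat.card φ.range ≤ Nat.card (MulAut S) := Subgroup.card_le_card_group _
    rw [← e1, e2]
    exact Nat.mul_le_mul hkcard (e3.trans hA)
  have hCcard : Nat.card C = 2 * Nat.card S := by
    have e1 : Nat.card π.ker * π.ker.index = Nat.card C := Subgroup.card_mul_index _
    have e2 : π.ker.index = Nat.card S := by
      rw [Subgroup.index_ker, MonoidHom.range_eq_top.2 hπ, Subgroup.card_top]
    have e3 : π.ker = (zpowers t).subgroupOf C := by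
      ext g; rw [MonoidHom.mem_ker, hk, Subgroup.mem_subgroupOf]
    have e4 : Nat.card π.ker = 2 := by
      rw [e3, Nat.card_congr (Subgroup.subgroupOfEquivOfLe
        ((Subgroup.zpowers_le (G := X)).2 htC)).toEquiv, Nat.card_zpowers, ht]
    rw [← e1, e2, e4]
  have hDcard : Nat.card D = 2 * Nat.card C := by
    have e1 : Nat.card (C.subgroupOf D) * (C.subgroupOf D).index = Nat.card D :=
      Subgroup.card_mul_index _
    have e2 : (C.subgroupOf D).index = 2 := h2
    rw [← e1, e2, Nat.card_congr (Subgroup.subgroupOfEquivOfLe h1).toEquiv, mul_comm]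
  have hyZ : y ∈ Z := by
    rw [hZ, Subgroup.mem_centralizer_iff]
    intro w hw
    rw [Set.mem_singleton_iff] at hw
    subst hw
    exact hy'.eq.symm
  have hZge : 2 * Nat.card D ≤ Nat.card Z := by
    have e1 : Nat.card (D.subgroupOf Z) * (D.subgroupOf Z).index = Nat.card Z :=
      Subgroup.card_mul_index _
    have hle : D ≤ Z := inf_le_right
    have e2 : (D.subgroupOf Z).index ≠ 1 := by
      intro h
      rw [Subgroup.index_eq_one] at h
      have : (⟨y, hyZ⟩ : Z) ∈ D.subgroupOf Z := by rw [h]; trivial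
      exact hy (Subgroup.mem_subgroupOf.1 this).1
    have e3 : (D.subgroupOf Z).index ≠ 0 := Subgroup.index_ne_zero_of_finite
    have e4 : 2 ≤ (D.subgroupOf Z).index := by omega
    rw [← e1, Nat.card_congr (Subgroup.subgroupOfEquivOfLe hle).toEquiv, mul_comm]
    exact Nat.mul_le_mul_left _ e4
  have hS : 0 < Nat.card S := Nat.card_pos
  omega

end Cfsg.Agent.LF
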