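import Mathlib

/-! An outer element commuting with a 2-central involution. -/

namespace Cfsg.Agent.LF

open Subgroup

theorem outer_z {X : Type*} [Group X] [Finite X] {G0 : Subgroup X} (hi : G0.index = 2) {z : G0}
    (hz : orderOf z = 2) {Q : Subgroup G0} (P : Sylow 2 G0)
    (hP : ∀ x ∈ (P : Subgroup G0), Commute x z) (hzP : z ∈ (P : Subgroup G0)) (hQ : IsPGroup 2 Q)
    (hQz : Q ≤ centralizer {z}) (hn : centralizer {z} ≤ normalizer (Q : Set G0))
    (hc : ∀ g : G0, (∀ q ∈ Q, Commute g q) → g = 1 ∨ g = z) :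
    ∃ y : X, y ∉ G0 ∧ Commute y z.1 := by
  haveI : Fact (Nat.Prime 2) := ⟨Nat.prime_two⟩
  haveI : G0.Normal := normal_of_index_eq_two hi
  have hPn : (P : Subgroup G0) ≤ normalizer (Q : Set G0) := fun x hx =>
    hn (mem_centralizer_singleton_iff.2 (hP x hx).eq)
  have hQP : Q ≤ (P : Subgroup G0) := by
    have h := P.is_maximal' (IsPGroup.to_sup_of_normal_left' hQ P.isPGroup' hPn) le_sup_right
    exact h ▸ le_sup_left
  obtain ⟨y, hy, hy0⟩ : ∃ y ∈ normalizer (((P : Subgroup G0).map G0.subtype : Subgroup X) : Set X),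
      y ∉ G0 := by
    by_contra h
    push Not at h
    have e := P.normalizer_sup_eq_top
    have : G0 = ⊤ := top_le_iff.1 (e ▸ sup_le h le_rfl)
    rw [this, index_top] at hi
    omega
  refine ⟨y, hy0, ?_⟩
  have hz' : y * z.1 * y⁻¹ ∈ G0 := Normal.conj_mem inferInstance _ z.2 y
  rcases hc ⟨_, hz'⟩ (fun q hq => by
    have h1 : y⁻¹ * q.1 * y⁻¹⁻¹ ∈ (P : Subgroup G0).map G0.subtype :=
      (mem_normalizer_iff.1 (inv_mem hy) _).1 ⟨q, hQP hq, rfl⟩
    obtain ⟨a, ha, e⟩ := h1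
    have h2 := congrArg Subtype.val (hP a ha).eq
    have e' : a.1 = y⁻¹ * q.1 * y := by simpa using e
    refine Subtype.ext ?_
    simp only [coe_mul, e'] at h2 ⊢
    calc y * z.1 * y⁻¹ * q.1 = y * (z.1 * (y⁻¹ * q.1 * y)) * y⁻¹ := by group
      _ = y * (y⁻¹ * q.1 * y * z.1) * y⁻¹ := by rw [h2]
      _ = q.1 * (y * z.1 * y⁻¹) := by group) with h | h
  · have h1 : y * z.1 * y⁻¹ = 1 := congrArg Subtype.val h
    have h2 : z.1 = 1 := by
      calc z.1 = y⁻¹ * (y * z.1 * y⁻¹) * y := by group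
        _ = 1 := by rw [h1]; group
    have : z = 1 := Subtype.ext h2
    rw [this, orderOf_one] at hz
    omega
  · have h1 : y * z.1 * y⁻¹ = z.1 := congrArg Subtype.val h
    exact mul_inv_eq_iff_eq_mul.1 h1

end Cfsg.Agent.LF
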