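import Mathlib
import Cfsg.Prelude.Def_CaseTheorems
import Cfsg.Prelude.Def_FischerSpaces

/-! Transport of the involution-centralizer property of type M(22) along an isomorphism. -/

set_option autoImplicit false

namespace Cfsg.Agent.LF

open Subgroup

/-- an involution with quasisimple centralizer `2.U6(2)`, not weakly closed in it -/
def MT22 (Γ : Type*) [Group Γ] : Prop :=
  ∃ d' : Γ, orderOf d' = 2 ∧ Cfsg.IsQuasisimple ↥(centralizer ({d'} : Set Γ)) ∧
    (∃ (K : Type) (_ : Field K) (_ : Fintype K), Fintype.card K = 4 ∧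
      ∃ _ : ((zpowers d').subgroupOf (centralizer ({d'} : Set Γ))).Normal,
        Nonempty (↥(centralizer ({d'} : Set Γ)) ⧸ (zpowers d').subgroupOf (centralizer ({d'} : Set Γ)) ≃*
          Cfsg.PSU 6 K 2)) ∧
    ∃ g, g * d' * g⁻¹ ∈ centralizer ({d'} : Set Γ) ∧ g * d' * g⁻¹ ≠ d'

/-- the isomorphism of centralizers induced by an isomorphism -/
def ptCen {Γ Γ' : Type*} [Group Γ] [Group Γ'] (e : Γ ≃* Γ') (d : Γ) :
    centralizer ({d} : Set Γ) ≃* centralizer ({e d} : Set Γ') where
  toFun x := ⟨e x.1, mem_centralizer_singleton_iff.2 (by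
    rw [← map_mul, ← map_mul, mem_centralizer_singleton_iff.1 x.2])⟩
  invFun y := ⟨e.symm y.1, mem_centralizer_singleton_iff.2 (e.injective (by
    simpa using mem_centralizer_singleton_iff.1 y.2))⟩
  left_inv x := Subtype.ext (e.symm_apply_apply _)
  right_inv y := Subtype.ext (e.apply_symm_apply _)
  map_mul' x y := Subtype.ext (map_mul e _ _)

theorem pt_quasi {A B : Type*} [Group A] [Group B] (e : A ≃* B) (h : Cfsg.IsQuasisimple A) :
    Cfsg.IsQuasisimple B := by
  obtain ⟨h1, h2⟩ := h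
  have hc : (center A).map (e : A →* B) = center B := by
    ext y
    obtain ⟨x, rfl⟩ := e.surjective y
    rw [show e x = (e : A →* B) x from rfl, mem_map_iff_mem e.injective, mem_center_iff, mem_center_iff]
    refine ⟨fun h g => ?_, fun h g => e.injective (by simpa using h (e g))⟩
    obtain ⟨g, rfl⟩ := e.surjective g
    simpa using congrArg e (h g)
  exact ⟨Group.IsPerfect.ofSurjective (f := (e : A →* B)) e.surjective,
    (QuotientGroup.congr _ _ e hc).symm.isSimpleGroup⟩

theorem MT22.congr {Γ Γ' : Type*} [Group Γ] [Group Γ'] (e : Γ ≃* Γ') (h : MT22 Γ) : MT22 Γ' := by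
  obtain ⟨d, h1, h2, ⟨K, _, _, hK, hn, ⟨f⟩⟩, g, h3, h4⟩ := h
  have hm : ((zpowers d).subgroupOf (centralizer ({d} : Set Γ))).map
      (ptCen e d : centralizer ({d} : Set Γ) →* centralizer ({e d} : Set Γ')) =
      (zpowers (e d)).subgroupOf (centralizer ({e d} : Set Γ')) := by
    ext y
    obtain ⟨x, rfl⟩ := (ptCen e d).surjective y
    rw [show ptCen e d x = (ptCen e d : centralizer ({d} : Set Γ) →* centralizer ({e d} : Set Γ')) x
      from rfl, mem_map_iff_mem (ptCen e d).injective, mem_subgroupOf, mem_subgroupOf]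
    show x.1 ∈ zpowers d ↔ (e : Γ →* Γ') x.1 ∈ zpowers ((e : Γ →* Γ') d)
    rw [← MonoidHom.map_zpowers]
    exact (mem_map_iff_mem (f := (e : Γ →* Γ')) e.injective).symm
  have hn' : ((zpowers (e d)).subgroupOf (centralizer ({e d} : Set Γ'))).Normal :=
    hm ▸ hn.map _ (ptCen e d).surjective
  refine ⟨e d, by rw [MulEquiv.orderOf_eq, h1], pt_quasi (ptCen e d) h2,
    ⟨K, inferInstance, inferInstance, hK, hn', ⟨(QuotientGroup.congr _ _ (ptCen e d) hm).symm.trans f⟩⟩,
    e g, ?_, fun h => h4 (e.injective (by simpa using h))⟩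
  have h5 : e (g * d * g⁻¹) ∈ centralizer ({e d} : Set Γ') := (ptCen e d ⟨_, h3⟩).2
  rwa [map_mul, map_mul, map_inv] at h5

end Cfsg.Agent.LF
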