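import Mathlib
import Cfsg.Agent.Transfer.Abelian

/-! A Thompson-transfer argument modulo a central involution. -/

set_option autoImplicit false

namespace Cfsg.Agent.LF

open Subgroup

theorem idx2 {C : Type*} [Group C] [Finite C] {t u : C} (hz : ∀ g, Commute g t)
    (ht : t * t = 1) (hu : u * u = t) (T : Sylow 2 C) (T0 : Subgroup C) (h0 : T0 ≤ T)
    (hi : ∀ a ∈ (T : Subgroup C), ∀ b ∈ (T : Subgroup C), a ∉ T0 → b ∉ T0 → a * b ∈ T0)
    (htT : t ∈ T0) (hn : ∀ v ∈ T0, v * v ≠ t) :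
    ∃ C0 : Subgroup C, C0.index = 2 ∧ t ∈ C0 ∧ u ∉ C0 := by
  have : Fact (Nat.Prime 2) := ⟨Nat.prime_two⟩
  have hcj : ∀ g : C, g * t * g⁻¹ = t := fun g => by rw [(hz g).eq]; simp
  have hnc : ∀ g : C, g * u * g⁻¹ ∉ T0 := fun g hg => hn _ hg (by
    rw [show g * u * g⁻¹ * (g * u * g⁻¹) = g * (u * u) * g⁻¹ by group, hu, hcj])
  -- a conjugate of `u` lies in `T`
  obtain ⟨w, hwT, hw0⟩ : ∃ w ∈ (T : Subgroup C), w ∉ T0 := by
    have hu4 : u ^ 4 = 1 := by
      rw [show u ^ 4 = (u * u) * (u * u) by simp only [pow_succ, pow_zero, one_mul, mul_assoc], hu, ht]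
    have hp : IsPGroup 2 (zpowers u) := by
      rintro ⟨x, hx⟩
      obtain ⟨k, rfl⟩ := mem_zpowers_iff.mp hx
      refine ⟨2, Subtype.ext ?_⟩
      show (u ^ k) ^ 4 = 1
      rw [← zpow_natCast, ← zpow_mul, mul_comm, zpow_mul, zpow_natCast, hu4, one_zpow]
    obtain ⟨Q, hQ⟩ := hp.exists_le_sylow
    obtain ⟨g, hg⟩ := MulAction.exists_smul_eq C Q T
    refine ⟨g * u * g⁻¹, ?_, hnc g⟩
    rw [← hg]
    exact ⟨u, hQ (mem_zpowers u), rfl⟩
  have hQi : T0.relIndex T = 2 := by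
    rw [relIndex, index_eq_two_iff]
    refine ⟨⟨w, hwT⟩, fun b => ?_⟩
    by_cases hb : b.1 ∈ T0
    · refine Or.inr ⟨hb, fun h => hw0 ?_⟩
      have h' : b.1 * w ∈ T0 := h
      simpa using T0.mul_mem (T0.inv_mem hb) h'
    · exact Or.inl ⟨hi _ b.2 _ hwT hb hw0, hb⟩
  have hH : Odd (T : Subgroup C).index :=
    Nat.odd_iff.mpr (Nat.two_dvd_ne_zero.mp T.not_dvd_index)
  generalize (T : Subgroup C) = H at *
  have hnn : (T0.subgroupOf H).Normal := normal_of_index_eq_two hQi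
  have hcard : Nat.card (H ⧸ T0.subgroupOf H) = 2 := hQi
  have hcyc : IsCyclic (H ⧸ T0.subgroupOf H) := isCyclic_of_prime_card hcard
  let _ : CommGroup (H ⧸ T0.subgroupOf H) := hcyc.commGroup
  obtain ⟨c, hc, hc'⟩ := (Nat.card_eq_two_iff' (1 : H ⧸ T0.subgroupOf H)).mp hcard
  have hc2 : c ^ 2 = 1 := by rw [← hcard, pow_card_eq_one']
  have hu2 : ∀ g : C, g⁻¹ * u ^ 2 * g = t := fun g => by
    rw [sq, hu]; simpa using hcj g⁻¹
  set V := MonoidHom.transfer (QuotientGroup.mk' (T0.subgroupOf H)) with hV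
  have hVu : V u = c := by
    rw [hV, Transfer.transfer_eq_pow_of_forall _ u c]
    · obtain ⟨m, hm⟩ := hH
      rw [hm, pow_succ, pow_mul, hc2, one_pow, one_mul]
    · intro k g hg hk hk0
      have hk2 : k ≤ 2 := by
        by_contra hlt
        exact hk 2 two_pos (by omega) (by rw [hu2]; exact h0 htT)
      interval_cases k
      · rw [pow_one c]
        apply hc'
        intro h1
        rw [QuotientGroup.mk'_apply, QuotientGroup.eq_one_iff, mem_subgroupOf] at h1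
        exact hnc g⁻¹ (by simpa using h1)
      · rw [hc2, QuotientGroup.mk'_apply, QuotientGroup.eq_one_iff, mem_subgroupOf]
        simpa [hu2] using htT
  refine ⟨V.ker, ?_, ?_, by rw [MonoidHom.mem_ker, hVu]; exact hc⟩
  · suffices hr : V.range = ⊤ by rw [index_ker, hr, card_top, hcard]
    rw [eq_top_iff]
    intro y _
    by_cases hy : y = 1
    · exact hy ▸ one_mem _
    · exact ⟨u, by rw [hVu, hc' y hy]⟩
  · rw [MonoidHom.mem_ker, ← hu, map_mul, hVu, ← sq, hc2]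

end Cfsg.Agent.LF
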