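import Mathlib
import Cfsg.Prelude.Def_CaseTheorems

/-! The centralizer of an involution modulo a central involution. -/

set_option autoImplicit false

namespace Cfsg.Agent.LF
open scoped commutatorElement

theorem py_z {G : Type*} [Group G] {t x : G} (ht : orderOf t = 2) (h : x ∈ Subgroup.zpowers t) :
    x = 1 ∨ x = t := by
  obtain ⟨n, rfl⟩ := Subgroup.mem_zpowers_iff.1 h
  have h2 : t ^ (2 : ℤ) = 1 := by
    have := pow_orderOf_eq_one t
    rw [ht] at this
    exact_mod_cast this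
  rcases Int.even_or_odd' n with ⟨m, rfl | rfl⟩
  · left; rw [zpow_mul, h2, one_zpow]
  · right; rw [zpow_add, zpow_mul, h2, one_zpow, one_mul, zpow_one]

theorem py_quasi {K X : Type*} [Group K] [Group X] [IsSimpleGroup X] (hp : Group.IsPerfect K)
    (π : K →* X) (hπ : Function.Surjective π) (h1 : π.ker ≤ Subgroup.center K) :
    IsQuasisimple K := by
  have h7 : Subgroup.center K = π.ker := le_antisymm (by
    rcases Subgroup.Normal.eq_bot_or_eq_top
      (Subgroup.Normal.map (inferInstance : (Subgroup.center K).Normal) _ hπ) with e | e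
    · exact fun g hg => Subgroup.mem_bot.1 (e.le ⟨g, hg, rfl⟩)
    · have h2 : commutator K ≤ π.ker := Subgroup.commutator_le.2 fun a _ b _ => by
        obtain ⟨c, hc, e⟩ := e.ge (Subgroup.mem_top (π a))
        rw [MonoidHom.mem_ker, map_commutatorElement, ← e, ← map_commutatorElement,
          commutatorElement_eq_one_iff_mul_comm.2 (Subgroup.mem_center_iff.1 hc b).symm, map_one]
      rw [Group.IsPerfect.commutator_eq_top] at h2
      exact le_top.trans h2) h1
  exact ⟨hp, ((QuotientGroup.quotientMulEquivOfEq h7).trans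
    (QuotientGroup.quotientKerEquivOfSurjective π hπ)).isSimpleGroup⟩

theorem cen22 {G : Type*} [Group G] [Finite G] {t s u : G} {K C0 : Subgroup G}
    (ht : orderOf t = 2) (hs : orderOf s = 2) (hst : s ≠ t) (hc : Commute s t)
    (hK : ∀ g, g ∈ K ↔ Commute g t ∧ Commute g s) (hp : Group.IsPerfect K) (X : Type*) [Group X]
    [IsSimpleGroup X] (π : K →* X) (hπ : Function.Surjective π)
    (hk : ∀ g, π g = 1 ↔ g.1 ∈ Subgroup.closure ({t, s} : Set G))
    (h1 : C0 ≤ Subgroup.centralizer {t}) (h2 : C0.relIndex (Subgroup.centralizer {t}) = 2)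
    (h3 : u ∈ Subgroup.centralizer {t}) (h4 : u ∉ C0) (h5 : u * s * u⁻¹ = s * t)
    [hn : ((Subgroup.zpowers t).subgroupOf C0).Normal] :
    K ≤ C0 ∧ ∃ hs' : s ∈ C0,
      let d : C0 ⧸ (Subgroup.zpowers t).subgroupOf C0 := QuotientGroup.mk ⟨s, hs'⟩
      orderOf d = 2 ∧ IsQuasisimple (Subgroup.centralizer {d}) ∧
        ∃ _ : ((Subgroup.zpowers d).subgroupOf (Subgroup.centralizer {d})).Normal,
          Nonempty (Subgroup.centralizer {d} ⧸
            (Subgroup.zpowers d).subgroupOf (Subgroup.centralizer {d}) ≃* X) := by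
  have hKC : K ≤ Subgroup.centralizer {t} := fun g hg =>
    Subgroup.mem_centralizer_singleton_iff.2 ((hK g).1 hg).1
  have hm : ∀ a b : Subgroup.centralizer ({t} : Set G),
      (a * b).1 ∈ C0 ↔ (a.1 ∈ C0 ↔ b.1 ∈ C0) := fun a b =>
    Subgroup.mul_mem_iff_of_index_two (H := C0.subgroupOf (Subgroup.centralizer {t})) h2
  have hK0 : K ≤ C0 := by
    have h6 : commutator K ≤ C0.subgroupOf K := Subgroup.commutator_le.2 fun a _ b _ => by
      have e1 := hm (⟨a, hKC a.2⟩ * ⟨b, hKC b.2⟩ * ⟨a, hKC a.2⟩⁻¹) ⟨b, hKC b.2⟩⁻¹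
      refine e1.2 ?_
      rw [hm, hm]
      simp only [Subgroup.coe_inv, inv_mem_iff]
      tauto
    rw [Group.IsPerfect.commutator_eq_top] at h6
    exact fun g hg => h6 (Subgroup.mem_top (⟨g, hg⟩ : K))
  have sK : s ∈ K := (hK s).2 ⟨hc, Commute.refl s⟩
  have tK : t ∈ K := (hK t).2 ⟨Commute.refl t, hc.symm⟩
  refine ⟨hK0, hK0 sK, ?_⟩
  intro d
  let φ : K →* C0 ⧸ (Subgroup.zpowers t).subgroupOf C0 :=
    (QuotientGroup.mk' _).comp (Subgroup.inclusion hK0)
  have hφ : ∀ g : K, φ g = 1 ↔ g.1 ∈ Subgroup.zpowers t := fun g => QuotientGroup.eq_one_iff _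
  have hd : φ ⟨s, sK⟩ = d := rfl
  have hmem : ∀ g : K, φ g ∈ Subgroup.centralizer {d} := fun g => by
    rw [Subgroup.mem_centralizer_singleton_iff, ← hd, ← map_mul, ← map_mul]
    exact congrArg φ (Subtype.ext ((hK g).1 g.2).2.eq)
  let ψ : K →* Subgroup.centralizer {d} := φ.codRestrict _ hmem
  have hψ : Function.Surjective ψ := by
    rintro ⟨x, hx⟩
    obtain ⟨g, rfl⟩ := QuotientGroup.mk_surjective x
    have gt : Commute g.1 t := Subgroup.mem_centralizer_singleton_iff.1 (h1 g.2)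
    have h6 : ((g * ⟨s, hK0 sK⟩)⁻¹ * (⟨s, hK0 sK⟩ * g)) ∈ (Subgroup.zpowers t).subgroupOf C0 :=
      QuotientGroup.eq.1 (Subgroup.mem_centralizer_singleton_iff.1 hx)
    have h7 : (g.1 * s)⁻¹ * (s * g.1) ∈ Subgroup.zpowers t := h6
    rcases py_z ht h7 with e | e
    · exact ⟨⟨g, (hK g).2 ⟨gt, inv_mul_eq_one.1 e⟩⟩, rfl⟩
    · have h8 : g.1 * u ∈ K := (hK _).2 ⟨gt.mul_left (Subgroup.mem_centralizer_singleton_iff.1 h3), by
        have e1 : s * g.1 = g.1 * s * t := by rw [← e]; group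
        calc g.1 * u * s = g.1 * (u * s * u⁻¹) * u := by group
          _ = s * (g.1 * u) := by rw [h5, ← mul_assoc, ← e1, mul_assoc]⟩
      exact (h4 ((C0.mul_mem_cancel_left g.2).1 (hK0 h8))).elim
  have hker : ψ.ker ≤ π.ker := fun g hg => (hk g).2
    (Subgroup.zpowers_le.2 (Subgroup.subset_closure (by simp))
      ((hφ g).1 (congrArg Subtype.val (MonoidHom.mem_ker.1 hg))))
  let π' : Subgroup.centralizer {d} →* X := ψ.liftOfSurjective hψ ⟨π, hker⟩
  have hπ' : ∀ g, π' (ψ g) = π g := fun g => ψ.liftOfRightInverse_comp_apply _ _ _ g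
  have hs' : Function.Surjective π' := fun x => by
    obtain ⟨g, rfl⟩ := hπ x
    exact ⟨_, hπ' g⟩
  have hE : (Subgroup.zpowers d).subgroupOf (Subgroup.centralizer {d}) = π'.ker := by
    ext x
    obtain ⟨g, rfl⟩ := hψ x
    rw [MonoidHom.mem_ker, hπ', hk]
    change φ g ∈ Subgroup.zpowers d ↔ _
    constructor
    · rintro ⟨n, hn⟩
      have h6 : φ ((⟨s, sK⟩ ^ n)⁻¹ * g) = 1 := by
        rw [map_mul, map_inv, map_zpow, hd, ← hn]
        exact inv_mul_cancel _
      have h7 : (s ^ n)⁻¹ * g.1 ∈ Subgroup.closure ({t, s} : Set G) :=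
        Subgroup.zpowers_le.2 (Subgroup.subset_closure (by simp)) ((hφ _).1 h6)
      exact (Subgroup.mul_mem_cancel_left _ (inv_mem (zpow_mem
        (Subgroup.subset_closure (by simp)) n))).1 h7
    · intro hg
      have h6 : Subgroup.closure ({t, s} : Set G) ≤
          ((Subgroup.zpowers d).comap φ).map K.subtype := by
        rw [Subgroup.closure_le]
        rintro x (rfl | rfl)
        · refine ⟨⟨x, tK⟩, ?_, rfl⟩
          change φ ⟨x, tK⟩ ∈ Subgroup.zpowers d
          rw [(hφ ⟨x, tK⟩).2 (Subgroup.mem_zpowers x)]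
          exact one_mem _
        · exact ⟨⟨x, sK⟩, Subgroup.mem_zpowers d, rfl⟩
      obtain ⟨y, hy, e⟩ := h6 hg
      rwa [← Subtype.ext e]
  have hp' : Group.IsPerfect (Subgroup.centralizer {d}) := Group.IsPerfect.ofSurjective hψ
  have hN : ((Subgroup.zpowers d).subgroupOf (Subgroup.centralizer {d})).Normal :=
    hE ▸ MonoidHom.normal_ker π'
  refine ⟨?_, py_quasi hp' π' hs' ?_, hN,
    ⟨(QuotientGroup.quotientMulEquivOfEq hE).trans
      (QuotientGroup.quotientKerEquivOfSurjective π' hs')⟩⟩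
  · have := Fact.mk Nat.prime_two
    refine orderOf_eq_prime ?_ fun e => ?_
    · rw [← hd, ← map_pow, show (⟨s, sK⟩ : K) ^ 2 = 1 from Subtype.ext (hs ▸ pow_orderOf_eq_one s),
        map_one]
    · rcases py_z ht ((hφ ⟨s, sK⟩).1 e) with e | e
      · have e' : s = 1 := e
        rw [e', orderOf_one] at hs
        omega
      · exact hst e
  · rw [← hE]
    rintro x ⟨n, hn⟩
    refine Subgroup.mem_center_iff.2 fun g => Subtype.ext ?_
    have h6 : Commute g.1 d := Subgroup.mem_centralizer_singleton_iff.1 g.2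
    have h7 : x.1 = d ^ n := hn.symm
    change g.1 * x.1 = x.1 * g.1
    rw [h7]
    exact (h6.zpow_right n).eq

end Cfsg.Agent.LF
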