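import Mathlib
import Cfsg.Prelude.Def_FischerSpaces
import Cfsg.Agent.Fischer.Basic

/-! Line systems with three points per line; the two plane models; Fischer spaces. -/

set_option autoImplicit false

namespace Cfsg.Agent.Fischer

open Cfsg Cfsg.LineSystem

variable {X Y : Type*} {L : Set (Set X)} {M : Set (Set Y)}

/-- `z` is a third point on a line through the different points `x`, `y` -/
def Third (L : Set (Set X)) (x y z : X) : Prop := z ≠ x ∧ z ≠ y ∧ x ≠ y ∧ ({x, y, z} : Set X) ∈ L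

theorem Third.swap12 {x y z : X} (h : Third L x y z) : Third L y x z :=
  ⟨h.2.1, h.1, h.2.2.1.symm, by rw [Set.insert_comm]; exact h.2.2.2⟩

theorem Third.swap23 {x y z : X} (h : Third L x y z) : Third L x z y :=
  ⟨h.2.2.1.symm, h.2.1.symm, h.1.symm, by rw [Set.pair_comm]; exact h.2.2.2⟩

theorem Third.unique (hp : IsPartialLinear L) {x y z w : X} (h : Third L x y z)
    (h' : Third L x y w) : z = w := by
  have := hp _ h.2.2.2 _ h'.2.2.2 x y h.2.2.1 (by simp) (by simp) (by simp) (by simp)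
  have hz : z ∈ ({x, y, w} : Set X) := by rw [← this]; simp
  rcases hz with h1 | h1 | h1
  exacts [(h.1 h1).elim, (h.2.1 h1).elim, h1]

theorem exists_third_of_line (h3 : ∀ l ∈ L, l.ncard = 3) {l : Set X} (hl : l ∈ L) :
    ∃ a b c, Third L a b c ∧ l = {a, b, c} := by
  obtain ⟨a, b, c, h1, h2, h4, rfl⟩ := Set.ncard_eq_three.1 (h3 l hl)
  exact ⟨a, b, c, ⟨h2.symm, h4.symm, h1, hl⟩, rfl⟩

theorem exists_third_of_mem (h3 : ∀ l ∈ L, l.ncard = 3) {l : Set X} (hl : l ∈ L) {x y : X}
    (hx : x ∈ l) (hy : y ∈ l) (hne : x ≠ y) : ∃ z, Third L x y z ∧ l = {x, y, z} := by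
  obtain ⟨a, b, c, h, rfl⟩ := exists_third_of_line h3 hl
  rcases hx with rfl | rfl | rfl <;> rcases hy with rfl | rfl | rfl
  · exact (hne rfl).elim
  · exact ⟨c, h, rfl⟩
  · exact ⟨b, h.swap23, by rw [Set.pair_comm]⟩
  · exact ⟨c, h.swap12, by rw [Set.insert_comm]⟩
  · exact (hne rfl).elim
  · exact ⟨a, h.swap12.swap23, by ext; simp only [Set.mem_insert_iff, Set.mem_singleton_iff]; tauto⟩
  · exact ⟨b, h.swap23.swap12, by ext; simp only [Set.mem_insert_iff, Set.mem_singleton_iff]; tauto⟩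
  · exact ⟨a, h.swap12.swap23.swap12, by
      ext; simp only [Set.mem_insert_iff, Set.mem_singleton_iff]; tauto⟩
  · exact (hne rfl).elim

theorem exists_third_of_mem_one (h3 : ∀ l ∈ L, l.ncard = 3) {l : Set X} (hl : l ∈ L) {x : X}
    (hx : x ∈ l) : ∃ y z, Third L x y z ∧ l = {x, y, z} := by
  obtain ⟨a, b, c, h, rfl⟩ := exists_third_of_line h3 hl
  by_cases h1 : x = a
  · exact ⟨b, c, h1 ▸ h, by rw [h1]⟩
  · exact ⟨a, exists_third_of_mem h3 hl hx (by simp) h1⟩

theorem lineMap_of_third (hp : IsPartialLinear L) {x y z : X} (h : Third L x y z) :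
    lineMap L x y = z := by
  have he : ∃ z : X, z ≠ x ∧ z ≠ y ∧ x ≠ y ∧ ({x, y, z} : Set X) ∈ L := ⟨z, h⟩
  unfold lineMap
  rw [dif_pos he]
  exact Third.unique hp he.choose_spec h

theorem lineMap_of_not {x y : X} (h : ¬ ∃ z, Third L x y z) : lineMap L x y = y := by
  unfold lineMap
  exact dif_neg h

theorem isIso_of_third (hL : ∀ l ∈ L, l.ncard = 3) (hM : ∀ l ∈ M, l.ncard = 3) (e : X ≃ Y)
    (h : ∀ a b c, Third L a b c ↔ Third M (e a) (e b) (e c)) : IsIso L M e := fun l => by
  constructor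
  · intro hl
    obtain ⟨a, b, c, h1, rfl⟩ := exists_third_of_line hL hl
    simpa [Set.image_insert_eq] using ((h a b c).1 h1).2.2.2
  · intro hl
    obtain ⟨a, b, c, h1, h2⟩ := exists_third_of_line hM hl
    have h3 : l = {e.symm a, e.symm b, e.symm c} := by
      apply e.injective.image_injective
      simpa [Set.image_insert_eq] using h2
    rw [h3]
    exact ((h _ _ _).2 (by simpa using h1)).2.2.2

theorem third_of_isIso {e : X ≃ Y} (h : IsIso L M e) (a b c : X) :
    Third L a b c ↔ Third M (e a) (e b) (e c) := by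
  simp only [Third, h _, Set.image_insert_eq, Set.image_singleton, Ne, e.injective.eq_iff]

theorem third_restrict {S : Set X} (a b c : S) :
    Third (restrict L S) a b c ↔ Third L (a : X) b c := by
  simp only [Third, Ne, Subtype.ext_iff]
  refine and_congr_right fun _ => and_congr_right fun _ => and_congr_right fun _ => ?_
  constructor
  · rintro ⟨l, hl, hS, h⟩
    have : l = {(a : X), (b : X), (c : X)} := by
      ext x
      constructor
      · intro hx
        have : (⟨x, hS hx⟩ : S) ∈ ({a, b, c} : Set S) := by rw [h]; exact hx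
        simpa [Subtype.ext_iff] using this
      · intro hx
        have key : ∀ y : S, y ∈ ({a, b, c} : Set S) → (y : X) ∈ l := fun y hy => by
          rw [h] at hy; exact hy
        rcases hx with rfl | rfl | rfl <;> exact key _ (by simp)
    exact this ▸ hl
  · intro h
    refine ⟨_, h, ?_, ?_⟩
    · rintro x (rfl | rfl | rfl) <;> exact Subtype.coe_prop _
    · ext x
      simp [Subtype.ext_iff]

theorem restrict_ncard (hL : ∀ l ∈ L, l.ncard = 3) (S : Set X) :
    ∀ l ∈ restrict L S, l.ncard = 3 := by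
  rintro _ ⟨l, hl, hS, rfl⟩
  rw [← hL l hl, ← Set.ncard_image_of_injective _ Subtype.val_injective]
  congr 1
  ext x
  constructor
  · rintro ⟨y, hy, rfl⟩
    exact hy
  · exact fun hx => ⟨⟨x, hS hx⟩, hx, rfl⟩

theorem subset_span (S : Set X) : S ⊆ span L S := fun _ hx _ hT => hT.1 hx

theorem span_isSubspace (S : Set X) : IsSubspace L (span L S) :=
  fun l hl x hx y hy hne hxl hyl _ hz T hT => hT.2 l hl x (hx T hT) y (hy T hT) hne hxl hyl hz

theorem Third.mem_subspace {S : Set X} (hS : IsSubspace L S) {x y z : X} (h : Third L x y z)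
    (hx : x ∈ S) (hy : y ∈ S) : z ∈ S :=
  hS _ h.2.2.2 x hx y hy h.2.2.1 (by simp) (by simp) (by simp)

/-! ### The two models -/

def agOp (x y : Fin 2 → ZMod 3) : Fin 2 → ZMod 3 := -x - y

def daOp (x y : DualAffinePoint) : DualAffinePoint :=
  if h : (symmDiff x.val y.val).card = 2 then ⟨_, h⟩ else y

theorem ag_line (v w : Fin 2 → ZMod 3) :
    {x | ∃ c : ZMod 3, x = v + c • w} = {v, v + w, agOp v (v + w)} := by
  ext x
  have h3 : ∀ c : ZMod 3, c = 0 ∨ c = 1 ∨ c = 2 := by decide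
  have h2 : agOp v (v + w) = v + (2 : ZMod 3) • w := by
    revert v w; decide
  simp only [Set.mem_setOf_eq, Set.mem_insert_iff, Set.mem_singleton_iff, h2]
  constructor
  · rintro ⟨c, rfl⟩
    rcases h3 c with rfl | rfl | rfl <;> simp
  · rintro (rfl | rfl | rfl)
    exacts [⟨0, by simp⟩, ⟨1, by simp⟩, ⟨2, rfl⟩]

theorem ag_ncard : ∀ l ∈ affinePlaneThree, l.ncard = 3 := by
  rintro _ ⟨v, w, hw, rfl⟩
  rw [ag_line, Set.ncard_eq_three]
  refine ⟨_, _, _, ?_, ?_, ?_, rfl⟩ <;> revert v w <;> decide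

theorem ag_third (x y z : Fin 2 → ZMod 3) :
    Third affinePlaneThree x y z ↔ agOp x y ≠ y ∧ z = agOp x y := by
  constructor
  · rintro ⟨h1, h2, h3, v, w, -, h⟩
    have hx : x ∈ {x | ∃ c : ZMod 3, x = v + c • w} := by rw [← h]; simp
    have hy : y ∈ {x | ∃ c : ZMod 3, x = v + c • w} := by rw [← h]; simp
    have hz : z ∈ {x | ∃ c : ZMod 3, x = v + c • w} := by rw [← h]; simp
    obtain ⟨a, rfl⟩ := hx
    obtain ⟨b, rfl⟩ := hy
    obtain ⟨c, rfl⟩ := hz
    clear h
    revert v w a b c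
    decide +kernel
  · rintro ⟨h1, rfl⟩
    refine ⟨?_, h1, ?_, x, y - x, ?_, by rw [ag_line]; simp⟩ <;> revert x y <;> decide

theorem da_ncard : ∀ l ∈ dualAffinePlaneTwo, l.ncard = 3 := by
  rintro _ ⟨i, rfl⟩
  rw [Set.ncard_eq_toFinset_card']
  revert i
  decide

theorem da_third (x y z : DualAffinePoint) :
    Third dualAffinePlaneTwo x y z ↔ daOp x y ≠ y ∧ z = daOp x y := by
  simp only [Third, dualAffinePlaneTwo, Set.mem_setOf_eq, Set.ext_iff, Set.mem_insert_iff,
    Set.mem_singleton_iff]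
  revert x y z
  set_option synthInstance.maxSize 2048 in decide +kernel

/-- in a model with third-point operation `op`, transport of `lineMap` -/
theorem lineMap_model (hp : IsPartialLinear L) {S : Set X} (hS : IsSubspace L S) {op : Y → Y → Y}
    (hM : ∀ x y z, Third M x y z ↔ op x y ≠ y ∧ z = op x y) {e : S ≃ Y}
    (he : IsIso (restrict L S) M e) (a b : S) :
    lineMap L a b = e.symm (op (e a) (e b)) := by
  by_cases h : ∃ z, Third L (a : X) b z
  · obtain ⟨z, hz⟩ := h
    have hzS := hz.mem_subspace hS a.2 b.2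
    have := (hM _ _ _).1 ((third_of_isIso he a b ⟨z, hzS⟩).1 ((third_restrict _ _ _).2 hz))
    rw [← this.2, lineMap_of_third hp hz]
    simp
  · rw [lineMap_of_not h]
    by_contra hne
    refine h ⟨e.symm (op (e a) (e b)), (third_restrict _ _ _).1 ((third_of_isIso he _ _ _).2 ?_)⟩
    rw [hM]
    refine ⟨fun h' => hne ?_, by simp⟩
    rw [h']
    simp

theorem lineMap_invol (hp : IsPartialLinear L) (x y : X) : lineMap L x (lineMap L x y) = y := by
  by_cases h : ∃ z, Third L x y z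
  · obtain ⟨z, hz⟩ := h
    rw [lineMap_of_third hp hz, lineMap_of_third hp hz.swap23]
  · rw [lineMap_of_not h, lineMap_of_not h]

theorem third_lineMap (hL : IsFischerSpace L) (x : X) {a b c : X} (h : Third L a b c) :
    Third L (lineMap L x a) (lineMap L x b) (lineMap L x c) := by
  have hp := hL.1
  have hxx : lineMap L x x = x := lineMap_of_not fun ⟨_, h⟩ => h.2.2.1 rfl
  have key : ∀ {a b c a' : X}, Third L a b c → Third L x a a' →
      Third L (lineMap L x a) (lineMap L x b) (lineMap L x c) := by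
    intro a b c a' h h'
    by_cases hxb : x = b
    · subst hxb
      rw [hxx, lineMap_of_third hp h.swap12, lineMap_of_third hp h.swap12.swap23]
      exact h.swap23.swap12.swap23
    by_cases hxc : x = c
    · subst hxc
      rw [hxx, lineMap_of_third hp h.swap23.swap12, lineMap_of_third hp h.swap23.swap12.swap23]
      exact h.swap12
    have hne : ({a, b, c} : Set X) ≠ {x, a, a'} := fun he => by
      have : x ∈ ({a, b, c} : Set X) := by rw [he]; simp
      rcases this with h1 | h1 | h1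
      exacts [h'.2.2.1 h1, hxb h1, hxc h1]
    have hS := span_isSubspace (L := L) ({a, b, c} ∪ {x, a, a'})
    have hsub := subset_span (L := L) ({a, b, c} ∪ {x, a, a'})
    have gen : ∀ {Y : Type} {M : Set (Set Y)} {op : Y → Y → Y},
        (∀ x y z, Third M x y z ↔ op x y ≠ y ∧ z = op x y) →
        (∀ x a b, op a b ≠ b → op (op x a) (op x b) ≠ op x b ∧
          op x (op a b) = op (op x a) (op x b)) →
        Isomorphic (restrict L (span L ({a, b, c} ∪ {x, a, a'}))) M →
        Third L (lineMap L x a) (lineMap L x b) (lineMap L x c) := by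
      rintro Y M op hM hop ⟨e, he⟩
      have t1 := lineMap_model hp hS hM he ⟨x, hsub (by simp)⟩
      have h1 := (hM _ _ _).1 ((third_of_isIso he ⟨a, hsub (by simp)⟩ ⟨b, hsub (by simp)⟩
        ⟨c, hsub (by simp)⟩).1 ((third_restrict _ _ _).2 h))
      rw [t1 ⟨a, hsub (by simp)⟩, t1 ⟨b, hsub (by simp)⟩, t1 ⟨c, hsub (by simp)⟩,
        ← third_restrict, third_of_isIso he, hM, h1.2]
      simpa using hop _ _ _ h1.1
    rcases hL.2.2 _ h.2.2.2 _ h'.2.2.2 hne ⟨a, by simp, by simp⟩ with h1 | h1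
    · exact gen da_third (by decide +kernel) h1
    · exact gen ag_third (by decide +kernel) h1
  by_cases ha : ∃ z, Third L x a z
  · exact key h ha.choose_spec
  by_cases hb : ∃ z, Third L x b z
  · exact (key h.swap12 hb.choose_spec).swap12
  by_cases hc : ∃ z, Third L x c z
  · exact (key h.swap23.swap12 hc.choose_spec).swap12.swap23
  rwa [lineMap_of_not ha, lineMap_of_not hb, lineMap_of_not hc]

theorem lineMap_distrib (hL : IsFischerSpace L) (x a b : X) :
    lineMap L x (lineMap L a b) = lineMap L (lineMap L x a) (lineMap L x b) := by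
  by_cases h : ∃ z, Third L a b z
  · obtain ⟨z, hz⟩ := h
    rw [lineMap_of_third hL.1 hz, lineMap_of_third hL.1 (third_lineMap hL x hz)]
  · rw [lineMap_of_not h]
    refine (lineMap_of_not ?_).symm
    rintro ⟨z, hz⟩
    have := third_lineMap hL x hz
    rw [lineMap_invol hL.1, lineMap_invol hL.1] at this
    exact h ⟨_, this⟩

/-! ### The line system of a set of 3-transpositions -/

variable {G : Type*} [Group G] {D : Set G}

theorem tl_eq (hG : IsThreeTranspositionGroup D) (x y : D) :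
    {z : D | (z : G) = x ∨ (z : G) = y ∨ (z : G) = (y : G) * (x : G) * (y : G)⁻¹} =
      {x, y, ⟨_, hG.2.1 y x x.2⟩} := by
  ext z
  simp only [Set.mem_setOf_eq, Set.mem_insert_iff, Set.mem_singleton_iff, Subtype.ext_iff]

theorem tl_third_of (hG : IsThreeTranspositionGroup D) {x y z : D} (h : ¬ Commute (x : G) y)
    (hz : (z : G) = x * y * x) : Third (threeTranspositionLines D) x y z := by
  refine ⟨fun h1 => h ?_, fun h1 => h ?_, fun h1 => h (by rw [h1]), x, y, h, ?_⟩
  · rw [h1, tt_braid hG.1 x.2 y.2 h] at hz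
    exact ((commute_iff_conj_eq (tt_sq hG.1 y.2)).2 hz.symm).symm
  · rw [h1] at hz
    exact (commute_iff_conj_eq (tt_sq hG.1 x.2)).2 hz.symm
  · rw [tl_eq hG]
    congr 3
    exact Subtype.ext (by rw [hz, tt_braid hG.1 x.2 y.2 h]; simp [tt_inv hG.1 y.2])

theorem tl_line (hG : IsThreeTranspositionGroup D) {l : Set D}
    (hl : l ∈ threeTranspositionLines D) : ∃ x y z : D, ¬ Commute (x : G) y ∧ (z : G) = x * y * x ∧
      l = {x, y, z} := by
  obtain ⟨x, y, h, rfl⟩ := hl
  exact ⟨x, y, _, h, by rw [tt_braid hG.1 x.2 y.2 h]; simp [tt_inv hG.1 y.2], tl_eq hG x y⟩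

theorem tl_ncard (hG : IsThreeTranspositionGroup D) :
    ∀ l ∈ threeTranspositionLines D, l.ncard = 3 := fun l hl => by
  obtain ⟨x, y, z, h, hz, rfl⟩ := tl_line hG hl
  obtain ⟨h1, h2, h3, -⟩ := tl_third_of hG h hz
  exact Set.ncard_eq_three.2 ⟨x, y, z, h3, h1.symm, h2.symm, rfl⟩

theorem tl_mem (hG : IsThreeTranspositionGroup D) {l : Set D}
    (hl : l ∈ threeTranspositionLines D) {a b : D} (ha : a ∈ l) (hb : b ∈ l) (hne : a ≠ b) :
    ¬ Commute (a : G) b ∧ ∀ c : D, c ∈ l ↔ c = a ∨ c = b ∨ (c : G) = a * b * a := by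
  obtain ⟨x, y, z, h, hz, rfl⟩ := tl_line hG hl
  have sx := tt_cancel hG.1 x.2
  have sy := tt_cancel hG.1 y.2
  have sx' := tt_sq hG.1 x.2
  have sy' := tt_sq hG.1 y.2
  have br := tt_braid' hG.1 x.2 y.2 h
  have br' := tt_braid hG.1 x.2 y.2 h
  have h1 : ¬ Commute (x : G) z := fun hc => h (by
    rw [hz] at hc
    have := (commute_conj_iff (x : G) _ _).2 hc
    simpa [mul_assoc, sx, sx', tt_inv hG.1 x.2] using this)
  have h2 : ¬ Commute (y : G) z := fun hc => h (by
    rw [hz, br'] at hc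
    have := (commute_conj_iff (y : G) _ _).2 hc
    simpa [mul_assoc, sy, sy', tt_inv hG.1 y.2] using this.symm)
  have e1 : (y : G) = x * z * x := by simp [hz, mul_assoc, sx, sx']
  have e2 : (x : G) = y * z * y := by simp [hz, br', mul_assoc, sy, sy']
  have e3 : (z : G) = y * x * y := by rw [hz, br']
  have e4 : (y : G) = z * x * z := by rw [← tt_braid hG.1 x.2 z.2 h1, ← e1]
  have e5 : (x : G) = z * y * z := by rw [← tt_braid hG.1 y.2 z.2 h2, ← e2]
  simp only [Set.mem_insert_iff, Set.mem_singleton_iff]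
  rcases ha with rfl | rfl | rfl <;> rcases hb with rfl | rfl | rfl
  · exact (hne rfl).elim
  · exact ⟨h, fun c => by rw [← hz, ← Subtype.ext_iff]⟩
  · exact ⟨h1, fun c => by rw [← e1, ← Subtype.ext_iff]; tauto⟩
  · exact ⟨fun h' => h h'.symm, fun c => by rw [← e3, ← Subtype.ext_iff]; tauto⟩
  · exact (hne rfl).elim
  · exact ⟨h2, fun c => by rw [← e2, ← Subtype.ext_iff]; tauto⟩
  · exact ⟨fun h' => h1 h'.symm, fun c => by rw [← e4, ← Subtype.ext_iff]; tauto⟩
  · exact ⟨fun h' => h2 h'.symm, fun c => by rw [← e5, ← Subtype.ext_iff]; tauto⟩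
  · exact (hne rfl).elim

theorem tl_third (hG : IsThreeTranspositionGroup D) (x y z : D) :
    Third (threeTranspositionLines D) x y z ↔ ¬ Commute (x : G) y ∧ (z : G) = x * y * x := by
  refine ⟨fun h => ?_, fun h => tl_third_of hG h.1 h.2⟩
  obtain ⟨h1, h2⟩ := tl_mem hG h.2.2.2 (a := x) (b := y) (by simp) (by simp) h.2.2.1
  rcases (h2 z).1 (by simp) with h3 | h3 | h3
  exacts [(h.1 h3).elim, (h.2.1 h3).elim, ⟨h1, h3⟩]

theorem tl_partialLinear (hG : IsThreeTranspositionGroup D) :
    IsPartialLinear (threeTranspositionLines D) := fun l hl m hm x y hne h1 h2 h3 h4 => by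
  ext c
  rw [(tl_mem hG hl h1 h2 hne).2, (tl_mem hG hm h3 h4 hne).2]

/-- a model of the subspace spanned by `T` -/
theorem tl_iso_of_model (hG : IsThreeTranspositionGroup D) {op : Y → Y → Y}
    (hM3 : ∀ l ∈ M, l.ncard = 3) (hM : ∀ x y z, Third M x y z ↔ op x y ≠ y ∧ z = op x y)
    {f : Y → G} (hfD : ∀ y, f y ∈ D) (hf : Function.Injective f)
    (hop : ∀ a b, f a * f b * f a = f (op a b)) {T : Set D} (hT : ∀ t ∈ T, ∃ y, f y = (t : G))
    (hgen : ∀ U : Set Y, (∀ y, (⟨f y, hfD y⟩ : D) ∈ T → y ∈ U) →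
      (∀ a ∈ U, ∀ b ∈ U, op a b ∈ U) → ∀ y, y ∈ U) :
    Isomorphic (restrict (threeTranspositionLines D) (span (threeTranspositionLines D) T)) M := by
  have hc : ∀ a b, ¬ Commute (f a) (f b) ↔ op a b ≠ b := fun a b => by
    rw [commute_iff_conj_eq (tt_sq hG.1 (hfD a)), hop, hf.eq_iff]
  have h1 : ∀ y, (⟨f y, hfD y⟩ : D) ∈ span (threeTranspositionLines D) T := by
    refine hgen {y | (⟨f y, hfD y⟩ : D) ∈ span (threeTranspositionLines D) T}
      (fun y hy => subset_span _ hy) fun a ha b hb => ?_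
    by_cases h : op a b = b
    · rwa [h]
    · exact Third.mem_subspace (span_isSubspace _) ((tl_third hG ⟨f a, hfD a⟩ ⟨f b, hfD b⟩ _).2
        ⟨(hc a b).2 h, (hop a b).symm⟩) ha hb
  have h2 : ∀ z ∈ span (threeTranspositionLines D) T, ∃ y, f y = (z : G) := fun z hz => by
    refine hz {z : D | ∃ y, f y = (z : G)} ⟨hT, ?_⟩
    rintro l hl x ⟨a, ha⟩ y ⟨b, hb⟩ hne hx hy c hc
    rcases ((tl_mem hG hl hx hy hne).2 c).1 hc with rfl | rfl | h
    exacts [⟨a, ha⟩, ⟨b, hb⟩, ⟨op a b, by rw [h, ← ha, ← hb, hop]⟩]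
  let F : Y → span (threeTranspositionLines D) T := fun y => ⟨_, h1 y⟩
  have hF : Function.Bijective F := ⟨fun a b h => hf (congrArg (fun t => t.1.1) h), fun z => by
    obtain ⟨y, hy⟩ := h2 z z.2
    exact ⟨y, Subtype.ext (Subtype.ext hy)⟩⟩
  refine ⟨(Equiv.ofBijective F hF).symm, isIso_of_third (restrict_ncard (tl_ncard hG) _) hM3 _
    fun a b c => ?_⟩
  obtain ⟨a, rfl⟩ := (Equiv.ofBijective F hF).surjective a
  obtain ⟨b, rfl⟩ := (Equiv.ofBijective F hF).surjective b
  obtain ⟨c, rfl⟩ := (Equiv.ofBijective F hF).surjective c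
  simp only [Equiv.symm_apply_apply, hM, third_restrict, tl_third hG]
  exact and_congr (hc a b) (by rw [← hf.eq_iff, ← hop]; rfl)

end Cfsg.Agent.Fischer
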