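import Mathlib
import Cfsg.Agent.Fischer.Refl3
import Cfsg.Agent.Classical.SpMat

/-! Transvections over the field with two elements. -/

set_option autoImplicit false

namespace Cfsg.Agent.Fischer.Trans2

open Cfsg Module Matrix

theorem finrank_range_eq_one_iff {F V W : Type*} [Field F] [AddCommGroup V] [Module F V]
    [AddCommGroup W] [Module F W] (f : V →ₗ[F] W) :
    finrank F (LinearMap.range f) = 1 ↔ ∃ y, f y ≠ 0 ∧ ∀ x, ∃ c : F, f x = c • f y := by
  rw [finrank_eq_one_iff']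
  constructor
  · rintro ⟨⟨_, y, rfl⟩, h0, h⟩
    refine ⟨y, fun e => h0 (Subtype.ext e), fun x => ?_⟩
    obtain ⟨c, hc⟩ := h ⟨f x, x, rfl⟩
    exact ⟨c, (congrArg Subtype.val hc).symm⟩
  · rintro ⟨y, h0, h⟩
    refine ⟨⟨f y, y, rfl⟩, fun e => h0 (congrArg Subtype.val e), ?_⟩
    rintro ⟨_, x, rfl⟩
    obtain ⟨c, hc⟩ := h x
    exact ⟨c, Subtype.ext hc.symm⟩

theorem rank_sub_one_iff {F ι : Type*} [Field F] [Fintype ι] [DecidableEq ι] (A : Matrix ι ι F) :
    (A - 1).rank = 1 ↔ ∃ y, A *ᵥ y - y ≠ 0 ∧ ∀ x, ∃ c : F, A *ᵥ x - x = c • (A *ᵥ y - y) := by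
  rw [Matrix.rank, finrank_range_eq_one_iff]
  simp [Matrix.sub_mulVec]

theorem zmod2_eq_one {a : ZMod 2} (h : a ≠ 0) : a = 1 := by revert a; decide

section Orth
open Cfsg.Agent.Orth QuadraticMap Refl3

variable {F V : Type*} [Field F] [AddCommGroup V] [Module F V] {Q : QuadraticForm F V}

theorem rk_eq_one_iff [FiniteDimensional F V] (hQ : ND Q) (g : OG Q) :
    rk g = 1 ↔ ∃ v, Q v ≠ 0 ∧ g = refl Q v := by
  constructor
  · intro h
    obtain ⟨y, h0, h⟩ := (finrank_range_eq_one_iff _).1 h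
    simp only [LinearMap.sub_apply, LinearMap.id_apply, LinearEquiv.coe_coe] at h0 h
    set v := g.1 y - y with hv
    have hy : g.1 y = y + v := by rw [hv]; abel
    have h1 : polar Q y v = - Q v := by
      have := OG.map_Q g y
      rw [hy, q_add] at this
      linear_combination this
    have h2 : ∀ x c, g.1 x - x = c • v → polar Q v x = - (c * Q v) := by
      intro x c hc
      have hx : g.1 x = x + c • v := by rw [← hc]; abel
      have := OG.map_polar g x y
      rw [hx, hy, polar_add_left, polar_add_right, polar_add_right, p_smul_left, p_smul_left,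
        p_self, polar_comm (⇑Q) v y, h1, polar_comm (⇑Q) x v] at this
      linear_combination this
    have h3 : Q v ≠ 0 := by
      intro h3
      obtain ⟨z, hz⟩ := hQ.exists_polar_one h0
      obtain ⟨c, hc⟩ := h z
      rw [h2 z c hc, h3] at hz
      simp at hz
    refine ⟨v, h3, OG.ext fun x => ?_⟩
    obtain ⟨c, hc⟩ := h x
    rw [refl_apply, h2 x c hc, sub_eq_iff_eq_add'.1 hc,
      show (Q v)⁻¹ * -(c * Q v) = -c by field_simp, neg_smul, sub_neg_eq_add]
  · rintro ⟨v, hv, rfl⟩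
    have := hQ.rk_refl_mul_of_notMem hv 1 (by
      rw [mem_mov]
      rintro ⟨w, hw⟩
      exact ne_zero_of_Q_ne_zero hv (by simpa using hw.symm))
    rw [mul_one] at this
    rw [this]
    have : mov (1 : OG Q) = ⊥ := by
      rw [eq_bot_iff]
      intro x hx
      obtain ⟨w, hw⟩ := mem_mov.1 hx
      simpa using hw.symm
    simp [rk, this]

theorem orth_class {V : Type*} [AddCommGroup V] [Module (ZMod 2) V]
    [FiniteDimensional (ZMod 2) V] {Q : QuadraticForm (ZMod 2) V} (hQ : ND Q)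
    (hn : 5 ≤ finrank (ZMod 2) V) : IsThreeTranspositionClass {g : OG Q | rk g = 1} := by
  have e : {g : OG Q | rk g = 1} = reflSet Q 1 := by
    ext g
    rw [Set.mem_setOf_eq, rk_eq_one_iff hQ]
    exact exists_congr fun v => and_congr_left fun _ =>
      ⟨zmod2_eq_one, fun h => by rw [h]; exact one_ne_zero⟩
  have h1 : ∀ g ∈ reflSet Q 1, g ≠ 1 := by
    rintro g hg rfl
    rw [← e] at hg
    have : mov (1 : OG Q) = ⊥ := by
      rw [eq_bot_iff]
      intro x hx
      obtain ⟨w, hw⟩ := mem_mov.1 hx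
      simpa using hw.symm
    rw [Set.mem_setOf_eq, rk, this] at hg
    simp at hg
  rw [e]
  refine class_of_group ⟨⟨?_, ?_⟩, fun g d hd => reflSet_conj g hd, ?_⟩ ?_ ?_
  · rintro _ ⟨v, hv, rfl⟩
    exact orderOf_two_of (refl_mul_self v) (h1 _ ⟨v, hv, rfl⟩)
  · rintro _ ⟨u, hu, rfl⟩ _ ⟨v, hv, rfl⟩
    by_cases h : polar Q u v = 0
    · exact Or.inl (sq_of_commute (refl_mul_self u) (refl_mul_self v) (commute_refl_of_orth h))
    · refine Or.inr (cube_of_braid (refl_mul_self u) (refl_mul_self v) ?_)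
      have h1 := refl_conj (refl Q u) v
      have h2 := refl_conj (refl Q v) u
      rw [refl_inv] at h1 h2
      rw [h1, h2, refl_apply, refl_apply, hu, hv, polar_comm (⇑Q) v u, zmod2_eq_one h,
        ← refl_neg, neg_sub]
      simp
  · exact hQ.top_of_refl (good_of_five_le hn) _ fun v hv =>
      Subgroup.subset_closure ⟨v, zmod2_eq_one hv, rfl⟩
  · obtain ⟨v, hv⟩ := hQ.exists_Q_eq (by omega) 1
    exact ⟨_, v, hv, rfl⟩
  · rintro _ ⟨u, hu, rfl⟩ _ ⟨v, hv, rfl⟩
    obtain ⟨g, rfl⟩ := witt_one hQ (ne_zero_of_Q_ne_zero (Q := Q) (by rw [hu]; exact one_ne_zero))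
      (ne_zero_of_Q_ne_zero (Q := Q) (by rw [hv]; exact one_ne_zero)) (hu.trans hv.symm)
    exact ⟨g, refl_conj g u⟩

theorem orth_class_matrix {ι : Type} [Fintype ι] [DecidableEq ι]
    {Q : QuadraticForm (ZMod 2) (ι → ZMod 2)} (hQ : ND Q) (hn : 5 ≤ Fintype.card ι) :
    IsThreeTranspositionClass {g : isometryGroup (ZMod 2) (⇑Q) |
      (((g : GL ι (ZMod 2)) : Matrix ι ι (ZMod 2)) - 1).rank = 1} := by
  have := class_of_equiv (toOG Q) (orth_class hQ (by simpa using hn))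
  simpa only [Set.preimage_setOf_eq, rk_toOG] using this

end Orth

section Sp
open Cfsg.Agent.Classical SpWitt

variable {V : Type*} [AddCommGroup V] [Module (ZMod 2) V] [FiniteDimensional (ZMod 2) V]
  {B : LinearMap.BilinForm (ZMod 2) V}

theorem sp_rank_iff (hB : B.Nondegenerate) (hA : B.IsAlt) (g : SG B) :
    (∃ y, g.1 y - y ≠ 0 ∧ ∀ x, ∃ c : ZMod 2, g.1 x - x = c • (g.1 y - y)) ↔
      ∃ v, v ≠ 0 ∧ g = tv hA v 1 := by
  constructor
  · rintro ⟨y, h0, h⟩
    set v := g.1 y - y with hv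
    have hy : g.1 y = y + v := by rw [hv]; abel
    have h2 : ∀ x c, g.1 x - x = c • v → B x v = c * B y v := by
      intro x c hc
      have hx : g.1 x = x + c • v := by rw [← hc]; abel
      have := SG.map g x y
      rw [hx, hy] at this
      simp only [map_add, map_smul, LinearMap.add_apply, LinearMap.smul_apply, smul_eq_mul,
        hA.self_eq_zero v, ← hA.neg_eq y v] at this
      linear_combination this
    have h3 : B y v = 1 := by
      apply zmod2_eq_one
      intro h3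
      obtain ⟨z, hz⟩ := exists_one hB hA.isRefl h0
      obtain ⟨c, hc⟩ := h z
      rw [← hA.neg_eq, h2 z c hc, h3] at hz
      simp at hz
    refine ⟨v, h0, SG.ext fun x => ?_⟩
    obtain ⟨c, hc⟩ := h x
    rw [tv_apply, h2 x c hc, h3, sub_eq_iff_eq_add'.1 hc, mul_one, one_mul]
  · rintro ⟨v, hv, rfl⟩
    obtain ⟨z, hz⟩ := exists_one hB hA.isRefl hv
    have hz' : B z v = 1 := by rw [← hA.neg_eq, hz]; rfl
    refine ⟨z, by simpa [tv_apply, hz'] using hv, fun x => ⟨B x v, by simp [tv_apply, hz']⟩⟩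

theorem sp_class (hB : B.Nondegenerate) (hA : B.IsAlt) [Nontrivial V] :
    IsThreeTranspositionClass {g : SG B | ∃ v, v ≠ 0 ∧ g = tv hA v 1} := by
  have hsq : ∀ v, tv hA v 1 * tv hA v 1 = 1 := fun v => by
    rw [← tv_add, show (1 + 1 : ZMod 2) = 0 from rfl, tv_zero]
  have htop : ∀ G : Subgroup (SG B), (∀ v, v ≠ 0 → tv hA v 1 ∈ G) → ∀ v c, tv hA v c ∈ G := by
    intro G hG v c
    by_cases hv : v = 0
    · rw [hv, tv_zero_vec]; exact G.one_mem
    by_cases hc : c = 0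
    · rw [hc, tv_zero]; exact G.one_mem
    · rw [zmod2_eq_one hc]; exact hG v hv
  refine class_of_group ⟨⟨?_, ?_⟩, ?_, ?_⟩ ?_ ?_
  · rintro _ ⟨v, hv, rfl⟩
    refine orderOf_two_of (hsq v) fun h => SpSimple.tv_ne_center hB hA hv ?_
    rw [h]; exact Subgroup.one_mem _
  · rintro _ ⟨u, hu, rfl⟩ _ ⟨v, hv, rfl⟩
    have h1 := conj_tv hA (tv hA u 1) v 1
    have h2 := conj_tv hA (tv hA v 1) u 1
    rw [inv_of_mul_self (hsq _), tv_apply] at h1 h2
    by_cases h : B v u = 0
    · refine Or.inl (sq_of_commute (hsq u) (hsq v) ((commute_iff_conj_eq (hsq u)).2 ?_))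
      rw [h1, h]; simp
    · refine Or.inr (cube_of_braid (hsq u) (hsq v) ?_)
      have h' : B u v = 1 := by rw [← hA.neg_eq, zmod2_eq_one h]; rfl
      rw [h1, h2, zmod2_eq_one h, h', add_comm]
      simp
  · rintro g _ ⟨v, hv, rfl⟩
    exact ⟨g.1 v, by simpa using hv, conj_tv hA g v 1⟩
  · exact eq_top_of_tv hB hA _ (htop _ fun v hv => Subgroup.subset_closure ⟨v, hv, rfl⟩)
  · obtain ⟨v, hv⟩ := exists_ne (0 : V)
    exact ⟨_, v, hv, rfl⟩
  · rintro _ ⟨u, hu, rfl⟩ _ ⟨v, hv, rfl⟩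
    obtain ⟨g, -, -, rfl⟩ := witt_step hB hA ⊤ (fun _ _ => Subgroup.mem_top _) ⊥ (u := u) (v := v)
      (by simpa using hu) (by simpa using hv) (by simp)
    exact ⟨g, conj_tv hA g u 1⟩

end Sp

end Cfsg.Agent.Fischer.Trans2
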