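import Cfsg.Agent.Fischer.QM
import Cfsg.Agent.Fischer.QG
import Cfsg.Agent.FiC.Tho

/-! Coset certificates and the amalgam argument used for the subgroups `U₄(3)` of `U₆(2)`. -/

set_option autoImplicit false
set_option linter.unusedSectionVars false
set_option linter.unusedVariables false

namespace Cfsg.Agent.FiC
open Cfsg.Agent.Comp Subgroup
open scoped commutatorElement

variable {G : Type*} [Group G]

/-- the equations `n r = r' b` -/
noncomputable def cosE (N R B : List (List ℕ)) (T : List (List (ℕ × List ℕ))) : List (List ℕ × List ℕ) :=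
  (List.range N.length).flatMap fun i => (List.range R.length).map fun j =>
    (nth [] N i ++ nth [] R j,
      nth [] R (nth (0, []) (nth [] T i) j).1 ++ flat B (nth (0, []) (nth [] T i) j).2)

section
variable {τ s : ℕ → G} {M : Subgroup G} {d : Dat}

theorem Cx.cosets [Finite G] (x : Cx τ s M d) (N R B : List (List ℕ)) (T : List (List (ℕ × List ℕ)))
    (h : d.eqs (cosE N ([] :: R) B T) = true) {g : G} (hg : g ∈ genW (sv s) N) :
    ∃ r ∈ [] :: R, ∃ b ∈ genW (sv s) B, g = E s r * b := by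
  let K : Submonoid G :=
    { carrier := {g | ∀ r ∈ [] :: R, ∃ r' ∈ [] :: R, ∃ b ∈ genW (sv s) B, g * E s r = E s r' * b}
      mul_mem' := fun {g h} hg hh r hr => by
        obtain ⟨r', h1, b, h2, e⟩ := hh r hr
        obtain ⟨r'', h3, b', h4, e'⟩ := hg r' h1
        exact ⟨r'', h3, b' * b, mul_mem h4 h2, by rw [mul_assoc, e, ← mul_assoc, e', mul_assoc]⟩
      one_mem' := fun r hr => ⟨r, hr, 1, one_mem _, by simp⟩ }
  have h1 : (genW (sv s) N).toSubmonoid ≤ K := by
    rw [genW, closure_toSubmonoid_of_finite, Submonoid.closure_le]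
    rintro _ ⟨w, hw, rfl⟩ r hr
    obtain ⟨i, -, hi, rfl⟩ := mem_drop (i := 0) hw
    obtain ⟨j, -, hj, rfl⟩ := mem_drop (i := 0) hr
    have := x.eqs h _ (List.mem_flatMap.2 ⟨i, List.mem_range.2 hi,
      List.mem_map_of_mem (List.mem_range.2 hj)⟩)
    exact ⟨_, (nth_mem [] ([] :: R) (nth (0, []) (nth [] T i) j).1).elim
      (fun e => List.mem_cons.2 (.inl e)) id, _, flat_mem le_rfl (nth (0, []) (nth [] T i) j).2,
      by simpa only [E, ev_append] using this⟩
  simpa [E] using h1 hg [] List.mem_cons_self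

theorem Cx.has_ord (x : Cx τ s M d) (W R I : List (List ℕ)) {p : ℕ} (hp : p.Prime) (Q : List ℕ)
    (h : lall (fun i => band (d.eqs [(wpow (flat (nth [] R i :: W) (nth [] I i)) p, [])])
      (d.mv (flat (nth [] R i :: W) (nth [] I i)) (nth 0 Q i))) (List.range R.length) = true) :
    ∀ r ∈ R, p ∣ Nat.card (genW (sv s) (r :: W)) := fun r hr => by
  obtain ⟨i, -, hi, rfl⟩ := mem_drop (i := 0) hr
  rw [← x.card1 _ p _ hp ((lall_eq _ _).1 h i (List.mem_range.2 hi))]
  exact card_dvd_of_le (zpowers_le.2 (flat_mem le_rfl _))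

theorem Cx.not_norm (x : Cx τ s M d) {V : List (List ℕ)} {p : ℕ}
    (hV : IsElementaryAbelian p (genW (sv s) V)) (R : List (List ℕ)) (C : List (ℕ × ℕ × ℕ))
    (h : lall (fun i => d.mv (cmw (nth [] R i ++ nth [] V (nth (0, 0, 0) C i).1 ++ iw (nth [] R i))
      (nth [] V (nth (0, 0, 0) C i).2.1)) (nth (0, 0, 0) C i).2.2) (List.range R.length) = true) :
    ∀ r ∈ R, E s r ∉ normalizer (genW (sv s) V : Set G) := fun r hr hn => by
  obtain ⟨i, -, hi, rfl⟩ := mem_drop (i := 0) hr
  refine x.ncm _ _ _ ((lall_eq _ _).1 h i (List.mem_range.2 hi)) ?_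
  rw [← E_cj]
  exact congrArg Subtype.val (hV.1.is_comm.comm
    (⟨_, Core.conj_mem_of_le_normalizer le_rfl hn (vals_mem le_rfl (nth (0, 0, 0) C i).1)⟩ :
      genW (sv s) V) ⟨_, vals_mem le_rfl (nth (0, 0, 0) C i).2.1⟩)

theorem Cx.orb3 (x : Cx τ s M d) {V : List (List ℕ)} (hV : IsElementaryAbelian 3 (genW (sv s) V))
    (W R : List (List ℕ)) (T : List (List ℕ × ℕ))
    (h : d.eqs ((List.range (3 ^ V.length)).map fun t =>
      (flat W (nth ([], 0) T t).1 ++ flat V (cw V.length t),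
        nth [] R (nth ([], 0) T t).2 ++ flat W (nth ([], 0) T t).1)) = true)
    {y : G} (hy : y ∈ genW (sv s) V) : ∃ r ∈ [] :: R, ∃ n ∈ genW (sv s) W, n * y * n⁻¹ = E s r := by
  obtain ⟨t, ht, w, hw, rfl⟩ := (PC.of_elem hV).coset hy V.length
  have := x.eqs h _ (List.mem_map_of_mem (List.mem_range.2 ht))
  refine ⟨_, List.mem_cons.2 (nth_mem [] R (nth ([], 0) T t).2), _,
    flat_mem le_rfl (nth ([], 0) T t).1, mul_inv_eq_of_eq_mul ?_⟩
  rw [PS_bot le_rfl, mem_bot] at hw
  rw [hw, mul_one, ← E_flat]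
  simpa only [E, ev_append] using this

end

variable [Finite G]

omit [Finite G] in
theorem comm_sup {L : Subgroup G} {σ : G} (h : σ ∈ normalizer (L : Set G)) :
    ⁅L ⊔ zpowers σ, L ⊔ zpowers σ⁆ ≤ L := by
  rw [zpowers_eq_closure, ← closure_eq L, ← Subgroup.closure_union, closure_eq]
  refine (class_p (p := 0) ?_ ?_ fun _ _ => by simp).1
  · rintro y (hy | rfl)
    exacts [le_normalizer hy, h]
  · rintro y (hy | rfl) w (hw | rfl)
    · exact commutator_le.1 (commutator_le_self L) y hy w hw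
    · simpa only [commutatorElement_def, mul_assoc] using
        mul_mem hy (Core.conj_mem_of_le_normalizer le_rfl h (inv_mem hy))
    · exact mul_mem (Core.conj_mem_of_le_normalizer le_rfl h hw) (inv_mem hw)
    · simp

/-- the local data at the prime `3` -/
structure AM (P J L : Subgroup G) (z σ : G) : Prop where
  cP : Nat.card P = 3 ^ 6
  nG : ¬ 3 ^ (6 + 1) ∣ Nat.card G
  cJ : centralizer ((⁅P, P⁆ : Subgroup G) : Set G) = J
  cZ : centralizer (P : Set G) = zpowers z
  z3 : Nat.card (zpowers z) = 3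
  zP : z ∈ P
  JP : J ≤ P
  PL : P ≤ L
  LJ : L ≤ normalizer (J : Set G)
  perf : L ≤ ⁅L, L⁆
  NJ : normalizer (J : Set G) ≤ L ⊔ zpowers σ
  σL : σ ∈ normalizer (L : Set G)

variable {P J L : Subgroup G} {z σ : G}

theorem AM.normP (h : AM P J L z σ) : normalizer (P : Set G) ≤ L ⊔ zpowers σ :=
  (h.cJ ▸ Core.le_normalizer_centralizer (Core.le_normalizer_commutator le_rfl le_rfl)).trans h.NJ

theorem AM.conj (h : AM P J L z σ) {K K' : Subgroup G} (hK : L ≤ K)
    (hσ : σ ∈ normalizer (K : Set G)) (hK' : P ≤ K') {g : G}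
    (e : K.map (MulAut.conj g).toMonoidHom = K') : K' = K ∧ g ∈ K ⊔ zpowers σ := by
  have h1 : P.map (MulAut.conj g).toMonoidHom ≤ K' := e ▸ map_mono (h.PL.trans hK)
  obtain ⟨k, hk⟩ := conj_of_card Nat.prime_three rfl
    (fun c => h.nG (c.trans (card_subgroup_dvd_card K')))
    ((P.map (MulAut.conj g).toMonoidHom).subgroupOf K') (P.subgroupOf K')
    ((Core.card_subgroupOf_of_le h1).trans ((card_map_of_injective (MulAut.conj g).injective).trans h.cP))
    ((Core.card_subgroupOf_of_le hK').trans h.cP)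
  have h2 : (k : G) * g ∈ K ⊔ zpowers σ := sup_le_sup_right hK _ (h.normP
    (mem_normalizer_fintype fun y hy => by
      simpa [mul_assoc, mem_subgroupOf] using hk.le ⟨⟨_, h1 ⟨y, hy, rfl⟩⟩, ⟨y, hy, rfl⟩, rfl⟩))
  have h3 : K' = K := (Core.eq_of_le_of_card_le (fun y hy => by
    have := mul_mem (mul_mem k.2 (e.le ⟨_, Core.inv_conj_mem_of_le_normalizer
      (sup_le le_normalizer (zpowers_le.2 hσ)) h2 hy, rfl⟩)) (inv_mem k.2)
    simpa [mul_assoc] using this) (by rw [← e, card_map_of_injective (MulAut.conj g).injective])).symm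
  exact ⟨h3, by simpa using mul_mem (inv_mem (mem_sup_left (h3.le k.2))) h2⟩

theorem AM.norm (h : AM P J L z σ) {K : Subgroup G} (hK : L ≤ K) (hσ : σ ∈ normalizer (K : Set G)) :
    normalizer (K : Set G) = K ⊔ zpowers σ :=
  le_antisymm (fun _ hg => (h.conj hK hσ (h.PL.trans hK) (mem_normalizer_iff_map_conj_eq.1 hg)).2)
    (sup_le le_normalizer (zpowers_le.2 hσ))

theorem AM.cls (h : AM P J L z σ) {b : G} (hb : b ∈ normalizer (zpowers z : Set G)) {K : Subgroup G}
    (e : ↥(L ⊔ zpowers b) ≃* K) : ∃ g, ∃ r ∈ normalizer (zpowers z : Set G),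
      K.map (MulAut.conj g).toMonoidHom = L ⊔ zpowers r := by
  obtain ⟨A, hA⟩ : ∃ A, A = L ⊔ zpowers b := ⟨_, rfl⟩
  rw [← hA] at e
  have hL : L ≤ A := hA ▸ le_sup_left
  have hP := h.PL.trans hL
  have c : ∀ ψ : A →* G, Function.Injective ψ → ∀ X ≤ A,
      Nat.card ((X.subgroupOf A).map ψ) = Nat.card X := fun ψ hψ X hX =>
    (card_map_of_injective hψ).trans (Core.card_subgroupOf_of_le hX)
  obtain ⟨g, hg⟩ := conj_of_card Nat.prime_three rfl h.nG
    ((P.subgroupOf A).map (K.subtype.comp e.toMonoidHom)) P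
    ((c _ (K.subtype_injective.comp e.injective) P hP).trans h.cP) h.cP
  obtain ⟨ψ, hψ'⟩ : ∃ ψ, ψ = (MulAut.conj g).toMonoidHom.comp (K.subtype.comp e.toMonoidHom) :=
    ⟨_, rfl⟩
  have hψ : Function.Injective ψ :=
    hψ' ▸ (MulAut.conj g).injective.comp (K.subtype_injective.comp e.injective)
  have hr : ψ.range = K.map (MulAut.conj g).toMonoidHom := by
    rw [hψ', MonoidHom.range_comp, MonoidHom.range_comp, MonoidHom.range_eq_top.2 e.surjective,
      ← MonoidHom.range_eq_map, range_subtype]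
  have hg' : (P.subgroupOf A).map ψ = P := by
    rw [hψ', ← map_map]; exact hg
  have cm : ∀ X ≤ A, (⁅X, X⁆ : Subgroup G).subgroupOf A = ⁅X.subgroupOf A, X.subgroupOf A⁆ :=
    fun X hX => map_injective A.subtype_injective (by
      rw [map_commutator, map_subgroupOf_eq_of_le hX,
        map_subgroupOf_eq_of_le ((commutator_le_self X).trans hX)])
  have ce : ∀ X Y : Subgroup G, X ≤ centralizer (Y : Set G) →
      (X.subgroupOf A).map ψ ≤ centralizer ((Y.subgroupOf A).map ψ : Set G) := by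
    rintro X Y hX _ ⟨a, ha, rfl⟩ _ ⟨y, hy, rfl⟩
    rw [← map_mul, ← map_mul, show y * a = a * y from Subtype.ext (hX ha y hy)]
  have nm : ∀ X Y : Subgroup G, X ≤ normalizer (Y : Set G) →
      (X.subgroupOf A).map ψ ≤ normalizer ((Y.subgroupOf A).map ψ : Set G) := fun X Y hX =>
    Core.map_le_normalizer_map (Core.subgroupOf_le_normalizer_subgroupOf hX A) ψ
  have hJ : (J.subgroupOf A).map ψ = J := Core.eq_of_le_of_card_le (by
    have := ce J ⁅P, P⁆ h.cJ.ge
    rwa [cm P hP, map_commutator, hg', h.cJ] at this) (c ψ hψ J (h.JP.trans hP)).ge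
  have hZ : ((zpowers z).subgroupOf A).map ψ = zpowers z := Core.eq_of_le_of_card_le (by
    have := ce _ P h.cZ.ge
    rwa [hg', h.cZ] at this) (c ψ hψ _ ((zpowers_le.2 h.zP).trans hP)).ge
  have hL' : (L.subgroupOf A).map ψ = L := Core.eq_of_le_of_card_le (by
    have h1 := nm L J h.LJ
    rw [hJ] at h1
    refine (map_mono (comap_mono h.perf)).trans ?_
    rw [← subgroupOf, cm L hL, map_commutator]
    exact (commutator_mono (h1.trans h.NJ) (h1.trans h.NJ)).trans (comm_sup h.σL)) (c ψ hψ L hL).ge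
  have hb' : b ∈ A := hA ▸ mem_sup_right (mem_zpowers b)
  refine ⟨g, ψ ⟨b, hb'⟩, hZ ▸ nm _ _ (zpowers_le.2 hb) ⟨⟨b, hb'⟩, mem_zpowers b, rfl⟩, ?_⟩
  rw [← hr, MonoidHom.range_eq_map, ← hL', ← MonoidHom.map_zpowers, ← Subgroup.map_sup]
  congr 1
  refine map_injective A.subtype_injective ?_
  rw [← MonoidHom.range_eq_map, range_subtype, Subgroup.map_sup, map_subgroupOf_eq_of_le hL,
    MonoidHom.map_zpowers]
  exact hA

theorem eq_of_le_ext {K K' : Subgroup G} (hσ : σ ∈ normalizer (K : Set G)) (h : K' ≤ K ⊔ zpowers σ)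
    (e : K ≃* K') (hp : _root_.commutator K = ⊤) : K' = K := by
  refine Core.eq_of_le_of_card_le ?_ (Nat.card_congr e.toEquiv).le
  have : _root_.commutator K' = ⊤ := by
    rw [_root_.commutator_def, ← map_equiv_top e, ← map_commutator, ← _root_.commutator_def, hp]
  rw [← range_subtype K', MonoidHom.range_eq_map, ← this, Core.map_commutator_subtype]
  exact (commutator_mono h h).trans (comm_sup hσ)

end Cfsg.Agent.FiC
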