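import Cfsg.Agent.Fischer.UB

/-! A presentation of `Ω₆⁻(2)` and the facts about a subgroup `U₄(3)` of `U₆(2)`. -/

set_option autoImplicit false
set_option linter.unusedSectionVars false
set_option linter.unusedVariables false

namespace Cfsg.Agent.FiC
open Cfsg.Agent.Comp Subgroup

variable {G : Type*} [Group G] [Finite G]

/-- relators of the rotation subgroup of `W(E₆)` -/
def RE : List (List ℕ) :=
  [0] :: ((List.finRange 6).map (fun i : Fin 6 => [i.1, 6 + i.1]) ++
    (List.finRange 6).flatMap fun i : Fin 6 => (List.finRange 6).map fun j : Fin 6 =>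
      wpow [6 + i.1, j.1] (CoxeterMatrix.E₆.M i j))

theorem card_o6p : Nat.card (_root_.commutator O6m) = 25920 := by
  obtain ⟨e⟩ := o6_u42 card_K4
  rw [Nat.card_congr e.toEquiv, card_u42 card_K4]

theorem univ_o6p : Univ (_root_.commutator O6m) 12 RE := fun G' _ t ht => by
  have h0 : t 0 = 1 := by simpa [ev_cons] using ht [0] List.mem_cons_self
  have h1 : ∀ i : Fin 6, t (6 + i) = (t i)⁻¹ := fun i => eq_inv_of_mul_eq_one_right (by
    simpa [ev_cons] using ht _ (List.mem_cons_of_mem _ (List.mem_append_left _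
      (List.mem_map_of_mem (List.mem_finRange i)))))
  have h2 : ∀ i j : Fin 6, ((t i)⁻¹ * t j) ^ CoxeterMatrix.E₆.M i j = 1 := fun i j => by
    simpa [ev_cons, ev_wpow, h1] using ht _ (List.mem_cons_of_mem _ (List.mem_append_right _
      (List.mem_flatMap.2 ⟨i, List.mem_finRange i, List.mem_map_of_mem (List.mem_finRange j)⟩)))
  let σ : ℕ → (Fin 2 → G') ⋊[mulAutArrow] Equiv.Perm (Fin 2) := fun i =>
    ⟨![(t i)⁻¹, t i], Equiv.swap 0 1⟩
  have h3 : ∀ i j, σ i * σ j = SemidirectProduct.inl ![(t i)⁻¹ * t j, t i * (t j)⁻¹] := fun i j => by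
    ext k <;> fin_cases k <;> rfl
  obtain ⟨φ, hφ⟩ := univ_o6 _ σ fun w hw => by
    obtain ⟨i, -, hw⟩ := List.mem_flatMap.1 hw
    obtain ⟨j, -, rfl⟩ := List.mem_map.1 hw
    have : (t i * (t j)⁻¹) ^ CoxeterMatrix.E₆.M i j = 1 := by
      rw [show t i * (t j)⁻¹ = t i * ((t i)⁻¹ * t j)⁻¹ * (t i)⁻¹ by group, conj_pow, inv_pow, h2]
      simp
    rw [ev_wpow, ev_cons, ev_single, h3, ← map_pow, ← map_one SemidirectProduct.inl]
    congr 1
    funext k
    fin_cases k
    exacts [h2 i j, this]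
  have h4 : ∀ g ∈ _root_.commutator O6m, (φ g).right = 1 := fun g hg =>
    (commutator_le (H₃ := (SemidirectProduct.rightHom.comp φ).ker)).2 (fun a _ b _ => by
      rw [MonoidHom.mem_ker, map_commutatorElement, commutatorElement_eq_one_iff_mul_comm]
      exact (by decide : ∀ x y : Equiv.Perm (Fin 2), x * y = y * x) _ _) hg
  have h5 : (_root_.commutator O6m).index = 2 := by
    have := card_mul_index (_root_.commutator O6m)
    rw [card_o6p, card_o6] at this
    omega
  let ψ : _root_.commutator O6m →* G' := MonoidHom.mk' (fun g => (φ g).left 0) fun a b => by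
    simp [h4 a a.2]
  have h6 : ∀ i < 6, t i ∈ ψ.range := fun i hi => by
    obtain ⟨a, ha⟩ := hφ 0 (by norm_num)
    obtain ⟨b, hb⟩ := hφ i hi
    have n : ∀ {c k}, φ c = σ k → c ∉ _root_.commutator O6m := fun {c k} e hc => by
      have := h4 c hc
      rw [e] at this
      exact absurd this (by decide : (Equiv.swap 0 1 : Equiv.Perm (Fin 2)) ≠ 1)
    refine ⟨⟨a * b, (mul_mem_iff_of_index_two h5).2 (iff_of_false (n ha) (n hb))⟩, ?_⟩
    show (φ (a * b)).left 0 = t i
    rw [map_mul, ha, hb, h3]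
    simp [h0]
  refine ⟨ψ, fun x hx => ?_⟩
  by_cases h : x < 6
  · exact h6 x h
  · have := h1 ⟨x - 6, by omega⟩
    rw [show 6 + ((⟨x - 6, by omega⟩ : Fin 6) : ℕ) = x by show 6 + (x - 6) = x; omega] at this
    exact this ▸ inv_mem (h6 _ (by show x - 6 < 6; omega))

theorem exists_hom_cpl {E S C : Subgroup G} (hC : E ⊔ S = C) (hn : S ≤ normalizer (E : Set G))
    (hc : Nat.card E * Nat.card S ≤ Nat.card C) {X : Type*} [Group X] (e : S ≃* X) :
    ∃ θ : C →* X, Function.Surjective θ ∧ ∀ g, θ g = 1 ↔ (g : G) ∈ E := by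
  subst hC
  have hd : Disjoint E S := by
    have h := Core.card_sup_mul_card_inf hn
    have h1 : Nat.card ↥(E ⊓ S) ≤ 1 :=
      Nat.le_of_mul_le_mul_left (h.trans_le (hc.trans_eq (mul_one _).symm)) Nat.card_pos
    exact disjoint_iff.2 (eq_bot_of_card_le _ h1)
  have : (E.subgroupOf (E ⊔ S)).Normal :=
    normal_subgroupOf_of_le_normalizer (sup_le le_normalizer hn)
  let q := (isComplement'_of_card_mul_and_disjoint (H := S.subgroupOf (E ⊔ S))
    (K := E.subgroupOf (E ⊔ S)) (by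
      rw [Core.card_subgroupOf_of_le le_sup_left, Core.card_subgroupOf_of_le le_sup_right,
        Core.card_sup_of_disjoint hn hd, mul_comm])
    (disjoint_def.2 fun h h' => Subtype.ext (disjoint_def.1 hd h' h))).QuotientMulEquiv.trans
      ((subgroupOfEquivOfLe le_sup_right).trans e)
  exact ⟨q.toMonoidHom.comp (QuotientGroup.mk' _), q.surjective.comp (QuotientGroup.mk'_surjective _),
    fun g => (map_eq_one_iff q q.injective).trans (QuotientGroup.eq_one_iff g)⟩

/-- the facts about a subgroup `K = U₄(3)` of `U₆(2)` and the class `D` of transvections -/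
def KF {G : Type*} [Group G] (D : Set G) (K : Subgroup G) : Prop :=
  ∃ u ∈ D, ∃ v ∈ D, (∀ y ∈ D, ∃ g ∈ K, g * u * g⁻¹ = y ∨ g * v * g⁻¹ = y) ∧
    Nonempty (↥(K ⊓ centralizer {u}) ≃* _root_.commutator O6m) ∧
    (∃ a ∈ K ⊓ centralizer {u}, ∃ y ∈ D, y ≠ u ∧ Commute a y ∧ Commute u y ∧
      ∀ w ∈ D, Commute a w → Commute u w → Commute y w → w = u ∨ w = y) ∧
    Nat.card ↥(K ⊓ centralizer {v}) = 5760 ∧
    ∃ θ : ↥(normalizer (K : Set G) ⊓ centralizer {v}) →* Equiv.Perm (Fin 6),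
      Function.Surjective θ ∧ Nat.card θ.ker = 16 ∧ ∀ g ∈ θ.ker, (g : G) ∈ K

theorem Base.kf {D : Set G} {τ s : ℕ → G} {d : Dat} {n : ℕ} (b : Base D τ s d n)
    {K T V S A : List (List ℕ)} {σ : List ℕ} (u v y I c₁ c₂ : List ℕ)
    (hK : Nat.card (genW (sv s) K) = 3265920)
    (hN : normalizer (genW (sv s) K : Set G) = genW (sv s) K ⊔ zpowers (E s σ))
    (hT : Nat.card (genW (sv s) T) = 25920 ∧ Nonempty (genW (sv s) T ≃* _root_.commutator O6m))
    (h1 : genW (sv s) (T ++ (V ++ A)) ≤ genW (sv s) K) (h2 : genW (sv s) S ≤ genW (sv s) (K ++ [σ]))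
    (hV : Nat.card (genW (sv s) V) = 16) (hS : Nonempty (genW (sv s) S ≃* Equiv.Perm (Fin 6)))
    (h3 : genW (sv s) S ≤ normalizer (genW (sv s) V : Set G)) (h4 : GE s (V ++ S) 11520)
    (h5 : GE s (V ++ A) 5760)
    (k1 : band (d.eqs [(σ ++ σ, [])]) (band (d.tp v fun _ => true)
      (d.ev [] .all fun S => d.orbs K [(u, c₁), (v, c₂)] fun R => subS S R)) = true)
    (k2 : band (d.orb K u c₁ fun O => Nat.ble 126 (pc d.B O))
      (band (d.orb K v c₂ fun O => Nat.ble 567 (pc d.B O))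
        (d.orb (K ++ [σ]) v c₂ fun O => Nat.ble 567 (pc d.B O))) = true)
    (k3 : band (d.com T [u] 1) (band (d.com (V ++ A) [v] 1) (d.com (V ++ S) [v] 1)) = true)
    (k4 : band (d.clique [y, u] (ivl 0 d.m))
      (d.ev [flat T I, u, y] (.and (.fx [0]) (.and (.fx [2]) (.fx [4]))) fun S =>
        d.ps [u, y] fun R => Nat.beq S R) = true) : KF D (genW (sv s) K) := by
  simp only [band_eq] at k1 k2 k3 k4
  have hσ : E s σ * E s σ = 1 := by simpa only [E, ev_append, ev_nil] using b.x.eq1 _ _ k1.1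
  have c1 := b.x.stab_le K u c₁ 126 k2.1
  have c2 := b.x.stab_le K v c₂ 567 k2.2.1
  have c3 := b.x.stab_le (K ++ [σ]) v c₂ 567 k2.2.2
  have m1 := b.x.com_le le_rfl k3.1
  have m2 := b.x.com_le le_rfl k3.2.1
  have m3 := b.x.com_le le_rfl k3.2.2
  have c4 := card_sup_two hσ (hN.ge (mem_sup_right (mem_zpowers _)))
  rw [genW_append, sup_le_iff] at h1
  rw [Cen_top1] at m1 m2 m3
  rw [genW_append, genW1, ← hN] at h2 c3
  rw [← hN] at c4
  have e1 : genW (sv s) T = genW (sv s) K ⊓ centralizer {E s u} :=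
    Core.eq_of_le_of_card_le (le_inf h1.1 m1) (by have := hT.1; omega)
  have hVK : genW (sv s) V ≤ genW (sv s) K := le_sup_left.trans ((genW_append s V A).ge.trans h1.2)
  have e2 : genW (sv s) V ⊔ genW (sv s) S = normalizer (genW (sv s) K : Set G) ⊓ centralizer {E s v} :=
    Core.eq_of_le_of_card_le (le_inf (sup_le (hVK.trans le_normalizer) h2)
      ((genW_append s V S).ge.trans m3)) (by rw [← genW_append]; unfold GE at h4; omega)
  obtain ⟨eS⟩ := hS
  obtain ⟨θ, t1, t2⟩ := exists_hom_cpl e2 h3 (by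
    rw [hV, Nat.card_congr eS.toEquiv, Nat.card_perm, Nat.card_fin, ← e2, ← genW_append]
    exact h4) eS
  have e3 := b.set_eq (D' := {w | w ∈ D ∧ Commute (E s (flat T I)) w ∧ Commute (E s u) w ∧
    Commute (E s y) w}) [flat T I, u, y] _ (fun _ h => h.1) (fun j hj => by
      simp only [Set.mem_setOf_eq, b.tau_mem hj, true_and, SE.sem]
      simp only [E, ev_single]
      exact Iff.rfl) _ k4.2
  have e4 := (b.x.clique k4.1).2
  have e5 := e3.ge (show E s y ∈ _ by simp)
  simp only [List.map_cons, List.map_nil, List.pairwise_cons, List.mem_singleton, forall_eq] at e4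
  refine ⟨E s u, (e3.ge (show E s u ∈ _ by simp)).1, E s v, b.tp_mem v k1.2.1, fun w hw => ?_,
    e1 ▸ hT.2, ⟨_, e1.le (flat_mem le_rfl I), _, e5.1, e4.1.1, e5.2.1, e5.2.2.1,
      fun w h1 h2 h3 h4 => by simpa using e3.le ⟨h1, h2, h3, h4⟩⟩,
    le_antisymm (by omega) (le_trans h5 (card_le_of_le (le_inf h1.2 m2))), θ, t1, ?_,
    fun g hg => hVK ((t2 g).1 hg)⟩
  · obtain ⟨j, hj, rfl⟩ := (b.mem w).1 hw
    obtain ⟨p, hp, g, hg, e⟩ := b.cover [] .all K _ k1.2.2 hj trivial
    simp only [List.mem_cons, List.not_mem_nil, or_false] at hp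
    exact ⟨g, hg, hp.imp (fun h => by rwa [h] at e) fun h => by rwa [h] at e⟩
  · rw [show θ.ker = (genW (sv s) V).subgroupOf _ from Subgroup.ext t2,
      Core.card_subgroupOf_of_le (e2 ▸ le_sup_left), hV]

end Cfsg.Agent.FiC
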