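import Cfsg.Agent.Fischer.UD

/-! Certificates for the amalgam argument. -/

set_option autoImplicit false
set_option linter.unusedSectionVars false
set_option linter.unusedVariables false

namespace Cfsg.Agent.FiC
open Cfsg.Agent.Comp Subgroup
open scoped commutatorElement

variable {G : Type*} [Group G] [Finite G] {τ s : ℕ → G} {M : Subgroup G} {d : Dat}

theorem Cx.perf (x : Cx τ s M d) (V I : List (List ℕ)) (J : List (ℕ × ℕ))
    (h : d.eqs (inE V (cmS V J) I) = true) : genW (sv s) V ≤ ⁅genW (sv s) V, genW (sv s) V⁆ :=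
  (x.leW V _ I h).trans (genW_le_iff.2 fun w hw => by
    obtain ⟨j, -, rfl⟩ := List.mem_map.1 hw
    exact (E_cmw (s := s) (nth [] V j.1) (nth [] V j.2)).symm ▸
      commutator_mem_commutator (vals_mem le_rfl j.1) (vals_mem le_rfl j.2))

theorem normJ_of {J L B : Subgroup G} {R R' : List (List ℕ)} {z σ : List ℕ} (hz : E s z ∈ J)
    (hB : B ≤ L) (hL : L ≤ normalizer (J : Set G))
    (h1 : ∀ y ∈ J, ∃ r ∈ [] :: z :: R', ∃ n ∈ L, n * y * n⁻¹ = E s r)
    (h2 : ∀ r ∈ [] :: R', NC ⊤ s [z] [r])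
    (h4 : ∀ g ∈ normalizer (zpowers (E s z) : Set G), ∃ r ∈ [] :: σ :: R, ∃ b ∈ B, g = E s r * b)
    (h5 : ∀ r ∈ R, E s r ∉ normalizer (J : Set G)) :
    normalizer (J : Set G) ≤ L ⊔ zpowers (E s σ) := fun g hg => by
  obtain ⟨r, hr, n, hn, e⟩ := h1 _ (Core.conj_mem_of_le_normalizer le_rfl hg hz)
  have e : n * g * E s z * (n * g)⁻¹ = E s r := by rw [← e]; group
  obtain rfl : r = z := by
    by_contra hne
    exact NC.not_conj (h2 r (by simpa only [List.mem_cons, hne, false_or] using hr)) _ e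
  obtain ⟨r', hr', b, hb, e'⟩ := h4 (n * g) (mem_normalizer_zpowers (e.symm ▸ mem_zpowers _))
  have h6 : E s r' ∈ L ⊔ zpowers (E s σ) := by
    rcases List.mem_cons.1 hr' with rfl | hr'
    · exact one_mem _
    rcases List.mem_cons.1 hr' with rfl | hr'
    · exact mem_sup_right (mem_zpowers _)
    · exact absurd ((eq_mul_inv_of_mul_eq e'.symm).symm ▸
        mul_mem (mul_mem (hL hn) hg) (inv_mem (hL (hB hb)))) (h5 r' hr')
  exact (eq_inv_mul_of_mul_eq e').symm ▸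
    mul_mem (inv_mem (mem_sup_left hn)) (mul_mem h6 (mem_sup_left (hB hb)))

theorem AM.cls' {P J : Subgroup G} {L : List (List ℕ)} {z σ : G} (h : AM P J (genW (sv s) L) z σ)
    {S : Type*} [Group S] (hp : _root_.commutator S = ⊤) (h11 : ¬ 11 ∣ Nat.card S) {ι : Type*}
    (K : ι → Subgroup G)
    (hK : ∀ i, genW (sv s) L ≤ K i ∧ σ ∈ normalizer (K i : Set G) ∧ Nonempty (K i ≃* S)) {b : G}
    (hb : b ∈ normalizer (zpowers z : Set G)) (i₀ : ι) (h0 : K i₀ = genW (sv s) L ⊔ zpowers b)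
    (hc : ∀ g ∈ normalizer (zpowers z : Set G), ∃ r, ∃ c ∈ genW (sv s) L, g = E s r * c ∧
      ((∃ i, E s r ∈ K i ⊔ zpowers σ) ∨ 11 ∣ Nat.card (genW (sv s) (r :: L))))
    {X : Subgroup G} (e : X ≃* S) : ∃ g i, X.map (MulAut.conj g).toMonoidHom = K i := by
  obtain ⟨e₀⟩ := (hK i₀).2.2
  obtain ⟨g, r, hr, hg⟩ := h.cls hb (((MulEquiv.subgroupCongr h0.symm).trans e₀).trans e.symm)
  obtain ⟨r, c, hc, rfl, h1⟩ := hc r hr
  have e' : X.map (MulAut.conj g).toMonoidHom ≃* S := ((MulAut.conj g).subgroupMap X).symm.trans e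
  rcases h1 with ⟨i, h1⟩ | h1
  · obtain ⟨h2, h3, ⟨f⟩⟩ := hK i
    refine ⟨g, i, eq_of_le_ext h3 (hg.trans_le (sup_le (h2.trans le_sup_left)
      (zpowers_le.2 (mul_mem h1 (mem_sup_left (h2 hc)))))) (f.trans e'.symm) ?_⟩
    rw [_root_.commutator_def, ← map_equiv_top f.symm, ← map_commutator, ← _root_.commutator_def, hp]
  · refine absurd (h1.trans ?_) h11
    rw [← Nat.card_congr e'.toEquiv]
    refine card_dvd_of_le (genW_le_iff.2 fun w hw => hg.ge ?_)
    rcases List.mem_cons.1 hw with rfl | hw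
    · simpa using mul_mem (mem_sup_right (mem_zpowers (E s w * c))) (mem_sup_left (inv_mem hc))
    · exact mem_sup_left (ev_mem_genW hw)

theorem ne_of_ord {K K' : Subgroup G} {L : List (List ℕ)} {u v : List ℕ}
    (h1 : genW (sv s) (L ++ [u]) = K) (h2 : genW (sv s) (L ++ [v]) = K')
    (h3 : ¬ 11 ∣ Nat.card K) (h : 11 ∣ Nat.card (genW (sv s) (v :: (L ++ [u])))) : K' ≠ K :=
  fun e => h3 (h.trans (card_dvd_of_le (genW_le_iff.2 fun w hw => by
    rcases List.mem_cons.1 hw with rfl | hw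
    · exact e.le (h2.le (ev_mem_genW (by simp)))
    · exact h1.le (ev_mem_genW hw))))

theorem Cx.isoW (x : Cx τ s M d) {G₀ : Type*} [Group G₀] {n : ℕ} {U W : List (List ℕ)}
    (h : GE s U n → Nat.card (genW (sv s) U) = n ∧ Nonempty (genW (sv s) U ≃* G₀)) (hg : GE s W n)
    (P : List (List ℕ × List ℕ)) (hc : d.sub U W P = true) :
    Nat.card (genW (sv s) W) = n ∧ Nonempty (genW (sv s) W ≃* G₀) := by
  have h1 := h (GE.sub x hg U P hc)
  rwa [Core.eq_of_le_of_card_le (x.sub U W P hc) (h1.1.trans_le hg)]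

end Cfsg.Agent.FiC
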