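import Cfsg.Agent.Fischer.UE
import Cfsg.Agent.Fischer.UD

/-! More facts about a subgroup `U₄(3)` of `U₆(2)`. -/

set_option autoImplicit false
set_option linter.unusedSectionVars false
set_option linter.unusedVariables false

namespace Cfsg.Agent.FiC
open Cfsg.Agent.Comp Subgroup

variable {G : Type*} [Group G] [Finite G] {τ s : ℕ → G} {M : Subgroup G} {d : Dat}

/-- the products of sublists -/
noncomputable def subs (a : List (List Nat)) : List (List Nat) :=
  @List.rec (List Nat) (fun _ => List (List Nat)) [[]] (fun u _ ih => ih ++ ih.map (u ++ ·)) a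

theorem PC.subs {a : List (List ℕ)} (h : PC s 2 a) {g : G} (hg : g ∈ genW (sv s) a) :
    ∃ w ∈ subs a, E s w = g := by
  suffices ∀ k i, i + k = a.length → ∀ g ∈ PS s a i, ∃ w ∈ FiC.subs (a.drop i), E s w = g from
    this a.length 0 (zero_add _) g hg
  intro k
  induction k with
  | zero =>
    intro i hi g hg
    rw [PS_bot (by omega)] at hg
    rw [List.drop_eq_nil_of_le (by omega)]
    exact ⟨[], List.mem_singleton_self _, hg.symm⟩
  | succ k ih =>
    intro i hi g hg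
    obtain ⟨j, hj, w, hw, rfl⟩ := h.split two_pos hg
    obtain ⟨u, hu, rfl⟩ := ih (i + 1) (by omega) w hw
    have hi : i < a.length := by omega
    rw [List.drop_eq_getElem_cons hi]
    obtain rfl | rfl : j = 0 ∨ j = 1 := by omega
    · exact ⟨u, List.mem_append_left _ hu, by simp⟩
    · exact ⟨_, List.mem_append_right _ (List.mem_map_of_mem hu), by
        simp [vals, nth_eq, List.getElem?_eq_getElem hi, E, ev_append]⟩

/-- a test for all entries of a list with their places -/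
noncomputable def lalli (p : List Nat → Nat → Bool) (l : List (List Nat)) : Bool :=
  lall (fun i => p (nth [] l i) i) (List.range l.length)

theorem lalli_of {p : List ℕ → ℕ → Bool} {l : List (List ℕ)} (h : lalli p l = true) :
    ∀ w ∈ l, ∃ i, p w i = true := fun w hw => by
  obtain ⟨i, hi, rfl⟩ := List.getElem_of_mem hw
  exact ⟨i, by simpa only [nth_eq, List.getD_eq_getElem _ _ hi] using
    (lall_eq _ _).1 h i (List.mem_range.2 hi)⟩

theorem Cx.tm (x : Cx τ s M d) {T : List (List ℕ)} (hT : PC s 2 T) (V F Z I J : List (List ℕ))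
    (h1 : lalli (fun w i => d.mv (w ++ w) (nth 0 (nth [] I i) 0) ||
      (Nat.blt (nth 0 (nth [] I i) 1) Z.length && d.eqs [(w, nth [] Z (nth 0 (nth [] I i) 1))]))
      (subs T) = true)
    (h2 : lalli (fun u i => d.eqs [(u, flat V (nth [] J i))] || d.eqs [(u, flat F (nth [] J i))] ||
      Nat.blt ((List.range Z.length).filter fun j =>
        !d.mv (cmw u (nth [] Z j)) (nth 0 (nth [] J i) j)).length 16) Z = true)
    {A : Subgroup G} (hA : A ≤ genW (sv s) T) (h3 : ∀ a ∈ A, a * a = 1) (h4 : 16 ≤ Nat.card A) :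
    A ≤ genW (sv s) V ∨ A ≤ genW (sv s) F := by
  have h5 : ∀ a ∈ A, ∃ j < Z.length, E s (nth [] Z j) = a := fun a ha => by
    obtain ⟨w, hw, rfl⟩ := hT.subs (hA ha)
    obtain ⟨i, hi⟩ := lalli_of h1 w hw
    rw [Bool.or_eq_true, Bool.and_eq_true, Nat.blt_eq] at hi
    exact hi.elim (fun e => absurd (by simpa only [E, ev_append] using h3 _ ha) (x.ne_one _ _ e))
      fun e => ⟨_, e.1, (x.eq1 _ _ e.2).symm⟩
  have h6 : ∀ a ∈ A, a ∈ genW (sv s) V ∨ a ∈ genW (sv s) F := fun a ha => by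
    obtain ⟨j, hj, rfl⟩ := h5 a ha
    obtain ⟨i, hi⟩ := lalli_of h2 _ (nth_mem_list hj)
    simp only [Bool.or_eq_true, Nat.blt_eq] at hi
    rcases hi with (e | e) | e
    exacts [.inl (x.eq1 _ _ e ▸ flat_mem le_rfl _), .inr (x.eq1 _ _ e ▸ flat_mem le_rfl _), by
      generalize hl : List.filter _ _ = l at e
      refine absurd (h4.trans ((Set.ncard_le_ncard (t := {b | b ∈ l.map fun k => E s (nth [] Z k)})
        (fun b hb => ?_) (List.finite_toSet _)).trans ?_)) (not_le.2 e)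
      · obtain ⟨k, hk, rfl⟩ := h5 b hb
        refine List.mem_map.2 ⟨k, hl ▸ List.mem_filter.2 ⟨List.mem_range.2 hk, ?_⟩, rfl⟩
        rw [Bool.not_eq_true', ← Bool.not_eq_true]
        exact fun c => x.ncm _ _ _ c (Inv.commute_of_mul_self (h3 _ ha) (h3 _ hb) (h3 _ (mul_mem ha hb)))
      · classical
        rw [← List.coe_toFinset, Set.ncard_coe_finset]
        exact (List.toFinset_card_le _).trans (List.length_map _).le]
  by_contra hc
  simp only [not_or, SetLike.not_le_iff_exists] at hc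
  obtain ⟨⟨a, a1, a2⟩, b, b1, b2⟩ := hc
  rcases h6 _ (mul_mem a1 b1) with e | e
  exacts [a2 ((mul_mem_cancel_right ((h6 b b1).resolve_right b2)).1 e),
    b2 ((mul_mem_cancel_left ((h6 a a1).resolve_left a2)).1 e)]

theorem Base.fixs {D : Set G} {n : ℕ} (b : Base D τ s d n) (W U : List (List ℕ))
    (h : d.ev W (cenSE W.length) (fun S => d.ps U fun R => Nat.beq S R) = true) (y : G) :
    (y ∈ D ∧ ∀ f ∈ genW (sv s) W, Commute f y) ↔ y ∈ U.map (E s) :=
  Iff.trans (and_congr_right fun _ => ⟨fun h => mem_Cen.2 ⟨mem_top _, fun w hw =>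
    (h _ (ev_mem_genW hw)).symm⟩, fun h f hf => mem_centralizer_singleton_iff.1
      ((genW_le.2 fun w hw => mem_centralizer_singleton_iff.2 ((mem_Cen.1 h).2 w hw).symm.eq :
        _ ≤ centralizer {y}) hf)⟩)
    (Set.ext_iff.1 (b.set_eq _ _ Set.inter_subset_left (b.cen_mem W) U h) y)

/-- the local facts -/
structure KW (D : Set G) (K E F T : Subgroup G) (v : G) : Prop where
  hv : v ∈ D
  cv : Nat.card ↥(K ⊓ centralizer {v}) ≤ 5760
  El : E ≤ K ⊓ centralizer {v}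
  Ec : Nat.card E = 16
  En : K ⊓ centralizer {v} ≤ normalizer (E : Set G)
  fx : ∀ y ∈ D, (∀ e ∈ E, Commute e y) → y = v
  fz : ∀ e ∈ E, (∀ y ∈ D, Commute v y → Commute e y) → e = 1
  dd : ∃ y ∈ D, ∃ g ∈ D, ∃ e ∈ E, ∃ e' ∈ E, ∃ k ∈ K ⊓ centralizer {v}, ∃ l ∈ K ⊓ centralizer {v},
    ∃ c, c = y * (e * y * e⁻¹) * y ∧ ¬ Commute y (e * y * e⁻¹) ∧ k ^ 5 = 1 ∧
      (∀ w ∈ D, Commute v w → Commute k w → w = v) ∧ ¬ Commute c (k * c * k⁻¹) ∧
      c * (k * c * k⁻¹) * c = l * c * l⁻¹ ∧ ¬ Commute e' c ∧ ¬ Commute g c ∧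
      ¬ Commute g (e' * c * e'⁻¹) ∧ ∀ i ∈ [1, 2, 3, 4], Commute (k ^ i * c * (k ^ i)⁻¹) g
  TK : T ≤ K
  Tc : Nat.card T = 128
  FT : F ≤ T
  Fc : Nat.card F = 16
  Fs : ∀ f ∈ F, f * f = 1
  Fp : ∀ y ∈ D, ∀ y' ∈ D, (∀ f ∈ F, Commute f y) → (∀ f ∈ F, Commute f y') → Commute y y'
  Fn : 17 ≤ {y | y ∈ D ∧ ∀ f ∈ F, Commute f y}.ncard
  Ft : ∃ f₀, ∀ f ∈ F, f ≠ 1 → ∃ k ∈ K ⊓ normalizer (F : Set G), k * f₀ * k⁻¹ = f
  Tm : ∀ A ≤ T, (∀ a ∈ A, a * a = 1) → 16 ≤ Nat.card A → A ≤ E ∨ A ≤ F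

theorem Base.kw {D : Set G} {n : ℕ} (b : Base D τ s d n) {K U V A T F N : List (List ℕ)}
    (S P I J : List (List ℕ)) (v c₂ y g e e' k l c f₀ : List ℕ) (p₁ p₂ p₃ p₄ p₅ : ℕ)
    (hK : Nat.card (genW (sv s) K) = 3265920)
    (h1 : genW (sv s) (U ++ (V ++ A)) ≤ genW (sv s) K) (h2 : genW (sv s) (T ++ N) ≤ genW (sv s) K)
    (hV : Nat.card (genW (sv s) V) = 16) (hV' : IsElementaryAbelian 2 (genW (sv s) V))
    (h3 : genW (sv s) A ≤ normalizer (genW (sv s) V : Set G)) (h5 : GE s (V ++ A) 5760)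
    (hT : Nat.card (genW (sv s) T) = 128) (h6 : genW (sv s) F ≤ genW (sv s) T)
    (hF : Nat.card (genW (sv s) F) = 16) (hF' : IsElementaryAbelian 2 (genW (sv s) F))
    (h7 : genW (sv s) N ≤ normalizer (genW (sv s) F : Set G))
    (h8 : ∀ {A : Subgroup G}, A ≤ genW (sv s) T → (∀ a ∈ A, a * a = 1) → 16 ≤ Nat.card A →
      A ≤ genW (sv s) V ∨ A ≤ genW (sv s) F)
    (k1 : band (band (d.orb K v c₂ fun O => Nat.ble 567 (pc d.B O)) (d.com (V ++ A) [v] 1))
      (band (lall (fun y => d.tp y fun _ => true) (v :: y :: g :: S)) (d.com S [v] 1)) = true)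
    (k2 : band (d.ev V (cenSE V.length) fun S => d.ps [v] fun R => Nat.beq S R)
      (d.ev [v, flat (V ++ A) k] (cenSE 2) fun S => d.ps [v] fun R => Nat.beq S R) = true)
    (k3 : lalli (fun w i => d.eqs [(w, [])] ||
      d.mv (cmw w (nth [] S (nth 0 (nth [] I i) 0))) (nth 0 (nth [] I i) 1)) (subs V) = true)
    (k4 : band (d.eqs [(c, y ++ (flat V e ++ y ++ iw (flat V e)) ++ y), (wpow (flat (V ++ A) k) 5, []),
        (c ++ (flat (V ++ A) k ++ c ++ iw (flat (V ++ A) k)) ++ c,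
          flat (V ++ A) l ++ c ++ iw (flat (V ++ A) l))])
      (d.com ([1, 2, 3, 4].map fun i => wpow (flat (V ++ A) k) i ++ c ++ iw (wpow (flat (V ++ A) k) i))
        [g] 1) = true)
    (k5 : band (band (d.mv (cmw y (flat V e ++ y ++ iw (flat V e))) p₁)
        (d.mv (cmw c (flat (V ++ A) k ++ c ++ iw (flat (V ++ A) k))) p₂))
      (band (d.mv (cmw (flat V e') c) p₃) (band (d.mv (cmw g c) p₄)
        (d.mv (cmw g (flat V e' ++ c ++ iw (flat V e'))) p₅))) = true)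
    (k6 : band (band (d.clique P (ivl 0 d.m)) (Nat.ble 17 P.length))
      (d.ev F (cenSE F.length) fun S => d.ps P fun R => Nat.beq S R) = true)
    (k7 : lalli (fun w i => d.eqs [(w, [])] ||
      d.eqs [(flat N (nth [] J i) ++ f₀ ++ iw (flat N (nth [] J i)), w)]) (subs F) = true) :
    KW D (genW (sv s) K) (genW (sv s) V) (genW (sv s) F) (genW (sv s) T) (E s v) := by
  classical
  simp only [band_eq, lall_eq, List.forall_mem_cons, Nat.ble_eq] at k1 k2 k4 k5 k6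
  have c2 := b.x.stab_le K v c₂ 567 k1.1.1
  have m2 := b.x.com_le le_rfl k1.1.2
  rw [Cen_top1] at m2
  rw [genW_append, sup_le_iff] at h1 h2
  have e1 : genW (sv s) (V ++ A) = genW (sv s) K ⊓ centralizer {E s v} :=
    Core.eq_of_le_of_card_le (le_inf h1.2 m2) (by unfold GE at h5; omega)
  have e2 := b.x.eqs k4.1
  have e3 := b.x.com k4.2 g List.mem_cons_self
  have e4 := (b.x.clique k6.1.1).2
  have e5 := b.fixs F P k6.2
  simp only [List.forall_mem_cons, E, ev_append, ev_wpow, ev_nil, E_iw, List.forall_mem_map] at e2 e3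
  refine ⟨b.tp_mem v k1.2.1.1, by omega, le_sup_left.trans ((genW_append s V A).ge.trans e1.le), hV,
    e1.ge.trans ((genW_append s V A).le.trans (sup_le le_normalizer h3)),
    fun y hy h => by simpa using (b.fixs V [v] k2.1 y).1 ⟨hy, h⟩, fun e he h => ?_,
    ⟨_, b.tp_mem y k1.2.1.2.1, _, b.tp_mem g k1.2.1.2.2.1, _, flat_mem le_rfl e, _, flat_mem le_rfl e',
      _, flat_mem e1.le k, _, flat_mem e1.le l, E s c, ?_, ?_, e2.2.1, fun w hw h h' => ?_, ?_, ?_,
      b.x.ncm _ _ _ k5.2.1, b.x.ncm _ _ _ k5.2.2.1, ?_, ?_⟩,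
    h2.1, hT, h6, hF, fun f hf => (sq f).symm.trans (hF'.2 f hf), fun y hy y' hy' h h' => ?_, ?_,
    ⟨E s f₀, fun f hf h => ?_⟩, fun A => h8⟩
  · obtain ⟨w, hw, rfl⟩ := (PC.of_elem hV').subs he
    obtain ⟨i, hi⟩ := lalli_of k3 w hw
    refine (Bool.or_eq_true _ _ ▸ hi).elim (b.x.eq1 _ _) fun c => (b.x.ncm _ _ _ c ?_).elim
    rcases nth_mem [] S (nth 0 (nth [] I i) 0) with e | e
    · rw [e]; exact Commute.one_right _
    · exact h _ (b.tp_mem _ (k1.2.1.2.2.2 _ e)) (b.x.com k1.2.2 v List.mem_cons_self _ e).symm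
  · simpa only [E_iw] using e2.1
  · simpa only [E_cj] using b.x.ncm _ _ _ k5.1.1
  · simpa using (b.fixs [v, flat (V ++ A) k] [v] k2.2 w).1 ⟨hw, fun f hf =>
      mem_centralizer_singleton_iff.1 ((genW_le.2 (by
        simp only [List.forall_mem_cons, mem_centralizer_singleton_iff]
        exact ⟨h, h', by simp⟩) : _ ≤ centralizer {w}) hf)⟩
  · simpa only [E_cj] using b.x.ncm _ _ _ k5.1.2
  · simpa only [E_iw] using e2.2.2.1
  · simpa only [E_cj] using b.x.ncm _ _ _ k5.2.2.2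
  · simpa only [E_iw, E, ev_wpow, List.forall_mem_cons] using e3
  · by_cases e : y = y'
    · rw [e]
    · have : Std.Symm (fun a b : G => Commute a b) := ⟨fun _ _ h => h.symm⟩
      exact (e4.imp fun h => h.2).forall_of_forall (fun _ _ => Commute.refl _)
        ((e5 y).1 ⟨hy, h⟩) ((e5 y').1 ⟨hy', h'⟩)
  · rw [show {y | y ∈ D ∧ ∀ f ∈ genW (sv s) F, Commute f y} = (P.map (E s)).toFinset from
      Set.ext fun y => (e5 y).trans (by simp), Set.ncard_coe_finset,
      List.toFinset_card_of_nodup (e4.imp fun h => h.1), List.length_map]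
    exact k6.1.2
  · obtain ⟨w, hw, rfl⟩ := (PC.of_elem hF').subs hf
    obtain ⟨i, hi⟩ := lalli_of k7 w hw
    exact (Bool.or_eq_true _ _ ▸ hi).elim (fun c => (h (b.x.eq1 _ _ c)).elim) fun c =>
      ⟨_, ⟨flat_mem h2.2 _, flat_mem h7 _⟩, (E_cj _ _).trans (b.x.eq1 _ _ c)⟩

end Cfsg.Agent.FiC
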