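import Cfsg.Agent.Fischer.UH
import Cfsg.Agent.Fischer.LC

/-! The hyperoval fixed by an elementary abelian subgroup of `U₄(3)` in `U₆(2)`. -/

set_option autoImplicit false
set_option linter.unusedSectionVars false
set_option linter.unusedVariables false

namespace Cfsg.Agent.FiC
open Cfsg.Agent.Comp Subgroup

variable {G : Type*} [Group G] [Finite G] {τ s : ℕ → G} {M : Subgroup G} {d : Dat}

/-- the hyperoval -/
structure KO (D : Set G) (K F : Subgroup G) (v : G) (y : Fin 6 → G) : Prop where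
  hy : ∀ i, y i ∈ D
  cy : ∀ i, 5760 < Nat.card ↥(K ⊓ centralizer {y i})
  fy : ∀ i, ∀ f ∈ F, Commute f (y i)
  fx : ∀ w ∈ D, (∀ f ∈ F, Commute f w) → (∃ i, y i = w) ∨ ∃ k ∈ K, k * v * k⁻¹ = w
  pr : ∀ f ∈ F, ∃ i j, f = y i * y j
  pm : ∀ i j, y i * y j ∈ F
  p6 : y 0 * y 1 * (y 2 * y 3) = y 4 * y 5
  ind : ∀ i j, i ≠ j → ∃ g ∈ D, ∀ k, Commute g (y k) ↔ k = i ∨ k = j
  nF : 5760 ≤ Nat.card ↥(K ⊓ normalizer (F : Set G))

theorem Base.ko {D : Set G} {n : ℕ} (b : Base D τ s d n) {K F N C : List (List ℕ)}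
    (Y P S I J₁ J₂ J₃ J₄ : List (List ℕ)) (v : List ℕ)
    (h1 : genW (sv s) ((F ++ N) ++ C) ≤ genW (sv s) K) (hF : IsElementaryAbelian 2 (genW (sv s) F))
    (h3 : genW (sv s) N ≤ normalizer (genW (sv s) F : Set G)) (h4 : GE s (F ++ N) 5760)
    (h5 : GE s C 25920)
    (k1 : band (band (lall (fun y => d.tp y fun _ => true) S) (d.com C [nth [] Y 0] 1))
      (band (Nat.beq Y.length 6 && Nat.beq S.length 36)
        (d.ev F (cenSE F.length) fun S => d.ps (Y ++ P) fun R => Nat.beq S R)) = true)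
    (k2 : band (lalli (fun w i => d.eqs [(flat N (nth [] J₁ i) ++ v ++ iw (flat N (nth [] J₁ i)), w)]) P)
      (lalli (fun w i => d.eqs [(flat N (nth [] J₂ i) ++ nth [] Y 0 ++ iw (flat N (nth [] J₂ i)), w)])
        Y) = true)
    (k3 : band (lalli (fun w i => d.eqs [(w, nth [] Y (nth 0 (nth [] J₃ i) 0 % 6) ++
        nth [] Y (nth 0 (nth [] J₃ i) 1 % 6))]) (subs F))
      (band (lall (fun i => lall (fun j => d.eqs [(nth [] Y i ++ nth [] Y j,
        flat F (nth [] J₄ (6 * i + j)))]) (List.range 6)) (List.range 6))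
      (d.eqs [(nth [] Y 0 ++ nth [] Y 1 ++ (nth [] Y 2 ++ nth [] Y 3), nth [] Y 4 ++ nth [] Y 5)])) = true)
    (k4 : lall (fun i => lall (fun j => Nat.beq i j || lall (fun k =>
      ((Nat.beq k i || Nat.beq k j) && d.eqs [(nth [] S (6 * i + j) ++ nth [] Y k,
        nth [] Y k ++ nth [] S (6 * i + j))]) || ((!Nat.beq k i && !Nat.beq k j) &&
      d.mv (cmw (nth [] S (6 * i + j)) (nth [] Y k)) (nth 0 (nth [] I (6 * i + j)) k)))
      (List.range 6)) (List.range 6)) (List.range 6) = true) :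
    KO D (genW (sv s) K) (genW (sv s) F) (E s v) fun i => E s (nth [] Y i) := by
  simp only [band_eq, lall_eq, List.mem_range, Bool.and_eq_true, Nat.beq_eq, Bool.or_eq_true,
    Bool.not_eq_true'] at k1 k2 k3 k4
  rw [genW_append, genW_append, sup_le_iff, sup_le_iff] at h1
  have e1 := b.fixs F (Y ++ P) k1.2.2
  have e2 : ∀ i : Fin 6, nth [] Y i ∈ Y := fun i => nth_mem_list (by omega)
  have e3 := fun i : Fin 6 => (e1 _).2 (List.mem_map_of_mem (List.mem_append_left P (e2 i)))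
  have m2 := b.x.com_le le_rfl k1.1.2
  rw [Cen_top1] at m2
  refine ⟨fun i => (e3 i).1, fun i => ?_, fun i => (e3 i).2, fun w hw h => ?_, fun f hf => ?_,
    fun i j => ?_, by have := b.x.eq1 _ _ k3.2.2; simp only [E, ev_append] at this; exact this, fun i j h => ?_, ?_⟩
  · obtain ⟨j, hj⟩ := lalli_of k2.2 _ (e2 i)
    obtain ⟨e, -⟩ := LF.cen_conj (genW (sv s) K) (le_normalizer (flat_mem h1.1.2 (nth [] J₂ j)))
      (E s (nth [] Y 0))
    rw [← (b.x.eq1 _ _ hj), ← E_cj, Nat.card_congr e.toEquiv]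
    exact lt_of_lt_of_le (by norm_num) (h5.trans (card_le_of_le (le_inf h1.2 m2)))
  · obtain ⟨u, hu, rfl⟩ := List.mem_map.1 ((e1 w).1 ⟨hw, h⟩)
    rcases List.mem_append.1 hu with hu | hu
    · obtain ⟨i, hi, rfl⟩ := List.getElem_of_mem hu
      exact .inl ⟨⟨i, by omega⟩, by rw [nth_eq, List.getD_eq_getElem _ _ hi]⟩
    · obtain ⟨j, hj⟩ := lalli_of k2.1 _ hu
      exact .inr ⟨_, flat_mem h1.1.2 _, (E_cj _ _).trans (b.x.eq1 _ _ hj)⟩
  · obtain ⟨w, hw, rfl⟩ := (PC.of_elem hF).subs hf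
    obtain ⟨i, hi⟩ := lalli_of k3.1 w hw
    exact ⟨⟨_, Nat.mod_lt _ (by norm_num)⟩, ⟨_, Nat.mod_lt _ (by norm_num)⟩,
      by simpa only [E, ev_append] using b.x.eq1 _ _ hi⟩
  · have := b.x.eq1 _ _ (k3.2.1 i i.2 j j.2)
    simp only [E, ev_append] at this ⊢
    exact this ▸ flat_mem le_rfl _
  · refine ⟨_, b.tp_mem _ (k1.1.1 _ (nth_mem_list (i := 6 * i + j) (by omega))), fun k => ?_⟩
    simp only [Fin.ext_iff]
    rcases (k4 i i.2 j j.2).resolve_left (Fin.val_ne_of_ne h) k k.2 with e | e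
    · exact iff_of_true (by simpa only [E, ev_append, commute_iff_eq] using b.x.eq1 _ _ e.2) e.1
    · exact iff_of_false (b.x.ncm _ _ _ e.2) (by simpa [← Bool.not_eq_true] using e.1)
  · exact h4.trans (card_le_of_le (by
      rw [genW_append]; exact le_inf (sup_le h1.1.1 h1.1.2) (sup_le le_normalizer h3)))

end Cfsg.Agent.FiC
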